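/-
Project LOWDIM, step `CitSp4`: involutions of type `c₂` in `Sp₄(F)`, characteristic two.
-/
import Cfsg.Agent.Low.Sp4Even

set_option autoImplicit false

namespace CL.Low.Cit4

open Matrix Cfsg Cfsg.Geo CL.Asch CL.SLn Module

universe u

variable {F : Type u} [Field F]

/-- The standard symplectic form on `F⁴`. -/
noncomputable abbrev sβ (F : Type u) [Field F] : LinearMap.BilinForm F (I4 → F) := CL.Sp.stdForm (Fin 2) F

theorem sβ_self (v : I4 → F) : sβ F v v = 0 := (CL.Sp.stdForm_isAlt (Fin 2) F).self_eq_zero v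

theorem sβ_comm (h2 : (2 : F) = 0) (u v : I4 → F) : sβ F u v = sβ F v u := by
  rw [← (CL.Sp.stdForm_isAlt (Fin 2) F).neg_eq v u]; linear_combination (-sβ F v u) * h2

theorem sβ_ext {u v : I4 → F} (h : ∀ x, sβ F u x = sβ F v x) : u = v :=
  sub_eq_zero.1 ((CL.Sp.stdForm_nondegenerate (Fin 2) F).1 _ fun x => by
    rw [map_sub, LinearMap.sub_apply, h, sub_self])

theorem sβ_smul {g : GL I4 F} (hg : g ∈ spGL 2 F) (u v : I4 → F) : sβ F (g • u) (g • v) = sβ F u v :=
  sympForm_smul_smul hg u v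

theorem sβ_smul_left {g : GL I4 F} (hg : g ∈ spGL 2 F) (u v : I4 → F) : sβ F (g • u) v = sβ F u (g⁻¹ • v) := by
  rw [← sβ_smul hg u, smul_inv_smul]

theorem exists_sβ_eq_one {e : I4 → F} (he : e ≠ 0) : ∃ v, sβ F e v = 1 := by
  obtain ⟨y, hy⟩ : ∃ y, sβ F e y ≠ 0 := by
    by_contra h
    push Not at h
    exact he (sβ_ext fun x => by simp [h])
  exact ⟨(sβ F e y)⁻¹ • y, by rw [map_smul, smul_eq_mul, inv_mul_cancel₀ hy]⟩

theorem prop_of_perp {e x : I4 → F} (he : e ≠ 0) (h : ∀ v, sβ F e v = 0 → sβ F x v = 0) : ∃ a : F, x = a • e := by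
  obtain ⟨y, hy⟩ := exists_sβ_eq_one he
  refine ⟨sβ F x y, sβ_ext fun v => ?_⟩
  have := h (v - sβ F e v • y) (by simp [hy])
  simp only [map_sub, map_smul, smul_eq_mul, LinearMap.smul_apply] at this ⊢
  linear_combination this

theorem two_smul_eq_zero (h2 : (2 : F) = 0) (v : I4 → F) : (2 : F) • v = 0 := by rw [h2, zero_smul]

theorem sub_comm_two (h2 : (2 : F) = 0) (u v : I4 → F) : u - v = v - u := by
  linear_combination (norm := module) two_smul_eq_zero h2 (u - v)

theorem sq_inj_two (h2 : (2 : F) = 0) {a b : F} (h : a ^ 2 = b ^ 2) : a = b :=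
  sub_eq_zero.1 (pow_eq_zero_iff two_ne_zero |>.1 (by linear_combination h + (b ^ 2 - a * b) * h2))

theorem gl4_ext {g h : GL I4 F} (e : ∀ v : I4 → F, g • v = h • v) : g = h :=
  Units.ext (CL.Sp.matrix_ext_mulVec e)

/-- `t` is an involution of type `c₂` with distinguished vector `e`. -/
structure C2 (t : GL I4 F) (e : I4 → F) : Prop where
  two : (2 : F) = 0
  sp : t ∈ spGL 2 F
  sq : t * t = 1
  ne : e ≠ 0
  ntv : ¬ IsTv t
  phi : ∀ v, sβ F v (t • v) = sβ F e v ^ 2
  im : ∀ x : I4 → F, t • x = x → ∃ v, x = t • v - v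
  span : ∀ x y : I4 → F, t • x = x → t • y = y → (∃ a : F, x = a • e) ∨ ∃ a b : F, y = a • e + b • x
  perp : ∀ v, sβ F e v = 0 → ∃ a : F, t • v = v + a • e

theorem exists_c2 [Finite F] (h2 : (2 : F) = 0) {t : GL I4 F} (hs : t ∈ spGL 2 F) (ht : t * t = 1) (h1 : ¬ IsTv t)
    (h3 : ∃ v, sympForm 2 F v (t • v) ≠ 0) : ∃ e, C2 t e := by
  have hsq := sq_sub_one_of_two h2 ht
  set N := toLin' ((t : Matrix I4 I4 F) - 1) with hN
  have hNx : ∀ x, t • x = x + N x := fun x => by
    rw [hN, toLin'_apply, sub_mulVec, one_mulVec, add_sub_cancel]; rfl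
  have hNN : ∀ x, N (N x) = 0 := fun x => by
    rw [hN, toLin'_apply, toLin'_apply, mulVec_mulVec, hsq, zero_mulVec]
  have hsym : ∀ u v, sβ F u (N v) = sβ F (N u) v := fun u v => by
    have := sβ_smul hs u (t • v)
    rw [← mul_smul, ht, one_smul, hNx, hNx] at this
    simp only [map_add, LinearMap.add_apply] at this
    linear_combination -this
  have hφ : ∀ v, sβ F v (t • v) = sβ F v (N v) := fun v => by rw [hNx, map_add, sβ_self, zero_add]
  choose s hs' using exists_sq_of_two_eq_zero h2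
  let ℓ : Dual F (I4 → F) :=
    { toFun := fun v => s (sβ F v (N v))
      map_add' := fun u v => sq_inj_two h2 (by
        rw [add_sq, hs', hs', hs']
        simp only [map_add, LinearMap.add_apply]
        rw [hsym u v, sβ_comm h2 v (N u)]
        linear_combination (sβ F (N u) v - s (sβ F u (N u)) * s (sβ F v (N v))) * h2)
      map_smul' := fun c v => sq_inj_two h2 (by
        simp only [map_smul, LinearMap.smul_apply, smul_eq_mul, RingHom.id_apply, mul_pow, hs']
        ring) }
  obtain ⟨e, he⟩ := ((sβ F).toDual (CL.Sp.stdForm_nondegenerate (Fin 2) F)).surjective ℓ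
  have hphi : ∀ v, sβ F v (N v) = sβ F e v ^ 2 := fun v => by
    rw [← hs' (sβ F v (N v))]
    exact congrArg (· ^ 2) (LinearMap.congr_fun he v).symm
  have he0 : e ≠ 0 := by
    rintro rfl
    obtain ⟨v, hv⟩ := h3
    exact hv ((CL.Sp.stdForm_eq_sympForm _ _).symm.trans ((hφ v).trans (by simp [hphi])))
  have hle : LinearMap.range N ≤ LinearMap.ker N := by rintro _ ⟨x, rfl⟩; exact hNN x
  have h4 := LinearMap.finrank_range_add_finrank_ker N
  have h5 := Submodule.finrank_mono hle
  have h6 : finrank F (LinearMap.range N) ≠ 1 := fun e => h1 (isTv_of_rank hsq e)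
  have h7 : finrank F (LinearMap.range N) ≠ 0 := fun e0 => by
    obtain ⟨v, hv⟩ := exists_sβ_eq_one he0
    have : N v ∈ (⊥ : Submodule F (I4 → F)) := Submodule.finrank_eq_zero.1 e0 ▸ ⟨v, rfl⟩
    have h8 := hphi v
    rw [(Submodule.mem_bot F).1 this, hv] at h8
    simp at h8
  have h4' : finrank F (I4 → F) = 4 := by simp
  have hk : finrank F (LinearMap.ker N) = 2 := by omega
  have heq : LinearMap.range N = LinearMap.ker N := Submodule.eq_of_le_of_finrank_le hle (by omega)
  have hfix : ∀ x, t • x = x ↔ N x = 0 := fun x => by rw [hNx, add_eq_left]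
  have hperp : ∀ x, N x = 0 → sβ F e x = 0 := fun x hx => by
    have := hphi x
    rw [hx, map_zero] at this
    exact pow_eq_zero_iff two_ne_zero |>.1 this.symm
  have hNe : N e = 0 := sβ_ext fun v => by rw [← hsym, hperp _ (hNN v)]; simp
  refine ⟨e, h2, hs, ht, he0, h1, fun v => (hφ v).trans (hphi v), fun x hx => ?_, fun x y hx hy => ?_, fun v hv => ?_⟩
  · obtain ⟨v, rfl⟩ : x ∈ LinearMap.range N := heq ▸ (hfix x).1 hx
    exact ⟨v, by rw [hNx, add_sub_cancel_left]⟩
  · refine or_iff_not_imp_left.2 fun hn => ?_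
    push Not at hn
    have hli : LinearIndependent F ![e, x] := (LinearIndependent.pair_iff' he0).2 fun a => (hn a).symm
    have hr : Submodule.span F (Set.range ![e, x]) = LinearMap.ker N := by
      refine Submodule.eq_of_le_of_finrank_le ?_ (by rw [finrank_span_eq_card hli, hk]; simp)
      rw [Submodule.span_le]
      rintro _ ⟨i, rfl⟩
      fin_cases i
      · exact hNe
      · exact (hfix x).1 hx
    obtain ⟨c, hc⟩ := (Submodule.mem_span_range_iff_exists_fun F).mp (hr.ge ((hfix y).1 hy))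
    exact ⟨c 0, c 1, by rw [← hc, Fin.sum_univ_two]; rfl⟩
  · rw [hNx]
    by_cases h0 : N v = 0
    · exact ⟨0, by rw [h0, zero_smul]⟩
    have e1 : LinearMap.ker N < LinearMap.ker N ⊔ Submodule.span F {v} :=
      left_lt_sup.2 fun e => h0 (e (Submodule.mem_span_singleton_self v))
    have e2 : LinearMap.ker N ⊔ Submodule.span F {v} ≤ LinearMap.ker (sβ F e) :=
      sup_le hperp ((Submodule.span_singleton_le_iff_mem _ _).2 hv)
    have e3 : LinearMap.ker (sβ F e) ≠ ⊤ := fun e => by
      obtain ⟨y, hy⟩ := exists_sβ_eq_one he0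
      exact one_ne_zero (hy.symm.trans (show y ∈ LinearMap.ker (sβ F _) from e ▸ Submodule.mem_top))
    have e4 := Submodule.finrank_lt e3
    have e5 := Submodule.finrank_lt_finrank_of_lt e1
    have e6 := Submodule.eq_of_le_of_finrank_le e2 (by omega)
    obtain ⟨a, ha⟩ := prop_of_perp (x := N v) he0 fun u hu => by
      obtain ⟨x, hx, y, hy, rfl⟩ := Submodule.mem_sup.1 (e6.ge hu)
      obtain ⟨c, rfl⟩ := Submodule.mem_span_singleton.1 hy
      rw [map_add, map_smul, ← hsym v x, show N x = 0 from hx, ← hsym, hphi, hv]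
      simp
    exact ⟨a, by rw [ha]⟩

namespace C2

variable {t g : GL I4 F} {e x y v : I4 → F} (c : C2 t e)
include c

theorem tt (v : I4 → F) : t • t • v = v := by rw [← mul_smul, c.sq, one_smul]

theorem adj (u v : I4 → F) : sβ F (t • u) v = sβ F u (t • v) := by rw [← sβ_smul c.sp u, c.tt]

theorem fix_sub (v : I4 → F) : t • (t • v - v) = t • v - v := by
  rw [smul_sub, c.tt]; exact sub_comm_two c.two _ _

theorem perp_of_fix (hx : t • x = x) : sβ F e x = 0 := by
  have := c.phi x
  rw [hx, sβ_self] at this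
  exact pow_eq_zero_iff two_ne_zero |>.1 this.symm

theorem iso (hx : t • x = x) (hy : t • y = y) : sβ F x y = 0 := by
  obtain ⟨v, rfl⟩ := c.im x hx
  rw [map_sub, LinearMap.sub_apply, c.adj, hy, sub_self]

theorem fix_of_perp (h : ∀ x, t • x = x → sβ F x v = 0) : t • v = v := sβ_ext fun u => by
  have := h _ (c.fix_sub u)
  rw [map_sub, LinearMap.sub_apply, sub_eq_zero] at this
  rw [c.adj, sβ_comm c.two, this, sβ_comm c.two]

theorem fix_e : t • e = e := c.fix_of_perp fun _ hx => by rw [sβ_comm c.two, c.perp_of_fix hx]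

theorem phi_conj (hg : g ∈ spGL 2 F) (v : I4 → F) : sβ F v ((g * t * g⁻¹) • v) = sβ F (g • e) v ^ 2 := by
  rw [sβ_smul_left hg, ← c.phi, ← sβ_smul hg (g⁻¹ • v), smul_inv_smul, mul_smul, mul_smul]

variable (hg : g ∈ spGL 2 F) (h : g * t = t * g)
include hg h

theorem fix : g • e = e := sβ_ext fun v => sq_inj_two c.two (by
  rw [← c.phi_conj hg, h, mul_inv_cancel_right, c.phi])

theorem d1 (v : I4 → F) : sβ F e (g • v - v) = 0 := by
  rw [map_sub, ← sβ_smul hg e v, c.fix hg h, sub_self]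

theorem d2 (hv : sβ F e v = 0) : t • (g • v - v) = g • v - v := by
  obtain ⟨a, ha⟩ := c.perp v hv
  rw [smul_sub, ← mul_smul, ← h, mul_smul, ha, smul_add, smul_comm g a, c.fix hg h]
  abel

theorem d3 (hx : t • x = x) : ∃ a : F, g • x - x = a • e := prop_of_perp c.ne fun v hv => by
  have h1 : t • g • x = g • x := by rw [← mul_smul, ← h, mul_smul, hx]
  have := c.iso h1 (c.d2 hg h hv)
  rw [map_sub, sβ_smul hg] at this
  rw [map_sub, LinearMap.sub_apply]
  linear_combination -this

omit hg h in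
theorem dd (g : GL I4 F) (v : I4 → F) : g • (g • v - v) - (g • v - v) = (g * g) • v - v := by
  rw [smul_sub, mul_smul, sub_comm_two c.two (g • v) v]; abel

theorem fix_sq (v : I4 → F) : t • ((g * g) • v - v) = (g * g) • v - v := by
  rw [← c.dd]; exact c.d2 hg h (c.d1 hg h v)

theorem pow_four : g ^ 4 = 1 := gl4_ext fun v => by
  obtain ⟨a, ha⟩ := c.d3 hg h (c.fix_sq hg h v)
  have h1 := c.dd g ((g * g) • v - v)
  rw [ha, smul_comm g a, c.fix hg h, sub_self, eq_comm, c.dd, sub_eq_zero] at h1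
  rw [one_smul, show g ^ 4 = g * g * (g * g) by simp only [pow_succ, pow_zero, one_mul, mul_assoc], h1]

/-- A square root of `t` fixes only the multiples of `e`. -/
theorem prop_of_root (hs : g * g = t) (hx : g • x = x) : ∃ a : F, x = a • e := by
  have h1 : t • x = x := by rw [← hs, mul_smul, hx, hx]
  by_contra hn
  have h3 : ∀ y : I4 → F, t • y = y → g • y = y := fun y hy => by
    obtain ⟨a, b, rfl⟩ := (c.span x y h1 hy).resolve_left hn
    rw [smul_add, smul_comm g a, smul_comm g b, c.fix hg h, hx]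
  obtain ⟨v, hv⟩ := exists_sβ_eq_one c.ne
  have h4 : t • (g • v - v) = g • v - v := c.fix_of_perp fun y hy => by
    rw [map_sub, ← sβ_smul hg y v, h3 y hy, sub_self]
  have h5 := c.dd g v
  rw [h3 _ h4, sub_self, hs, eq_comm, sub_eq_zero] at h5
  exact one_ne_zero (hv.symm.trans (c.perp_of_fix h5))

end C2

end CL.Low.Cit4
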