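/-
Project LOWDIM, step `CitSp4`: a group `SL₂(2ⁿ)` in `Sp₄(F)` with involutions of type `c₂` that is absolutely
irreducible fixes a quadratic form.
-/
import Cfsg.Agent.Low.CitA

set_option autoImplicit false

namespace CL.Low.Cit4

open Matrix Cfsg Cfsg.Geo CL.Asch CL.SLn Module

universe u

variable {F : Type u} [Field F]

theorem eq_zero_of_fix {P : Subgroup (GL I4 F)} (hP : spanAlg P = ⊤) {v : I4 → F} (h : ∀ g ∈ P, g • v = v) :
    v = 0 := by
  rcases irr_iff.1 (irr_of_spanAlg_eq_top hP) (Submodule.span F {v}) (fun g hg x hx => by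
    obtain ⟨a, rfl⟩ := Submodule.mem_span_singleton.1 hx
    have : g • a • v = a • v := by rw [smul_comm g a, h g hg]
    exact (show (g : Matrix I4 I4 F) *ᵥ a • v = a • v from this).symm ▸ hx) with e | e
  · exact Submodule.span_singleton_eq_bot.1 e
  · by_contra h0
    have := finrank_span_singleton (K := F) h0
    rw [e] at this
    simp at this

/-- Generators and relations of `SL₂(2ⁿ)`. -/
structure SL2Dat (P : Subgroup (GL I4 F)) (t w : GL I4 F) (H : Subgroup (GL I4 F)) : Prop where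
  sp : P ≤ spGL 2 F
  span : spanAlg P = ⊤
  wP : w ∈ P
  HP : H ≤ P
  ww : w * w = 1
  braid : t * w * t = w * t * w
  comm : ∀ h ∈ H, ∀ k ∈ H, h * k = k * h
  inv : ∀ h ∈ H, h * w = w * h⁻¹
  odd : ∀ h ∈ H, ∃ n, h ^ (2 * n + 1) = 1
  cent : ∀ h ∈ H, h * t * h⁻¹ * t = t * (h * t * h⁻¹)
  gen : ∀ Q : GL I4 F → Prop, (∀ h ∈ H, Q (h * t * h⁻¹)) → Q w → (∀ a b, Q a → Q b → Q (a * b)) → ∀ g ∈ P, Q g

/-- The projection along the hyperbolic pair `e, f`. -/
noncomputable def pr (e f : I4 → F) : (I4 → F) →ₗ[F] (I4 → F) :=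
  LinearMap.id - (sβ F e).smulRight f - (sβ F f).smulRight e

theorem pr_apply (e f v : I4 → F) : pr e f v = v - sβ F e v • f - sβ F f v • e := rfl

namespace SL2Dat

variable {P H : Subgroup (GL I4 F)} {t w h k : GL I4 F} {e x v : I4 → F} (d : SL2Dat P t w H) (c : C2 t e)
include d

theorem gen' (Q : GL I4 F → Prop) (ht : Q t) (hw : Q w) (hH : ∀ h ∈ H, Q h) (hm : ∀ a b, Q a → Q b → Q (a * b)) :
    ∀ g ∈ P, Q g :=
  d.gen Q (fun h hh => hm _ _ (hm _ _ (hH h hh) ht) (hH _ (inv_mem hh))) hw hm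

theorem eq_top {U : Submodule F (I4 → F)} (h0 : v ≠ 0) (hv : v ∈ U) (ht : ∀ u ∈ U, t • u ∈ U) (hw : ∀ u ∈ U, w • u ∈ U)
    (hH : ∀ h ∈ H, ∀ u ∈ U, h • u ∈ U) : U = ⊤ :=
  (irr_iff.1 (irr_of_spanAlg_eq_top d.span) U (d.gen' (fun g => ∀ u ∈ U, g • u ∈ U) ht hw hH
    fun a b ha hb u hu => by rw [mul_smul]; exact ha _ (hb u hu))).resolve_left fun e => h0 (by simpa [e] using hv)

theorem eq_zero (h1 : ∀ h ∈ H, (h * t * h⁻¹) • v = v) (h2 : w • v = v) : v = 0 :=
  eq_zero_of_fix d.span (d.gen (fun g => g • v = v) h1 h2 fun a b ha hb => by rw [mul_smul, hb, ha])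

theorem wsp : w ∈ spGL 2 F := d.sp d.wP

theorem hsp (hh : h ∈ H) : h ∈ spGL 2 F := d.sp (d.HP hh)

theorem w_w (v : I4 → F) : w • w • v = v := by rw [← mul_smul, d.ww, one_smul]

theorem adj (u v : I4 → F) : sβ F (w • u) v = sβ F u (w • v) := by rw [← sβ_smul d.wsp u, d.w_w]

theorem h_w (hh : h ∈ H) (v : I4 → F) : h • w • v = w • h⁻¹ • v := by rw [← mul_smul, d.inv h hh, mul_smul]

theorem h_k (hh : h ∈ H) (hk : k ∈ H) (v : I4 → F) : h • k • v = k • h • v := by
  rw [← mul_smul, d.comm h hh k hk, mul_smul]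

theorem twt (v : I4 → F) : t • w • t • v = w • t • w • v := by simp only [← mul_smul, ← mul_assoc, d.braid]

include c

theorem fix_conj (hh : h ∈ H) : (h * t * h⁻¹) • e = e :=
  c.fix (mul_mem (mul_mem (d.hsp hh) c.sp) (inv_mem (d.hsp hh))) (d.cent h hh)

/-- The quadratic case is impossible. -/
theorem exists_smul (hh : h ∈ H) : ∃ a : F, h • e = a • e := by
  by_contra hn
  have h1 : ∀ k ∈ H, t • k • e = k • e := fun k hk => by
    have := d.fix_conj c (inv_mem hk)
    rwa [inv_inv, mul_smul, mul_smul, inv_smul_eq_iff] at this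
  have h2 : ∀ x : I4 → F, t • x = x → ∀ k ∈ H, t • k • x = k • x := fun x hx k hk => by
    obtain ⟨a, b, rfl⟩ := (c.span _ x (h1 h hh) hx).resolve_left hn
    rw [smul_add k, smul_comm k a, smul_comm k b, smul_add, smul_comm t a, smul_comm t b, h1 k hk, ← mul_smul k h,
      h1 _ (mul_mem hk hh)]
  have h3 : ∀ x : I4 → F, t • x = x → t • w • x = w • x + x := fun x hx => by
    have e1 := d.twt x
    rw [hx] at e1
    have e2 : t • (x - (t • w • x - w • x)) = x - (t • w • x - w • x) := by rw [smul_sub, hx, c.fix_sub]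
    have e3 := d.eq_zero (v := x - (t • w • x - w • x)) (fun k hk => by
      rw [mul_smul, mul_smul, h2 _ e2 _ (inv_mem hk), smul_inv_smul]) (by
      rw [smul_sub, smul_sub, ← e1, d.w_w]; abel)
    rw [sub_eq_zero] at e3
    rw [← sub_eq_iff_eq_add', ← e3]
  have h4 : ∀ v : I4 → F, ∃ x y : I4 → F, t • x = x ∧ t • y = y ∧ v = x + w • y := fun v =>
    ⟨v - w • (t • v - v), t • v - v, by rw [smul_sub, h3 _ (c.fix_sub v)]; abel, c.fix_sub v, by abel⟩
  let M : Matrix I4 I4 F := h.1 * (1 - w.1 * (t.1 - 1)) + w.1 * h.1 * (t.1 - 1)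
  have hM : ∀ x y : I4 → F, t • x = x → t • y = y → M *ᵥ (x + w • y) = h • x + w • h • y := fun x y hx hy => by
    have e1 : (t.1 - 1) *ᵥ (x + w • y) = y := by
      rw [sub_mulVec, one_mulVec]
      change t • (x + w • y) - _ = _
      rw [smul_add, hx, h3 y hy]; abel
    rw [add_mulVec, ← mulVec_mulVec, ← mulVec_mulVec, ← mulVec_mulVec, sub_mulVec, ← mulVec_mulVec, e1, one_mulVec]
    change h • (x + w • y - w • y) + w • h • y = _
    rw [add_sub_cancel_right]
  obtain ⟨a, ha⟩ := scalar_of_comm_span d.span (x := M) fun l hl => CL.Sp.matrix_ext_mulVec fun v => by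
    rw [← mulVec_mulVec, ← mulVec_mulVec]
    refine d.gen' (fun g => ∀ v, g • (M *ᵥ v) = M *ᵥ (g • v)) (fun v => ?_) (fun v => ?_) (fun k hk v => ?_)
      (fun a b ha hb v => by rw [mul_smul, mul_smul, hb, ha]) l hl v <;> obtain ⟨x, y, hx, hy, rfl⟩ := h4 v
    · rw [hM x y hx hy, smul_add, smul_add, hx, h3 y hy, h2 x hx h hh, h3 _ (h2 y hy h hh), add_comm (w • y), ← add_assoc,
        ← add_assoc, hM _ _ (by rw [smul_add, hx, hy]) hy, smul_add]
      abel
    · rw [hM x y hx hy, smul_add, smul_add, d.w_w, d.w_w, add_comm (w • x), hM y x hy hx, add_comm]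
    · rw [hM x y hx hy, smul_add, smul_add, d.h_w hk, d.h_w hk, hM _ _ (h2 x hx k hk) (h2 y hy _ (inv_mem hk)),
        d.h_k hh hk, d.h_k hh (inv_mem hk)]
  have := hM e 0 c.fix_e (smul_zero _)
  rw [ha, smul_zero, smul_zero, smul_zero, add_zero, add_zero, smul_mulVec, one_mulVec] at this
  exact hn ⟨a, this.symm⟩

theorem w_t_w : w • t • w • e = t • w • e := by rw [← d.twt, c.fix_e]

theorem kappa : sβ F e (w • e) = 1 := by
  have h1 : sβ F e (w • e) ^ 2 = sβ F e (w • e) := by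
    rw [← c.phi, d.adj, d.w_t_w c, ← c.adj, c.fix_e]
  refine mul_left_cancel₀ (fun h0 => ?_) (by rw [← sq, h1, mul_one] : sβ F e (w • e) * _ = _)
  obtain ⟨a, ha⟩ := c.perp _ h0
  have he : e ∈ Submodule.span F {e, w • e} := Submodule.subset_span (by simp)
  have hf : w • e ∈ Submodule.span F {e, w • e} := Submodule.subset_span (by simp)
  have key : ∀ g : GL I4 F, g • e ∈ Submodule.span F {e, w • e} → g • w • e ∈ Submodule.span F {e, w • e} →
      ∀ u ∈ Submodule.span F {e, w • e}, g • u ∈ Submodule.span F {e, w • e} := fun g h1 h2 u hu => by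
    obtain ⟨a, b, rfl⟩ := Submodule.mem_span_pair.1 hu
    rw [smul_add, smul_comm g a, smul_comm g b]
    exact add_mem (Submodule.smul_mem _ _ h1) (Submodule.smul_mem _ _ h2)
  have h2 := d.eq_top c.ne he (key t (by rwa [c.fix_e]) (ha ▸ add_mem hf (Submodule.smul_mem _ _ he)))
    (key w hf (by rwa [d.w_w])) fun h hh => by
      obtain ⟨a, ha⟩ := d.exists_smul c hh
      obtain ⟨b, hb⟩ := d.exists_smul c (inv_mem hh)
      exact key h (ha ▸ Submodule.smul_mem _ _ he) (by rw [d.h_w hh, hb, smul_comm w b]; exact Submodule.smul_mem _ _ hf)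
  obtain ⟨v, hv⟩ := exists_sβ_eq_one c.ne
  obtain ⟨a, b, rfl⟩ := Submodule.mem_span_pair.1 (h2.ge (Submodule.mem_top (x := v)))
  simp [sβ_self, h0] at hv

theorem exists_quad :
    ∃ Q : (I4 → F) → F, IsNondegenerateQuadraticForm Q ∧ FixesQuadForm (matrixSet P) Q := by
  have h2 := c.two
  have sy := sβ_comm h2
  have hef := d.kappa c
  have hwt := d.w_t_w c
  obtain ⟨f, hf⟩ : ∃ f, f = w • e := ⟨_, rfl⟩
  have hwf : w • f = e := by rw [hf, d.w_w]
  rw [← hf] at hef hwt
  have hfe : sβ F f e = 1 := by rw [sy, hef]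
  obtain ⟨y, hy⟩ : ∃ y, y = t • f - f - e := ⟨_, rfl⟩
  have htf : t • f = y + f + e := by rw [hy]; abel
  have hwy : w • y = y := by rw [hy, smul_sub, smul_sub, hwt, hwf, ← hf]; abel
  have hey : sβ F e y = 0 := by rw [hy, map_sub, map_sub, ← c.adj, c.fix_e, sβ_self]; ring
  have hfy : sβ F f y = 0 := by rw [hy, map_sub, map_sub, c.phi, sβ_self, hef, hfe]; ring
  have hye : sβ F y e = 0 := by rw [sy, hey]
  have hyf : sβ F y f = 0 := by rw [sy, hfy]
  have hpe : ∀ v, sβ F e (pr e f v) = 0 := fun v => by simp [pr_apply, hef, sβ_self]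
  have hpf : ∀ v, sβ F f (pr e f v) = 0 := fun v => by simp [pr_apply, hfe, sβ_self]
  have hpy : ∀ v, sβ F y (pr e f v) = sβ F y v := fun v => by simp [pr_apply, hye, hyf]
  have hp : ∀ m, sβ F e m = 0 → sβ F f m = 0 → pr e f m = m := fun m h1 h2 => by simp [pr_apply, h1, h2]
  have htm : ∀ m, sβ F e m = 0 → sβ F f m = 0 → t • m = m + sβ F y m • e := fun m h1 h3 => by
    obtain ⟨a, ha⟩ := c.perp m h1
    have := sβ_smul c.sp f m
    rw [ha, htf] at this
    simp only [map_add, map_smul, LinearMap.add_apply, smul_eq_mul, h1, h3, hye, hfe, sβ_self] at this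
    rw [ha, show a = sβ F y m by linear_combination this - sβ F y m * h2]
  have hwm : ∀ m, sβ F e m = 0 → sβ F f m = 0 → w • m = m + sβ F y m • y := fun m h1 h3 => by
    have e1 := d.twt m
    have e2 := htm (w • m) (by rw [← d.adj, ← hf, h3]) (by rw [← d.adj, hwf, h1])
    rw [← d.adj, hwy] at e2
    rw [htm m h1 h3, e2, smul_add w m, smul_add w, smul_add t, smul_comm w (sβ F y m), smul_comm t (sβ F y m), ← hf, htf,
      e2, d.w_w] at e1
    generalize w • m = z at e1
    linear_combination (norm := module) e1 - two_smul_eq_zero h2 (sβ F y m • (y + e))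
  have hH : ∀ k ∈ H, ∃ a b : F, a * b = 1 ∧ k • e = a • e ∧ k • f = b • f ∧ k⁻¹ • e = b • e ∧ k⁻¹ • f = a • f :=
    fun k hk => by
      obtain ⟨a, ha⟩ := d.exists_smul c hk
      obtain ⟨b, hb⟩ := d.exists_smul c (inv_mem hk)
      have e1 : k • f = b • f := by rw [hf, d.h_w hk, hb, smul_comm w b]
      have e2 := sβ_smul (d.hsp hk) e f
      rw [ha, e1] at e2
      refine ⟨a, b, by simpa [hef, mul_comm] using e2, ha, e1, hb, by rw [hf, d.h_w (inv_mem hk), inv_inv, ha, smul_comm w a]⟩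
  have hpt : ∀ v, pr e f (t • v) = pr e f v + sβ F e v • y := fun v => by
    have e1 := htm _ (hpe v) (hpf v)
    rw [hpy, pr_apply, smul_sub, smul_sub, smul_comm t, smul_comm t, htf, c.fix_e] at e1
    rw [pr_apply, pr_apply, ← c.adj, ← c.adj, c.fix_e, htf]
    simp only [map_add, LinearMap.add_apply]
    generalize t • v = z at e1
    linear_combination (norm := module) e1
  have hpw : ∀ v, pr e f (w • v) = w • pr e f v := fun v => by
    rw [pr_apply, pr_apply, ← d.adj, ← d.adj, smul_sub, smul_sub, smul_comm w, smul_comm w, hwf, ← hf]; abel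
  have hpk : ∀ k ∈ H, ∀ v, pr e f (k • v) = k • pr e f v := fun k hk v => by
    obtain ⟨a, b, -, e1, e2, e3, e4⟩ := hH k hk
    rw [pr_apply, pr_apply, smul_sub, smul_sub, smul_comm k, smul_comm k, e1, e2, sy e, sy f,
      sβ_smul_left (d.hsp hk), sβ_smul_left (d.hsp hk), e3, e4, map_smul, map_smul, sy v, sy v, smul_smul, smul_smul,
      smul_eq_mul, smul_eq_mul, mul_comm a, mul_comm b]
  have hpy' : pr e f y = y := hp y hey hfy
  have hδ : ∀ h ∈ H, h⁻¹ • y = h • y + sβ F y (h • y) • y := fun h hh => by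
    have e1 : h • y = pr e f (h • y) := by rw [hpk h hh, hpy']
    rw [← hwm _ (e1 ▸ hpe _) (e1 ▸ hpf _), ← inv_inv h, ← d.h_w (inv_mem hh), hwy, inv_inv]
  obtain ⟨h, hh, hδ0⟩ : ∃ h ∈ H, sβ F y (h • y) ≠ 0 := by
    by_contra hn
    push Not at hn
    have e1 : ∀ h ∈ H, h • y = y := fun h hh => by
      have e2 := hδ h hh
      rw [hn h hh, zero_smul, add_zero, inv_smul_eq_iff, ← mul_smul, ← sq] at e2
      obtain ⟨n, hn⟩ := d.odd h hh
      have e3 : (h ^ 2) ^ n • y = y := (MulAction.stabilizer (GL I4 F) y).pow_mem e2.symm n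
      conv_lhs => rw [← e3, ← mul_smul, ← pow_mul, ← pow_succ', hn, one_smul]
    have e2 : y = 0 := d.eq_zero (fun h hh => by
      rw [mul_smul, mul_smul, e1 _ (inv_mem hh), htm y hey hfy, sβ_self, zero_smul, add_zero, e1 h hh]) hwy
    refine c.ntv ⟨e, sβ F e, c.ne, fun e0 => by simp [e0] at hef, sβ_self e, fun v => ?_⟩
    have e3 := hpt v
    rw [e2, smul_zero, add_zero, pr_apply, pr_apply, ← c.adj, ← c.adj, c.fix_e, htf, e2] at e3
    simp only [map_add, LinearMap.add_apply, zero_add] at e3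
    generalize t • v = z at e3
    linear_combination (norm := module) e3
  obtain ⟨δ, hd⟩ : ∃ δ, δ = sβ F y (h • y) := ⟨_, rfl⟩
  have hδ' := hδ h hh
  rw [← hd] at hδ0 hδ'
  have hU : ∀ v, h⁻¹ • pr e f v = h • pr e f v + δ • pr e f v := fun v => by
    let U : Submodule F (I4 → F) :=
      { carrier := {v | h⁻¹ • pr e f v = h • pr e f v + δ • pr e f v}
        add_mem' := fun {a b} ha hb => by
          simp only [Set.mem_ofPred_eq, map_add, smul_add] at ha hb ⊢
          rw [ha, hb]; abel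
        zero_mem' := by simp
        smul_mem' := fun a b hb => by
          simp only [Set.mem_ofPred_eq, map_smul] at hb ⊢
          rw [smul_comm _ a, hb, smul_comm h a, smul_comm δ a, smul_add] }
    have hy' : y ∈ U := by change h⁻¹ • pr e f y = _; rw [hpy', hδ']
    have hpU : ∀ u v, pr e f u = pr e f v → v ∈ U → u ∈ U := fun u v e1 hv => by
      change h⁻¹ • pr e f u = _; rw [e1]; exact hv
    refine (d.eq_top (U := U) c.ne ?_ (fun u hu => ?_) (fun u hu => ?_) fun k hk u hu => ?_).ge Submodule.mem_top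
    · exact hpU e 0 (by simp [pr_apply, hfe, sβ_self]) (zero_mem _)
    · exact hpU _ (u + sβ F e u • y) (by rw [hpt, map_add, map_smul, hpy']) (add_mem hu (U.smul_mem _ hy'))
    · exact hpU _ (u + sβ F y u • y) (by rw [hpw, hwm _ (hpe u) (hpf u), hpy, map_add, map_smul, hpy'])
        (add_mem hu (U.smul_mem _ hy'))
    · change h⁻¹ • pr e f (k • u) = _
      rw [hpk k hk, d.h_k (inv_mem hh) hk, hu, d.h_k hh hk, smul_add, smul_comm k δ]
  have hB : ∀ u v, sβ F (pr e f u) (h • pr e f v) + sβ F (pr e f v) (h • pr e f u) =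
      δ * sβ F (pr e f u) (pr e f v) := fun u v => by
    rw [sy (pr e f v), sβ_smul_left (d.hsp hh), hU, map_add, LinearMap.map_smul _ δ, smul_eq_mul]
    linear_combination sβ F (pr e f u) (h • pr e f v) * h2
  let Q : (I4 → F) → F := fun v => sβ F e v * sβ F f v + δ⁻¹ * sβ F (pr e f v) (h • pr e f v)
  have hpol : QuadraticMap.polar Q = sympForm 2 F := funext₂ fun u v => by
    have e1 := hB u v
    have e2 : sβ F (pr e f u) (pr e f v) = sβ F u v - sβ F e u * sβ F f v - sβ F e v * sβ F f u := by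
      rw [pr_apply e f u]
      simp only [map_sub, map_smul, LinearMap.sub_apply, LinearMap.smul_apply, hpe, hpf, smul_eq_mul]
      rw [pr_apply]
      simp only [map_sub, map_smul, smul_eq_mul, sy u e, sy u f]
      ring
    rw [← CL.Sp.stdForm_eq_sympForm]
    simp only [QuadraticMap.polar, Q, map_add, smul_add, LinearMap.add_apply]
    rw [e2] at e1
    field_simp
    linear_combination e1
  refine ⟨Q, ⟨fun a v => ?_, hpol ▸ (isSesq_sympForm 2).isBilinearForm, hpol ▸ (isSesq_sympForm 2).isNondegenerateForm⟩,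
    fixesQuadForm_iff.2 (d.gen' (fun g => ∀ v, Q (g • v) = Q v) (fun v => ?_) (fun v => ?_) (fun k hk v => ?_)
      fun a b ha hb v => by rw [mul_smul, ha, hb])⟩
  · simp only [Q, map_smul, smul_comm h a, LinearMap.smul_apply, smul_eq_mul]
    ring
  · have e1 := hB v y
    rw [hpy', sy (pr e f v) y, hpy] at e1
    simp only [Q, hpt, ← c.adj, c.fix_e, htf, map_add, smul_add, smul_comm h (sβ F e v), map_smul, LinearMap.add_apply,
      LinearMap.smul_apply, smul_eq_mul, ← hd]
    field_simp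
    linear_combination sβ F e v * e1 + (δ * sβ F e v * sβ F y v + δ * sβ F e v ^ 2) * h2
  · simp only [Q]
    rw [hpw, d.h_w hh, sβ_smul d.wsp, hU, ← d.adj, ← d.adj, hwf, ← hf, map_add, LinearMap.map_smul _ δ, sβ_self]
    simp [mul_comm]
  · obtain ⟨a, b, e0, -, -, e3, e4⟩ := hH k hk
    simp only [Q]
    rw [hpk k hk, d.h_k hh hk, sβ_smul (d.hsp hk), sy e, sy f, sβ_smul_left (d.hsp hk), sβ_smul_left (d.hsp hk), e3, e4,
      map_smul, map_smul, sy v, sy v, smul_eq_mul, smul_eq_mul]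
    linear_combination sβ F e v * sβ F f v * e0

end SL2Dat

end CL.Low.Cit4
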