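/-
Project LOWDIM: the three parts of `Sp4Inv`.
-/
import Cfsg.Agent.Low.Tools

set_option autoImplicit false

namespace CL.Low

open Matrix Cfsg Cfsg.Geo CL.Asch CL.SLn Module

universe u

/-- `N² = 0` and `1 + c N` lies in `G` for all `c` in the subfield `k`. -/
def QN {ι : Type} [Fintype ι] [DecidableEq ι] {F : Type u} [Field F] (G : Subgroup (GL ι F)) (k : Subfield F)
    (N : Matrix ι ι F) : Prop :=
  N * N = 0 ∧ ∀ c ∈ k, ∃ g ∈ G, (g : Matrix ι ι F) = 1 + c • N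

/-- Without transvections the quadratic families of a subgroup of `Sp₄(F)` have a common non-scalar centraliser. -/
def Sp4Q : Prop :=
  ∀ (F : Type u) [Field F] [Finite F] (G : Subgroup (GL I4 F)) (k : Subfield F), (2 : F) ≠ 0 → G ≤ spGL 2 F →
    ¬ HasTv G → 3 < Nat.card k →
    ∃ D : Matrix I4 I4 F, (∀ c : F, D ≠ c • (1 : Matrix I4 I4 F)) ∧ ∀ N, QN G k N → D * N = N * D

/-- No non-scalar involution is a square. -/
def NoSq {F : Type u} [Field F] (P : Subgroup (GL I4 F)) : Prop :=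
  ∀ k ∈ P, k ^ 4 = 1 → k ^ 2 ∈ scalars I4 F

def Sp4SqA : Prop :=
  ∀ (F : Type u) [Field F] [Fintype F] (P : Subgroup (GL I4 F)), (2 : F) ≠ 0 → P ≤ spGL 2 F → QS P → ¬ HasTv P →
    NoSq P

def Sp4SqB : Prop :=
  ∀ (F : Type u) [Field F] [Fintype F] (P : Subgroup (GL I4 F)), (2 : F) ≠ 0 → P ≤ spGL 2 F → QS P → NoSq P →
    ∀ t ∈ P, t * t = 1 → t ∈ scalars I4 F

theorem sp4Inv_of (hA : Sp4SqA.{u}) (hB : Sp4SqB.{u}) : Sp4Inv.{u} :=
  fun F _ _ P h2 hP h hT => hB F P h2 hP h (hA F P h2 hP h hT)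

end CL.Low
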