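/-
Project LOWDIM: non-scalar involutions of `Sp₄(F)` ("roots") satisfy the Clifford relation.
-/
import Cfsg.Agent.Low.InvDefs
import Cfsg.Agent.Low.Sp4Even

set_option autoImplicit false

namespace CL.Low

open Matrix Cfsg Cfsg.Geo CL.Asch CL.SLn Module

universe u

variable {F : Type u} [Field F]

/-- The adjoint for the standard alternating form. -/
def sadj (A : Matrix I4 I4 F) : Matrix I4 I4 F := -J (Fin 2) F * Aᵀ * J (Fin 2) F

theorem sadj_add (A B : Matrix I4 I4 F) : sadj (A + B) = sadj A + sadj B := by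
  simp only [sadj, transpose_add, mul_add, add_mul]

theorem sadj_sub (A B : Matrix I4 I4 F) : sadj (A - B) = sadj A - sadj B := by
  simp only [sadj, transpose_sub, mul_sub, sub_mul]

theorem sadj_smul (c : F) (A : Matrix I4 I4 F) : sadj (c • A) = c • sadj A := by
  simp only [sadj, transpose_smul, Matrix.mul_smul, Matrix.smul_mul]

theorem sadj_one : sadj (1 : Matrix I4 I4 F) = 1 := by
  rw [sadj, transpose_one, mul_one, neg_mul, J_squared, neg_neg]

theorem sadj_mul (A B : Matrix I4 I4 F) : sadj (A * B) = sadj B * sadj A := by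
  have : J (Fin 2) F * (J (Fin 2) F * (Aᵀ * J (Fin 2) F)) = -(Aᵀ * J (Fin 2) F) := by
    rw [← mul_assoc, J_squared, neg_one_mul]
  simp only [sadj, transpose_mul, mul_assoc, neg_mul, mul_neg, this, neg_neg]

theorem coe_inv_eq_sadj {g : GL I4 F} (hg : g ∈ spGL 2 F) : (g⁻¹).1 = sadj g.1 :=
  Units.inv_eq_of_mul_eq_one_left (by
    simp only [sadj, Matrix.neg_mul,
      SymplecticGroup.inv_left_mul_aux ((CL.Sp.mem_spGL_iff_mem_symplecticGroup g).1 hg)])

theorem stdForm_sadj (A : Matrix I4 I4 F) (x y : I4 → F) :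
    CL.Sp.stdForm (Fin 2) F (A *ᵥ x) y = CL.Sp.stdForm (Fin 2) F x (sadj A *ᵥ y) := by
  simp [CL.Sp.stdForm_apply, sadj, J, mulVec, dotProduct, mul_apply, Fintype.sum_sum_type, Fin.sum_univ_two]
  ring

/-- The Pfaffian identity. -/
theorem pfaff_sq (X : Matrix I4 I4 F) :
    ∃ b : F, (X + sadj X) * (X + sadj X) = X.trace • (X + sadj X) + b • (1 : Matrix I4 I4 F) := by
  refine ⟨((X + sadj X) * (X + sadj X) - X.trace • (X + sadj X)) (.inl 0) (.inl 0), ?_⟩
  ext i j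
  rcases i with i | i <;> rcases j with j | j <;> fin_cases i <;> fin_cases j <;>
    simp [sadj, J, trace, mul_apply, Fintype.sum_sum_type, Fin.sum_univ_two] <;> ring

theorem sq_of_sadj (h2 : (2 : F) ≠ 0) {X : Matrix I4 I4 F} (hX : sadj X = X) :
    ∃ b : F, X * X = (X.trace / 2) • X + b • (1 : Matrix I4 I4 F) := by
  obtain ⟨b, hb⟩ := pfaff_sq ((2 : F)⁻¹ • X)
  rw [sadj_smul, hX, ← add_smul, ← two_mul, mul_inv_cancel₀ h2, one_smul, trace_smul, smul_eq_mul] at hb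
  exact ⟨b, by rw [hb, div_eq_inv_mul]⟩

theorem cliff_of_sadj (h2 : (2 : F) ≠ 0) {X Y : Matrix I4 I4 F} (hX : sadj X = X) (hY : sadj Y = Y)
    (tX : X.trace = 0) (tY : Y.trace = 0) : ∃ n : F, X * Y + Y * X = n • (1 : Matrix I4 I4 F) := by
  obtain ⟨a, ha⟩ := sq_of_sadj h2 hX
  obtain ⟨b, hb⟩ := sq_of_sadj h2 hY
  obtain ⟨c, hc⟩ := sq_of_sadj h2 (X := X + Y) (by rw [sadj_add, hX, hY])
  rw [trace_add, tX, tY, add_zero] at hc
  rw [tX] at ha
  rw [tY] at hb
  simp only [zero_div, zero_smul, zero_add] at ha hb hc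
  refine ⟨c - a - b, ?_⟩
  rw [sub_smul, sub_smul, ← ha, ← hb, ← hc]
  noncomm_ring

/-- A non-scalar involution of `Sp₄(F)`. -/
structure Rt (a : GL I4 F) : Prop where
  sp : a ∈ spGL 2 F
  sq : a * a = 1
  ns : a ∉ scalars I4 F

namespace Rt

variable {a b : GL I4 F}

theorem inv (h : Rt a) : a⁻¹ = a := inv_eq_of_mul_eq_one_right h.sq

theorem sq' (h : Rt a) : a.1 * a.1 = 1 := congrArg Units.val h.sq

theorem sadj_eq (h : Rt a) : sadj a.1 = a.1 := by rw [← coe_inv_eq_sadj h.sp, h.inv]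

theorem conj (h : Rt a) {g : GL I4 F} (hg : g ∈ spGL 2 F) : Rt (g * a * g⁻¹) :=
  ⟨mul_mem (mul_mem hg h.sp) (inv_mem hg), by rw [conj_mul, h.sq, mul_one, mul_inv_cancel], fun e => h.ns (by
    have := Subgroup.mem_center_iff.mp (scalars_le_center e) g⁻¹
    rw [mul_assoc g a, inv_mul_cancel_left, mul_left_inj, ← mul_assoc] at this
    rwa [← this] at e)⟩

theorem trace (h2 : (2 : F) ≠ 0) (h : Rt a) : a.1.trace = 0 := by
  by_contra h0
  obtain ⟨c, hc⟩ := sq_of_sadj h2 h.sadj_eq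
  refine h.ns (mem_scalars_of_eq_smul (c := (a.1.trace / 2)⁻¹ * (1 - c)) ?_)
  rw [h.sq', ← sub_eq_iff_eq_add] at hc
  rw [mul_smul, sub_smul, one_smul, hc, smul_smul, inv_mul_cancel₀ (div_ne_zero h0 h2), one_smul]

/-- The Clifford relation. -/
theorem cliff (h2 : (2 : F) ≠ 0) (ha : Rt a) (hb : Rt b) :
    ∃ n : F, a.1 * b.1 + b.1 * a.1 = n • (1 : Matrix I4 I4 F) :=
  cliff_of_sadj h2 ha.sadj_eq hb.sadj_eq (ha.trace h2) (hb.trace h2)

end Rt

/-- A scalar of the symplectic group is `1` or `-1`. -/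
theorem eq_or_neg_of_scalar {z : GL I4 F} (h : z ∈ spGL 2 F) (hz : z ∈ scalars I4 F) : z.1 = 1 ∨ z.1 = -1 := by
  obtain ⟨c, hc⟩ := mem_scalars_iff'.mp hz
  rcases mul_self_eq_one_iff.mp (mul_self_eq_one_of_scalar h hc two_pos) with rfl | rfl
  · exact Or.inl (by rw [hc, one_smul])
  · exact Or.inr (by rw [hc, neg_smul, one_smul])

end CL.Low
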