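/-
Project LOWDIM: groups of symplectic transvections, planes and subfield structures.
-/
import Cfsg.Agent.Low.Sp4Even
import Cfsg.Agent.Low.TKL
import Cfsg.Agent.Cls.SpSub2

set_option autoImplicit false

namespace CL.Low

open Module CL.Sp CL.SL2

section Plane

variable {F V : Type*} [Field F] [AddCommGroup V] [Module F V] {B : LinearMap.BilinForm F V}
  {M : Subgroup (V ≃ₗ[F] V)} {v w : V}

theorem ext_of_plane (hB : B.IsAlt) (h : B v w ≠ 0) {g k : V ≃ₗ[F] V} (h1 : g v = k v) (h2 : g w = k w)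
    (h3 : ∀ x, B x v = 0 → B x w = 0 → g x = k x) : g = k := by
  ext x
  have := h3 (x - (B x w / B v w) • v + (B x v / B v w) • w)
    (by simp only [map_add, map_sub, map_smul, LinearMap.add_apply, LinearMap.sub_apply, LinearMap.smul_apply,
      alt_self hB, alt_neg hB w v, smul_eq_mul]; field_simp; ring)
    (by simp only [map_add, map_sub, map_smul, LinearMap.add_apply, LinearMap.sub_apply, LinearMap.smul_apply,
      alt_self hB, smul_eq_mul]; field_simp; ring)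
  simpa [h1, h2] using this

theorem plane_tv (hB : B.IsAlt) (hM : M ≤ Isom B) {D : Set V} (hD : ∀ x, x ∈ D ↔ B x v = 0 ∧ B x w = 0)
    (h : B v w ≠ 0) (c : F) : (∃ g ∈ M ⊓ Fix B D, MonoidHom.id _ g v = v ∧ MonoidHom.id _ g w = w + (c * B w v) • v) ↔
      tv hB v c ∈ M := by
  refine ⟨fun ⟨g, hg, e1, e2⟩ => ?_, fun hc => ⟨_, ⟨hc, hM hc, fun x hx => tv_apply_of_ortho hB c ((hD x).1 hx).1⟩,
    tv_apply_self hB v c, tv_apply hB v c w⟩⟩
  rw [← ext_of_plane hB h (g := g) (e1.trans (tv_apply_self hB v c).symm) (e2.trans (tv_apply hB v c w).symm)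
    fun x a1 a2 => (hg.2.2 x ((hD x).2 ⟨a1, a2⟩)).trans (tv_apply_of_ortho hB c a1).symm]
  exact hg.1

/-- Dickson's lemma for two opposite groups of transvections. -/
theorem tv_big [Finite F] (hB : B.IsAlt) (hM : M ≤ Isom B) (h : B v w ≠ 0) {d c₁ c₂ : F} (hd : d ≠ 0)
    (hw : tv hB w d ∈ M) (h₁ : tv hB v c₁ ∈ M) (h₂ : tv hB v c₂ ∈ M) (hc₁ : c₁ ≠ 0) (hc₂ : c₂ ≠ 0) (h12 : c₂ ≠ c₁)
    (h12' : c₂ ≠ -c₁) : ∃ L : Subfield F, (∀ c, tv hB v c ∈ M ↔ d * B v w ^ 2 * c ∈ L) ∧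
      ∀ t ∈ L, tv hB w (d * t) ∈ M := by
  have h' : B w v ≠ 0 := fun e => h ((alt_eq_zero_comm hB).1 e)
  let D : Set V := {x | B x v = 0 ∧ B x w = 0}
  have u := plane_tv hB hM (D := D) (fun _ => Iff.rfl) h
  have l := plane_tv hB hM (D := D) (fun _ => and_comm) h'
  obtain ⟨L, k1, k2, -⟩ := plane_dickson (MonoidHom.id _) (M ⊓ Fix B D) v w (c := d * B v w) (b₁ := c₁ * B w v)
    (b₂ := c₂ * B w v) (mul_ne_zero hd h) (let ⟨g, hg, e1, e2⟩ := (l d).2 hw; ⟨g, hg, e2, e1⟩) ((u _).2 h₁)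
    ((u _).2 h₂) (mul_ne_zero hc₁ h') (mul_ne_zero hc₂ h') (fun e => h12 (mul_right_cancel₀ h' e))
    (fun e => h12' (mul_right_cancel₀ h' (by rw [e]; ring)))
  refine ⟨L, fun c => ?_, fun t ht => ?_⟩
  · rw [← u, k1, alt_neg hB w v, ← neg_mem_iff]
    congr! 1; ring
  · obtain ⟨g, hg, e1, e2⟩ := k2 t ht
    exact (l _).1 ⟨g, hg, e2, by rw [e1]; congr 2; ring⟩

/-- Two opposite transvections generate the element `-1` of their plane. -/
theorem exists_neg_plane [Finite F] (h2 : (2 : F) ≠ 0) (hB : B.IsAlt) (hM : M ≤ Isom B) (h : B v w ≠ 0) {c d : F}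
    (hc : c ≠ 0) (hd : d ≠ 0) (hv : tv hB v c ∈ M) (hw : tv hB w d ∈ M) :
    ∃ g ∈ M, g v = -v ∧ g w = -w ∧ ∀ x, B x v = 0 → B x w = 0 → g x = x := by
  have h' : B w v ≠ 0 := fun e => h ((alt_eq_zero_comm hB).1 e)
  let D : Set V := {x | B x v = 0 ∧ B x w = 0}
  obtain ⟨g, hg, e1, e2⟩ := neg_one_mem_of_roots h2 (planeAct (MonoidHom.id _) (M ⊓ Fix B D) v w)
    (mul_ne_zero hc h') (mul_ne_zero hd h) (by
      obtain ⟨g, hg, e1, e2⟩ := (plane_tv hB hM (D := D) (fun _ => Iff.rfl) h c).2 hv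
      exact ⟨g, hg, by simpa [Matrix.SpecialLinearGroup.transvection_coe] using e1,
        by simpa [Matrix.SpecialLinearGroup.transvection_coe, add_comm] using e2⟩) (by
      obtain ⟨g, hg, e1, e2⟩ := (plane_tv hB hM (D := D) (fun _ => and_comm) h' d).2 hw
      exact ⟨g, hg, by simpa [Matrix.SpecialLinearGroup.transvection_coe] using e2,
        by simpa [Matrix.SpecialLinearGroup.transvection_coe] using e1⟩)
  exact ⟨g, hg.1, by simpa using e1, by simpa using e2, fun x a1 a2 => hg.2.2 x ⟨a1, a2⟩⟩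

theorem exists_ne_zero_of_span (hN : B.Nondegenerate) {Y : Set V} (hY : Submodule.span F Y = ⊤) {x : V}
    (hx : x ≠ 0) : ∃ y ∈ Y, B x y ≠ 0 := by
  by_contra h
  push Not at h
  exact hx (hN.1 x fun y => (Submodule.span_le (p := LinearMap.ker (B x))).2 h (hY ▸ Submodule.mem_top))

theorem apply_mem_span {R : Type*} [Semiring R] [Module R V] {Y : Set V} (g : V →ₗ[R] V)
    (h : ∀ y ∈ Y, g y ∈ Submodule.span R Y) {x : V} (hx : x ∈ Submodule.span R Y) : g x ∈ Submodule.span R Y :=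
  (Submodule.span_le (p := (Submodule.span R Y).comap g)).2 h hx

theorem span_orbit (hirr : ∀ W : Submodule F V, (∀ g ∈ M, ∀ w ∈ W, g w ∈ W) → W = ⊥ ∨ W = ⊤) (hv : v ≠ 0) :
    Submodule.span F {w | ∃ g ∈ M, g v = w} = ⊤ := by
  refine (hirr _ fun g hg w hw => ?_).resolve_left fun e => hv (Submodule.span_eq_bot.1 e v ⟨1, one_mem _, rfl⟩)
  refine apply_mem_span (g : V →ₗ[F] V) ?_ hw
  rintro _ ⟨k, hk, rfl⟩
  exact Submodule.subset_span ⟨g * k, mul_mem hg hk, rfl⟩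

theorem form_mem_span {K : Subfield F} {Y : Set V} (h : ∀ x ∈ Y, ∀ y ∈ Y, B x y ∈ K) (x : V)
    (hx : x ∈ Submodule.span K Y) (y : V) (hy : y ∈ Submodule.span K Y) : B x y ∈ K := by
  induction hx, hy using Submodule.span_induction₂ with
  | mem_mem x y hx hy => exact h x hx y hy
  | zero_left => simp
  | zero_right => simp
  | add_left x y z _ _ _ h1 h2 => simpa using K.add_mem h1 h2
  | add_right x y z _ _ _ h1 h2 => simpa using K.add_mem h1 h2
  | smul_left r x y _ _ h => simpa [Subfield.smul_def] using K.mul_mem r.2 h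
  | smul_right r x y _ _ h => simpa [Subfield.smul_def] using K.mul_mem r.2 h

/-- A symplectic frame inside a spanning subfield structure. -/
theorem exists_sp_frame (hB : B.IsAlt) (hN : B.Nondegenerate) (h4 : finrank F V = 4) {K : Subfield F}
    {W : Submodule K V} (hW : Submodule.span F (W : Set V) = ⊤) (hK : ∀ x ∈ W, ∀ y ∈ W, B x y ∈ K) :
    ∃ f : I4 → V, (∀ i, f i ∈ W) ∧ ∀ i j, B (f i) (f j) = Matrix.J (Fin 2) F i j := by
  have : FiniteDimensional F V := Module.finite_of_finrank_eq_succ h4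
  have key : ∀ x ∈ W, x ≠ 0 → ∃ y ∈ W, B y x = 1 := fun x hx h0 => by
    obtain ⟨y, hy, h⟩ := exists_ne_zero_of_span hN hW h0
    exact ⟨(-(⟨B x y, hK x hx y hy⟩ : K)⁻¹) • y, W.smul_mem _ hy, by
      rw [Subfield.smul_def, map_smul, LinearMap.smul_apply, alt_neg hB y x]; simp [h]⟩
  have : Nontrivial V := nontrivial_of_finrank_eq_succ h4
  obtain ⟨x, hx⟩ := exists_ne (0 : V)
  obtain ⟨e₁, he₁, h⟩ := exists_ne_zero_of_span hN hW hx
  obtain ⟨f₁, hf₁, h1⟩ := key e₁ he₁ (by rintro rfl; simp at h)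
  have h1' : B e₁ f₁ = -1 := by rw [alt_neg hB, h1]
  have pr : ∀ y ∈ W, y + B y f₁ • e₁ - B y e₁ • f₁ ∈ W := fun y hy =>
    W.sub_mem (W.add_mem hy (W.smul_mem (⟨_, hK y hy f₁ hf₁⟩ : K) he₁)) (W.smul_mem (⟨_, hK y hy e₁ he₁⟩ : K) hf₁)
  obtain ⟨u, -, hu0, hu⟩ := exists_ne_zero_orth (B := B) ⊤ ![e₁, f₁] (by simp [h4])
  have u1 : B u e₁ = 0 := hu 0
  have u2 : B u f₁ = 0 := hu 1
  obtain ⟨y, hy, hy'⟩ := exists_ne_zero_of_span hN hW hu0
  obtain ⟨e₂, he₂, a1, a2, a3⟩ : ∃ e₂ ∈ W, e₂ ≠ 0 ∧ B e₂ e₁ = 0 ∧ B e₂ f₁ = 0 :=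
    ⟨_, pr y hy, fun e => hy' (by simpa [u1, u2] using congrArg (B u) e), by simp [alt_self hB, h1],
      by simp [alt_self hB, h1']⟩
  obtain ⟨z, hz, hz'⟩ := key e₂ he₂ a1
  have b1 : B e₁ e₂ = 0 := (alt_eq_zero_comm hB).1 a2
  have b2 : B f₁ e₂ = 0 := (alt_eq_zero_comm hB).1 a3
  obtain ⟨f₂, hf₂, c1, c2, c3⟩ : ∃ f₂ ∈ W, B f₂ e₂ = 1 ∧ B f₂ e₁ = 0 ∧ B f₂ f₁ = 0 :=
    ⟨_, pr z hz, by simp [hz', b1, b2], by simp [alt_self hB, h1], by simp [alt_self hB, h1']⟩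
  have d1 : B e₂ f₂ = -1 := by rw [alt_neg hB, c1]
  have d2 : B e₁ f₂ = 0 := (alt_eq_zero_comm hB).1 c2
  have d3 : B f₁ f₂ = 0 := (alt_eq_zero_comm hB).1 c3
  refine ⟨Sum.elim ![e₁, e₂] ![f₁, f₂], ?_, ?_⟩
  · rintro (i | i) <;> fin_cases i <;> assumption
  · rintro (i | i) (j | j) <;> fin_cases i <;> fin_cases j <;> simp [Matrix.J, alt_self hB, *]

end Plane

section Desc

open Matrix Cfsg CL.Asch

variable {F : Type*} [Field F] {B : LinearMap.BilinForm F (I4 → F)}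

theorem stdForm_map (K : Subfield F) (a b : I4 → K) :
    stdForm (Fin 2) F (fun i => (a i : F)) (fun i => (b i : F)) = (stdForm (Fin 2) K a b : F) := by
  simp [stdForm_apply']

theorem descGL_mulVec (K : Subfield F) (c : GL I4 F) (a : GL I4 K) (z : I4 → K) :
    (descGL K c a).1 *ᵥ (c.1 *ᵥ fun i => (z i : F)) = c.1 *ᵥ fun i => ((a.1 *ᵥ z) i : F) := by
  have : (descGL K c a).1 * c.1 = c.1 * a.1.map K.subtype := by
    rw [← Units.val_mul, show descGL K c a * c = c * GeneralLinearGroup.map K.subtype a by simp [descGL]]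
    rfl
  rw [mulVec_mulVec, this, ← mulVec_mulVec]
  exact congrArg _ (funext fun i => by simp [mulVec, dotProduct])

/-- Symplectic coordinates for a subfield structure. -/
theorem exists_desc (hB : B.IsAlt) (hN : B.Nondegenerate) {K : Subfield F} {W : Submodule K (I4 → F)}
    (hW : Submodule.span F (W : Set (I4 → F)) = ⊤) (hK : ∀ x ∈ W, ∀ y ∈ W, B x y ∈ K) :
    ∃ c : GL I4 F, (∀ x y, B (c.1 *ᵥ x) (c.1 *ᵥ y) = stdForm (Fin 2) F x y) ∧
      (∀ x ∈ W, ∃ z : I4 → K, x = c.1 *ᵥ fun i => (z i : F)) ∧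
      ∀ G : Subgroup (GL I4 F), (∀ g ∈ G, ∀ x ∈ W, g.1 *ᵥ x ∈ W) → G ≤ (descGL K c).range := by
  obtain ⟨f, hf, hJ⟩ := exists_sp_frame hB hN (by simp) hW hK
  have h1 : ∀ x y, B ((of f)ᵀ *ᵥ x) ((of f)ᵀ *ᵥ y) = stdForm (Fin 2) F x y := fun x y => by
    rw [mulVec_transpose, mulVec_transpose, vecMul_eq_sum, vecMul_eq_sum, stdForm_apply]
    simp only [map_sum, map_smul, LinearMap.sum_apply, LinearMap.smul_apply, smul_eq_mul, dotProduct, mulVec,
      Finset.mul_sum]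
    rw [Finset.sum_comm]
    exact Finset.sum_congr rfl fun i _ => Finset.sum_congr rfl fun j _ => by
      rw [show B (of f i) (of f j) = _ from hJ i j]; ring
  have h2 : IsUnit (of f)ᵀ := mulVec_injective_iff_isUnit.1 ((injective_iff_map_eq_zero (of f)ᵀ.mulVecLin).2
    fun x hx => (stdForm_nondegenerate (Fin 2) F).1 x fun y => by
      rw [← h1, show (of f)ᵀ *ᵥ x = 0 from hx]; simp)
  obtain ⟨c, hc⟩ := h2
  have h3 : ∀ i, c.1 *ᵥ Pi.single i 1 = f i := fun i => by rw [hc, mulVec_single_one]; rfl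
  have h4 : ∀ x ∈ W, ∀ i, ((c⁻¹).1 *ᵥ x) i ∈ K := fun x hx i => by
    have e : ∀ j, stdForm (Fin 2) F ((c⁻¹).1 *ᵥ x) (Pi.single j 1) ∈ K := fun j => by
      rw [← h1, ← hc, gl_mulVec_inv, h3]; exact hK _ hx _ (hf j)
    rcases i with i | i
    · simpa [stdForm_single_inr_right] using e (.inr i)
    · simpa [stdForm_single_inl_right] using e (.inl i)
  refine ⟨c, hc ▸ h1, fun x hx => ⟨fun i => ⟨_, h4 x hx i⟩, (gl_mulVec_inv c x).symm⟩, fun G hG g hg => ?_⟩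
  have h5 : ∀ g ∈ G, ∃ a : Matrix I4 I4 K, a.map K.subtype = (c⁻¹ * g * c).1 := fun g hg =>
    ⟨of fun i j => ⟨_, h4 _ (hG g hg _ (hf j)) i⟩, by
      ext i j
      change ((c⁻¹).1 *ᵥ (g.1 *ᵥ f j)) i = _
      rw [← h3, mulVec_mulVec, mulVec_mulVec, mulVec_single_one]; rfl⟩
  obtain ⟨a, ha⟩ := h5 g hg
  obtain ⟨a', ha'⟩ := h5 _ (G.inv_mem hg)
  have h6 : a * a' = 1 := map_subtype_injective K (by
    dsimp only
    rw [Matrix.map_mul, ha, ha', ← Units.val_mul, Matrix.map_one _ (map_zero _) (map_one _),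
      show c⁻¹ * g * c * (c⁻¹ * g⁻¹ * c) = 1 by group, Units.val_one])
  refine ⟨⟨a, a', h6, mul_eq_one_comm.1 h6⟩, ?_⟩
  change c * GeneralLinearGroup.map K.subtype _ * c⁻¹ = g
  rw [show GeneralLinearGroup.map K.subtype ⟨a, a', h6, mul_eq_one_comm.1 h6⟩ = c⁻¹ * g * c from Units.ext ha]
  group

end Desc

end CL.Low
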