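/-
Project LOWDIM: irreducible subgroups of `Sp₄(q)`, `q` odd, generated by transvections.
-/
import Cfsg.Agent.Low.SpTv

set_option autoImplicit false

namespace CL.Low

open Module CL.Sp

universe u

section Odd

variable {F V : Type*} [Field F] [AddCommGroup V] [Module F V] {B : LinearMap.BilinForm F V}
  {M : Subgroup (V ≃ₗ[F] V)}

/-- `M` is generated by its transvections. -/
def SpGen (hB : B.IsAlt) (M : Subgroup (V ≃ₗ[F] V)) : Prop :=
  ∀ N : Subgroup (V ≃ₗ[F] V), (∀ v c, tv hB v c ∈ M → tv hB v c ∈ N) → M ≤ N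

theorem SpGen.inv {hB : B.IsAlt} (h : SpGen hB M) {W : Set V} (hW : ∀ v c, tv hB v c ∈ M → ∀ x ∈ W, tv hB v c x ∈ W) :
    ∀ g ∈ M, ∀ x ∈ W, g x ∈ W := fun g hg x hx =>
  (h { carrier := {g | ∀ x, g x ∈ W ↔ x ∈ W}
       one_mem' := fun _ => Iff.rfl
       mul_mem' := fun {a b} ha hb x => (ha _).trans (hb x)
       inv_mem' := fun {a} ha x => by rw [← ha, apply_inv_apply] }
    (fun v c hv x => ⟨fun e => by
      simpa [← tv_inv, inv_apply_apply] using hW v (-c) (tv_inv hB v c ▸ inv_mem hv) _ e, hW v c hv x⟩) hg x).2 hx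

/-- The transvections of `M` with centre `v` are parametrised by `K`. -/
def Good (hB : B.IsAlt) (M : Subgroup (V ≃ₗ[F] V)) (K : Subfield F) (v : V) : Prop := ∀ c, tv hB v c ∈ M ↔ c ∈ K

theorem Good.conj {hB : B.IsAlt} (hM : M ≤ Isom B) {K : Subfield F} {v : V} (h : Good hB M K v) {g : V ≃ₗ[F] V}
    (hg : g ∈ M) : Good hB M K (g v) := fun c => by
  rw [← h c, ← conj_tv hB (hM hg), mul_mem_cancel_right (inv_mem hg), mul_mem_cancel_left hg]

variable [Finite F]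

theorem good_of_big {hB : B.IsAlt} (hM : M ≤ Isom B) {K : Subfield F} {a : F} (ha : a ∈ K) (a0 : a ≠ 0) (a1 : a ≠ 1)
    (a2 : a ≠ -1) {v w : V} {d : F} (hv : Good hB M K v) (hw : tv hB w d ∈ M) (hd : d ≠ 0) (h : B v w ≠ 0) :
    Good hB M K ((B v w)⁻¹ • w) := by
  obtain ⟨L, k1, k2⟩ := tv_big hB hM h hd hw ((hv 1).2 K.one_mem) ((hv a).2 ha) one_ne_zero a0 a1 a2
  have n : d * B v w ^ 2 ≠ 0 := mul_ne_zero hd (pow_ne_zero 2 h)
  have k3 : d * B v w ^ 2 ∈ L := by simpa using (k1 1).1 ((hv 1).2 K.one_mem)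
  have k4 : ∀ c, c ∈ K ↔ c ∈ L := fun c => (hv c).symm.trans ((k1 c).trans ⟨fun e => by
    simpa only [inv_mul_cancel_left₀ n] using L.mul_mem (L.inv_mem k3) e, L.mul_mem k3⟩)
  obtain ⟨L', l1, l2⟩ := tv_big hB hM (mt (alt_eq_zero_comm hB).1 h) one_ne_zero ((hv 1).2 K.one_mem) hw
    (k2 a ((k4 a).1 ha)) hd (mul_ne_zero hd a0) (fun e => a1 (mul_left_cancel₀ hd (by rw [e, mul_one])))
    (fun e => a2 (mul_left_cancel₀ hd (by rw [e, mul_neg_one])))
  intro c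
  rw [tv_smul]
  refine ⟨fun e => ?_, fun e => ?_⟩
  · have := (hv _).1 (l2 _ ((l1 _).1 e))
    rwa [alt_neg hB w v, one_mul, one_mul, neg_sq, inv_pow, mul_inv_cancel_left₀ (pow_ne_zero 2 h)] at this
  · convert k2 _ (L.mul_mem (L.inv_mem k3) ((k4 c).1 e)) using 2
    field_simp

theorem small_val (h2 : (2 : F) ≠ 0) {hB : B.IsAlt} (hM : M ≤ Isom B)
    (hs : ∀ v c c', v ≠ 0 → c ≠ 0 → tv hB v c ∈ M → tv hB v c' ∈ M → c' ^ 2 = c ^ 2 ∨ c' = 0) {u v w : V} {s t c : F}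
    (hu : tv hB u s ∈ M) (hv : tv hB v t ∈ M) (hw : tv hB w c ∈ M) (s0 : s ≠ 0) (t0 : t ≠ 0) (c0 : c ≠ 0)
    (h : B u v ≠ 0) (ha : B w u ≠ 0) (hb : B w v ≠ 0) (hP : w ∉ Submodule.span F {u, v}) :
    (s * B u v ^ 2 * t) ^ 2 = 1 := by
  obtain ⟨g, hg, e1, e2, e3⟩ := exists_neg_plane h2 hB hM h s0 t0 hu hv
  obtain ⟨p, a1, a2, x, y, hp⟩ : ∃ p, B p u = B w u ∧ B p v = B w v ∧ ∃ x y : F, x • u + y • v = p :=
    ⟨_, by simp [alt_self hB, alt_neg hB v u, h], by simp [alt_self hB, h], B w v / B u v, -(B w u / B u v), rfl⟩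
  obtain ⟨z, rfl⟩ : ∃ z, w = z + p := ⟨w - p, by simp⟩
  have b1 : B z u = 0 := by simpa using a1
  have b2 : B z v = 0 := by simpa using a2
  have b3 : B z p = 0 := by simp [← hp, b1, b2]
  have z0 : z ≠ 0 := fun e => hP (Submodule.mem_span_pair.2 ⟨_, _, by rw [e, zero_add, hp]⟩)
  have e4 : g (z + p) = z - p := by
    rw [map_add, e3 z b1 b2, ← hp, map_add, map_smul, map_smul, e1, e2]; module
  have k0 := mul_mem hw (inv_mem (tv_conj_mem hB hg (hM hg) hw))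
  rw [e4, tv_add_mul_inv hB b3] at k0
  have k1 := sr_conj_mem hB hu (hM hu) k0
  have k2 := sr_conj_mem hB hv (hM hv) k0
  rw [tv_apply_of_ortho hB _ b1, map_smul, tv_apply] at k1
  rw [tv_apply_of_ortho hB _ b2, map_smul, tv_apply] at k2
  have k : ∀ {x y : V}, B z x = 0 → B z y = 0 → sr hB z ((2 * c) • x) ∈ M → sr hB z ((2 * c) • y) ∈ M →
      8 * c ^ 2 * B x y ∈ tvParams hB M z := fun {x y} h1 h2 h3 h4 => by
    have := tv_mem_of_sr_tv hB (c := 0) (d := 0) (by simp [h1]) (by simp [h2])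
      (by rwa [tv_zero, mul_one] : sr hB z ((2 * c) • x) * _ ∈ M)
      (by rwa [tv_zero, mul_one] : sr hB z ((2 * c) • y) * _ ∈ M)
    rw [mem_tvParams]
    convert this using 2
    simp only [map_smul, LinearMap.smul_apply, smul_eq_mul]; ring
  have l1 := k b3 (by simp [b1, b3]) k0 k1
  have l2 := k b3 (by simp [b2, b3]) k0 k2
  have l3 := k (by simp [b1, b3]) (by simp [b2, b3]) k1 k2
  have l4 := add_mem (sub_mem l3 l2) l1
  rw [← a1] at ha
  rw [← a2] at hb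
  simp only [map_add, map_smul, LinearMap.add_apply, LinearMap.smul_apply, smul_eq_mul, alt_self hB,
    alt_neg hB u p] at l1 l2 l4
  have h8 : 8 * c ^ 2 ≠ 0 := mul_ne_zero (by rw [show (8 : F) = 2 ^ 3 by norm_num]; positivity) (pow_ne_zero 2 c0)
  have n1 : 8 * c ^ 2 * (0 + s * B p u * B p u) ≠ 0 := by simp [c0, s0, ha, (mul_ne_zero_iff.1 h8).1]
  have m2 := (hs z _ _ z0 n1 l1 l2).resolve_right (by simp [c0, t0, hb, (mul_ne_zero_iff.1 h8).1])
  have m3 := (hs z _ _ z0 n1 l1 l4).resolve_right fun e =>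
    mul_ne_zero h8 (mul_ne_zero (mul_ne_zero (mul_ne_zero s0 t0) (mul_ne_zero ha hb)) h) (by linear_combination e)
  have m4 : (t * B p v * B p v) ^ 2 = (s * B p u * B p u) ^ 2 :=
    mul_left_cancel₀ (pow_ne_zero 2 h8) (by linear_combination m2)
  have m5 : (s * t * (B p u * B p v) * B u v) ^ 2 = (s * B p u * B p u) ^ 2 :=
    mul_left_cancel₀ (pow_ne_zero 2 h8) (by linear_combination m3)
  refine mul_right_cancel₀ (pow_ne_zero 4 (mul_ne_zero (mul_ne_zero s0 ha) ha)) ?_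
  linear_combination ((s * t * (B p u * B p v) * B u v) ^ 2 + (s * B p u * B p u) ^ 2) * m5 -
    (s * B u v ^ 2 * t) ^ 2 * (s * B p u * B p u) ^ 2 * m4

theorem exists_good (h2 : (2 : F) ≠ 0) {hB : B.IsAlt} (hN : B.Nondegenerate) (h4 : finrank F V = 4) (hM : M ≤ Isom B)
    (hirr : ∀ W : Submodule F V, (∀ g ∈ M, ∀ w ∈ W, g w ∈ W) → W = ⊥ ∨ W = ⊤) (hgen : SpGen hB M) {v₀ : V}
    (hv0 : v₀ ≠ 0) (hv : tv hB v₀ 1 ∈ M) (h : (∃ a, tv hB v₀ a ∈ M ∧ a ≠ 0 ∧ a ≠ 1 ∧ a ≠ -1) ∨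
      ∀ v c c', v ≠ 0 → c ≠ 0 → tv hB v c ∈ M → tv hB v c' ∈ M → c' ^ 2 = c ^ 2 ∨ c' = 0) :
    ∃ K, Good hB M K v₀ ∧ ∀ v w d, Good hB M K v → tv hB w d ∈ M → d ≠ 0 → B v w ≠ 0 →
      Good hB M K ((B v w)⁻¹ • w) := by
  rcases h with ⟨a, ha, a0, a1, a2⟩ | hs
  · obtain ⟨_, ⟨g, hg, rfl⟩, h⟩ := exists_ne_zero_of_span hN (span_orbit hirr hv0) hv0
    obtain ⟨L, k1, -⟩ := tv_big hB hM h one_ne_zero (tv_conj_mem hB hg (hM hg) hv) hv ha one_ne_zero a0 a1 a2
    have k3 : B v₀ (g v₀) ^ 2 ∈ L := by simpa using (k1 1).1 hv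
    have k4 : Good hB M L v₀ := fun c => (k1 c).trans ⟨fun e => by
      simpa [h] using L.mul_mem (L.inv_mem k3) e, fun e => by simpa using L.mul_mem k3 e⟩
    exact ⟨L, k4, fun v w d => good_of_big hM ((k4 a).1 ha) a0 a1 a2⟩
  have h3 : (3 : F) = 0 := by
    have := (hs v₀ 1 (1 + 1) hv0 one_ne_zero hv (tv_mul hB v₀ 1 1 ▸ mul_mem hv hv)).resolve_right
      (by rwa [one_add_one_eq_two])
    linear_combination this
  have : Fact (Nat.Prime 3) := ⟨Nat.prime_three⟩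
  have : CharP F 3 := (CharP.charP_iff_prime_eq_zero Nat.prime_three).2 (by exact_mod_cast h3)
  have key : ∀ v c, v ≠ 0 → c ^ 2 = 1 → tv hB v c ∈ M → Good hB M ((frobenius F 3).eqLocusField (RingHom.id F)) v :=
    fun v c v0 hc hv x => by
      have c0 : c ≠ 0 := by rintro rfl; simp at hc
      change _ ↔ x ^ 3 = x
      refine ⟨fun e => (hs v c x v0 c0 hv e).elim (fun e => by linear_combination x * e + x * hc) (by
        rintro rfl; simp), fun e => ?_⟩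
      have : x * ((x - c) * (x + c)) = 0 := by linear_combination e - x * hc
      simp only [mul_eq_zero, sub_eq_zero, add_eq_zero_iff_eq_neg] at this
      rcases this with rfl | rfl | rfl
      exacts [tv_zero hB v ▸ one_mem M, hv, tv_inv hB v c ▸ inv_mem hv]
  refine ⟨_, key v₀ 1 hv0 (one_pow 2) hv, fun v w d g1 hw hd h => key _ (1 * B v w ^ 2 * d)
    (smul_ne_zero (inv_ne_zero h) fun e => h (by simp [e])) ?_ (by
      rwa [tv_smul, one_mul, inv_pow, inv_mul_cancel_left₀ (pow_ne_zero 2 h)])⟩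
  have hv := (g1 1).2 (one_mem _)
  have h' : B w v ≠ 0 := mt (alt_eq_zero_comm hB).1 h
  obtain ⟨x, c, hx, y, hy, hy'⟩ : ∃ x c, tv hB x c ∈ M ∧ ∃ y ∈ Submodule.span F {v, w},
      tv hB x c y ∉ Submodule.span F {v, w} := by
    by_contra hc
    push Not at hc
    rcases hirr _ (hgen.inv hc) with e | e
    · exact h (by simp [Submodule.span_eq_bot.1 e v (by simp)])
    · classical
      have := finrank_span_le_card (R := F) ({v, w} : Set V)
      have h5 : ({v, w} : Set V).toFinset.card ≤ 2 := by rw [Set.toFinset_insert, Set.toFinset_singleton]; exact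
        Finset.card_le_two
      rw [e, finrank_top] at this
      omega
  rw [tv_apply] at hy'
  have c0 : c ≠ 0 := by rintro rfl; exact hy' (by simpa using hy)
  have hP : x ∉ Submodule.span F {v, w} := fun e => hy' (add_mem hy (Submodule.smul_mem _ _ e))
  have hP' : ∀ a : F, ∀ z ∈ ({v, w} : Set V), x + a • z ∉ Submodule.span F {v, w} := fun a z hz e =>
    hP ((Submodule.add_mem_iff_left _ (Submodule.smul_mem _ _ (Submodule.subset_span hz))).1 e)
  by_cases h1 : B x v = 0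
  · have h5 : B x w ≠ 0 := fun h5 => hy' (by
      obtain ⟨a, b, rfl⟩ := Submodule.mem_span_pair.1 hy
      simpa [alt_neg hB v x, alt_neg hB w x, h1, h5] using hy)
    exact small_val h2 hM hs hv hw (tv_conj_mem hB hw (hM hw) hx) one_ne_zero hd c0 h
      (by simp [tv_apply, h1, h5, hd, h']) (by simpa [tv_apply, alt_self hB] using h5) (hP' _ _ (by simp))
  by_cases h5 : B x w = 0
  · exact small_val h2 hM hs hv hw (tv_conj_mem hB hv (hM hv) hx) one_ne_zero hd c0 h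
      (by simpa [tv_apply, alt_self hB] using h1) (by simp [tv_apply, h1, h5, h]) (hP' _ _ (by simp))
  · exact small_val h2 hM hs hv hw hx one_ne_zero hd c0 h h1 h5 hP

omit [Finite F] in
theorem odd_struct (h2 : (2 : F) ≠ 0) {hB : B.IsAlt} (hN : B.Nondegenerate) (hM : M ≤ Isom B)
    (hirr : ∀ W : Submodule F V, (∀ g ∈ M, ∀ w ∈ W, g w ∈ W) → W = ⊥ ∨ W = ⊤) (hgen : SpGen hB M) {v₀ : V}
    (hv0 : v₀ ≠ 0) {K : Subfield F} (hv : Good hB M K v₀)
    (hP : ∀ v w d, Good hB M K v → tv hB w d ∈ M → d ≠ 0 → B v w ≠ 0 → Good hB M K ((B v w)⁻¹ • w)) :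
    ∃ W : Submodule K V, Submodule.span F (W : Set V) = ⊤ ∧ (∀ x ∈ W, ∀ y ∈ W, B x y ∈ K) ∧
      (∀ g ∈ M, ∀ x ∈ W, g x ∈ W) ∧ v₀ ∈ W ∧
      ∀ u d, tv hB u d ∈ M → d ≠ 0 → ∃ a : F, a ≠ 0 ∧ a • u ∈ W ∧ (u ≠ 0 → Good hB M K (a • u)) := by
  have hQ : ∀ u w, Good hB M K u → Good hB M K w → B u w ^ 2 ∈ K := fun u w hu hw => by
    by_cases h : B u w = 0
    · simp [h]
    · have := (hP u w 1 hu ((hw 1).2 K.one_mem) one_ne_zero h 1).2 K.one_mem
      rw [tv_smul, hw, mul_one, inv_pow] at this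
      exact inv_mem_iff.1 this
  let Y : Set V := {w | w = v₀ ∨ Good hB M K w ∧ B v₀ w ∈ K ∧ B v₀ w ≠ 0}
  have hY : ∀ x ∈ Y, ∀ y ∈ Y, B x y ∈ K := by
    rintro x (rfl | ⟨a1, a2, a3⟩) y (rfl | ⟨b1, b2, b3⟩)
    · simp [alt_self hB]
    · exact b2
    · rw [alt_neg hB]; exact K.neg_mem a2
    · have := hQ _ y (a1.conj hM ((hv 1).2 K.one_mem)) b1
      rw [tv_apply, alt_neg hB x v₀] at this
      simp only [map_add, map_smul, LinearMap.add_apply, LinearMap.smul_apply, smul_eq_mul] at this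
      have k := K.mul_mem a2 b2
      have h2K : (2 : F) ∈ K := by simp
      convert K.div_mem (K.sub_mem (K.add_mem (hQ x y a1 b1) (K.mul_mem k k)) this) (K.mul_mem h2K k) using 1
      field_simp
      ring
  have hI : ∀ u d, tv hB u d ∈ M → d ≠ 0 → (∃ a : F, a ≠ 0 ∧ a • u ∈ Submodule.span K Y ∧ Good hB M K (a • u)) ∨
      ∀ y ∈ Y, B y u = 0 := fun u d hu hd => by
    by_cases h0 : B v₀ u = 0
    · refine or_iff_not_imp_right.2 fun h => ?_
      push Not at h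
      obtain ⟨y, rfl | ⟨a1, a2, a3⟩, h⟩ := h
      · exact absurd h0 h
      have k := hP y u d a1 hu hd h
      have k' := k.conj hM ((a1 1).2 K.one_mem)
      have e : tv hB y 1 ((B y u)⁻¹ • u) = (B y u)⁻¹ • u - y := by
        simp [tv_apply, alt_neg hB u y, smul_smul, h, sub_eq_add_neg]
      rw [e] at k'
      refine ⟨_, inv_ne_zero h, ?_, k⟩
      rw [← sub_add_cancel ((B y u)⁻¹ • u) y]
      exact add_mem (Submodule.subset_span (.inr ⟨k', by simpa [h0] using a2, by simpa [h0] using a3⟩))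
        (Submodule.subset_span (.inr ⟨a1, a2, a3⟩))
    · have k := hP v₀ u d hv hu hd h0
      exact .inl ⟨_, inv_ne_zero h0, Submodule.subset_span (.inr ⟨k, by simp [h0], by simp [h0]⟩), k⟩
  have hU : Submodule.span F Y = ⊤ := (hirr _ (hgen.inv fun u d hu x hx => by
    refine apply_mem_span (tv hB u d : V →ₗ[F] V) (fun y hy => ?_) hx
    rw [LinearEquiv.coe_coe, tv_apply]
    refine add_mem (Submodule.subset_span hy) ?_
    by_cases hd : d = 0
    · simp [hd]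
    rcases hI u d hu hd with ⟨a, a0, a1, -⟩ | h
    · exact Submodule.smul_mem _ _ ((Submodule.smul_mem_iff _ a0).1 (Submodule.span_subset_span K F Y a1))
    · simp [h y hy])).resolve_left fun e => hv0 (Submodule.span_eq_bot.1 e v₀ (.inl rfl))
  have hI' : ∀ u d, tv hB u d ∈ M → d ≠ 0 → ∃ a : F, a ≠ 0 ∧ a • u ∈ Submodule.span K Y ∧
      (u ≠ 0 → Good hB M K (a • u)) := fun u d hu hd => by
    by_cases u0 : u = 0
    · exact ⟨1, one_ne_zero, by simp [u0], fun h => absurd u0 h⟩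
    rcases hI u d hu hd with ⟨a, a0, a1, a2⟩ | h
    · exact ⟨a, a0, a1, fun _ => a2⟩
    · obtain ⟨y, hy, e⟩ := exists_ne_zero_of_span hN hU u0
      exact absurd ((alt_eq_zero_comm hB).1 (h y hy)) e
  refine ⟨Submodule.span K Y, by rw [Submodule.span_span_of_tower, hU], form_mem_span hY,
    hgen.inv fun u d hu x hx => ?_, Submodule.subset_span (.inl rfl), hI'⟩
  by_cases hd : d = 0
  · simpa [hd, tv_zero] using hx
  by_cases u0 : u = 0
  · simpa [u0, tv_zero_left] using hx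
  obtain ⟨a, a0, a1, a2⟩ := hI' u d hu hd
  have e : tv hB u d = tv hB (a • u) (a⁻¹ ^ 2 * d) := by rw [← tv_smul, inv_smul_smul₀ a0]
  rw [e, tv_apply]
  exact add_mem hx (Submodule.smul_mem _ (⟨_, K.mul_mem ((a2 u0 _).1 (e ▸ hu)) (form_mem_span hY x hx _ a1)⟩ : K) a1)

end Odd

open Matrix Cfsg CL.Asch

theorem isSpSub_of {F : Type u} [Field F] [Finite F] (h2 : (2 : F) ≠ 0) {G : Subgroup (GL I4 F)}
    {B : LinearMap.BilinForm F (I4 → F)} {hB : B.IsAlt} (hN : B.Nondegenerate)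
    (hM : G.map (glEquiv I4 F).toMonoidHom ≤ CL.Sp.Isom B) (hI : Irr G)
    (hgen : SpGen hB (G.map (glEquiv I4 F).toMonoidHom)) {v₀ : I4 → F} (hv0 : v₀ ≠ 0)
    (hv : tv hB v₀ 1 ∈ G.map (glEquiv I4 F).toMonoidHom)
    (h : (∃ a, tv hB v₀ a ∈ G.map (glEquiv I4 F).toMonoidHom ∧ a ≠ 0 ∧ a ≠ 1 ∧ a ≠ -1) ∨
      ∀ v c c', v ≠ 0 → c ≠ 0 → tv hB v c ∈ G.map (glEquiv I4 F).toMonoidHom →
        tv hB v c' ∈ G.map (glEquiv I4 F).toMonoidHom → c' ^ 2 = c ^ 2 ∨ c' = 0) : IsSpSub G := by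
  set M := G.map (glEquiv I4 F).toMonoidHom
  have hirr : ∀ W : Submodule F (I4 → F), (∀ g ∈ M, ∀ w ∈ W, g w ∈ W) → W = ⊥ ∨ W = ⊤ := fun W hW =>
    irr_iff.1 hI W fun g hg => hW _ ⟨g, hg, rfl⟩
  obtain ⟨K, hK, hP⟩ := exists_good h2 hN (by simp) hM hirr hgen hv0 hv h
  obtain ⟨W, w1, w2, w3, w4, w5⟩ := odd_struct h2 hN hM hirr hgen hv0 hK hP
  obtain ⟨c, c1, c2, c3⟩ := exists_desc hB hN w1 w2
  have hB₀ := stdForm_isAlt (Fin 2) K
  have hN₀ := stdForm_nondegenerate (Fin 2) K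
  let ι : (I4 → K) → I4 → F := fun z => c.1 *ᵥ fun i => (z i : F)
  have i1 : ∀ y z, B (ι y) (ι z) = stdForm (Fin 2) K y z := fun y z => (c1 _ _).trans (stdForm_map K y z)
  have i2 : ∀ (y z : I4 → K) (k : K), ι (y + k • z) = ι y + (k : F) • ι z := fun y z k => by
    simp only [ι, ← mulVec_smul, ← mulVec_add]; rfl
  refine ⟨K, fun y z => stdForm (Fin 2) K y z, c, ⟨fun _ => rfl, by simp, by simp, by simp,
    fun y z => by simp [alt_neg hB₀ z y], hN₀.2⟩, hB₀, le_antisymm (fun g hg => ?_) ?_⟩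
  · obtain ⟨a, rfl⟩ := c3 G (fun g hg => w3 _ ⟨g, hg, rfl⟩) hg
    refine ⟨a, fun y z => Subtype.val_injective ?_, rfl⟩
    rw [← i1, ← i1, ← hM ⟨_, hg, rfl⟩ (ι y)]
    exact congrArg₂ (B · ·) (descGL_mulVec K c a y).symm (descGL_mulVec K c a z).symm
  have hc : ∀ z, Good hB M K (ι z) → z ∈ Cen hB₀ ((G.comap (descGL K c)).map (glEquiv I4 K).toMonoidHom) :=
    fun z hz k => by
      obtain ⟨g, hg, e⟩ := (hz k).2 k.2
      refine ⟨(glEquiv I4 K).symm _, ?_, (glEquiv I4 K).apply_symm_apply _⟩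
      have e' : descGL K c ((glEquiv I4 K).symm (tv hB₀ z k)) * c = g * c := Units.ext (Matrix.ext fun i j => by
        have h1 := descGL_mulVec K c ((glEquiv I4 K).symm (tv hB₀ z k)) (Pi.single j 1)
        have h3 : g.1 *ᵥ ι (Pi.single j 1) = _ := LinearEquiv.congr_fun e (ι (Pi.single j 1))
        rw [glEquiv_symm_mulVec, tv_apply] at h1
        rw [tv_apply, i1, ← Subfield.coe_mul, ← i2] at h3
        have h4 : (fun i => ((Pi.single j 1 : I4 → K) i : F)) = Pi.single j 1 :=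
          funext fun i => by by_cases h : i = j <;> simp [h]
        have := congrFun (h1.trans h3.symm) i
        simp only [ι, h4, mulVec_single_one] at this
        exact this)
      exact Subgroup.mem_comap.2 (mul_right_cancel e' ▸ hg)
  obtain ⟨z₀, rfl⟩ := c2 v₀ w4
  have h2' : (2 : K) ≠ 0 := fun e => h2 (by simpa only [map_ofNat, map_zero] using congrArg K.subtype e)
  have key := isom_le_of_cen_conn hB₀ hN₀ (exists_ne_zero_one_of_two_ne h2') (hc z₀ hK) fun S hS h => by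
    have hU : Submodule.span F (ι '' S) = ⊤ := (hirr _ (hgen.inv fun u d hu x hx => by
      refine apply_mem_span (tv hB u d : (I4 → F) →ₗ[F] I4 → F) ?_ hx
      rintro _ ⟨y, hy, rfl⟩
      rw [LinearEquiv.coe_coe, tv_apply]
      refine add_mem (Submodule.subset_span ⟨y, hy, rfl⟩) ?_
      by_cases hd : d * B (ι y) u = 0
      · simp [hd]
      obtain ⟨a, a0, a1, a2⟩ := w5 u d hu (left_ne_zero_of_mul hd)
      obtain ⟨z, hz⟩ := c2 _ a1
      refine Submodule.smul_mem _ _ ((Submodule.smul_mem_iff _ a0).1 (Submodule.subset_span ⟨z, h z (hc z ?_) y hy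
        fun e => hd ?_, hz.symm⟩))
      · exact (show a • u = ι z from hz) ▸ a2 fun e => hd (by simp [e])
      · have := i1 y z
        rw [e, show ι z = a • u from hz.symm, map_smul] at this
        simp [(mul_eq_zero.1 this).resolve_left a0])).resolve_left fun e =>
          hv0 (Submodule.span_eq_bot.1 e _ ⟨z₀, hS, rfl⟩)
    by_contra hne
    obtain ⟨x, hx⟩ : ∃ x, x ∉ S := by_contra fun h => hne (eq_top_iff.2 fun x _ => by_contra fun h' => h ⟨x, h'⟩)
    obtain ⟨u, hu, hu'⟩ := exists_orth_ne_zero hB₀ hN₀ hx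
    have := (Submodule.span_le (p := LinearMap.ker (B.flip (ι u)))).2 (by
      rintro _ ⟨y, hy, rfl⟩
      change B (ι y) (ι u) = 0
      rw [i1, mem_orth.1 hu y hy]; rfl) (hU ▸ Submodule.mem_top : ι x ∈ _)
    exact hu' (Subtype.val_injective ((i1 x u).symm.trans this))
  rintro _ ⟨a, ha, rfl⟩
  obtain ⟨b, hb, e⟩ := key (show glEquiv I4 K a ∈ CL.Sp.Isom _ from ha)
  exact (glEquiv I4 K).injective e ▸ hb

theorem t4Odd : T4Odd.{u} := by
  intro F _ _ G h2 hG hI hT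
  have hB := stdForm_isAlt (Fin 2) F
  have hN := stdForm_nondegenerate (Fin 2) F
  set M := G.map (glEquiv I4 F).toMonoidHom
  have hM : M ≤ CL.Sp.Isom (stdForm (Fin 2) F) := by
    rintro _ ⟨g, hg, rfl⟩
    exact (mem_spGL_iff g).1 (hG hg)
  have ht : ∀ g ∈ G, IsTv g → ∃ v c, v ≠ 0 ∧ c ≠ 0 ∧ glEquiv I4 F g = tv hB v c := fun g hg ht => by
    obtain ⟨v, c, hv, hc, hx⟩ := ht.exists_sp (hG hg)
    exact ⟨v, -c, hv, neg_ne_zero.2 hc, LinearEquiv.ext fun x => by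
      rw [tv_apply, alt_neg hB x, neg_mul_neg]; exact hx x⟩
  have hgen : SpGen hB M := fun N h => Subgroup.map_le_iff_le_comap.2 (hT.trans ((Subgroup.closure_le _).2
    fun g hg => by
      obtain ⟨v, c, -, -, e⟩ := ht g hg.1 hg.2
      change glEquiv I4 F g ∈ N
      exact e ▸ h v c (e ▸ ⟨g, hg.1, rfl⟩)))
  have key : ∀ v s, v ≠ 0 → s ≠ 0 → tv hB v s ∈ M → (∃ a, tv hB v (a * s) ∈ M ∧ a ≠ 0 ∧ a ≠ 1 ∧ a ≠ -1) ∨
      (∀ v c c', v ≠ 0 → c ≠ 0 → tv hB v c ∈ M → tv hB v c' ∈ M → c' ^ 2 = c ^ 2 ∨ c' = 0) → IsSpSub G :=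
    fun v s hv hs h1 h3 => by
      have e : ∀ v c, tv (hB.smul s) v c = tv hB v (c * s) := fun v c => LinearEquiv.ext fun x => by
        simp [tv_apply, mul_assoc]
      refine isSpSub_of h2 (hB := hB.smul s) ⟨fun x hx => hN.1 x fun y => by simpa [hs] using hx y,
        fun x hx => hN.2 x fun y => by simpa [hs] using hx y⟩ (by rwa [isom_smul hs]) hI
        (fun N h => hgen N fun v c hc => by
          simpa only [e, inv_mul_cancel_right₀ hs] using h v (c * s⁻¹) (by rwa [e, inv_mul_cancel_right₀ hs])) hv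
        (by rwa [e, one_mul]) (h3.imp (by simpa only [e] using id) fun h v c c' a1 a2 a3 a4 => ?_)
      rw [e] at a3 a4
      simpa [mul_pow, hs] using h v _ _ a1 (mul_ne_zero a2 hs) a3 a4
  by_cases hs : ∀ v c c', v ≠ 0 → c ≠ 0 → tv hB v c ∈ M → tv hB v c' ∈ M → c' ^ 2 = c ^ 2 ∨ c' = 0
  · obtain ⟨g, hg, hg'⟩ : HasTv G := by
      by_contra hc
      have : ∀ g ∈ G, g = 1 := fun g hg => by
        have := hT hg
        rwa [show {g | g ∈ G ∧ IsTv g} = ∅ from Set.eq_empty_of_forall_notMem fun g h => hc ⟨g, h⟩,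
          Subgroup.closure_empty, Subgroup.mem_bot] at this
      rcases irr_iff.1 hI (LinearMap.ker (LinearMap.proj (R := F) (φ := fun _ : I4 => F) (.inl 0)))
        (fun g hg w hw => by simpa [this g hg] using hw) with e | e
      · simpa using congrFun ((Submodule.eq_bot_iff _).1 e (Pi.single (.inl 1) 1) (by simp)) (.inl 1)
      · simpa using (Submodule.eq_top_iff'.1 e (Pi.single (.inl 0) 1))
    obtain ⟨v, c, hv, hc, e⟩ := ht g hg hg'
    exact key v c hv hc (e ▸ ⟨g, hg, rfl⟩) (.inr hs)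
  · push Not at hs
    obtain ⟨v, c, c', hv, hc, h1, h3, h4, h5⟩ := hs
    refine key v c hv hc h1 (.inl ⟨c' / c, by rwa [div_mul_cancel₀ _ hc], div_ne_zero h5 hc, fun e => h4 ?_,
      fun e => h4 ?_⟩) <;> rw [div_eq_iff hc] at e <;> rw [e] <;> ring

end CL.Low
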