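/-
Project LOWDIM: maximality of the subfield subgroups of `Sp₄(q)`, `q` odd.
-/
import Cfsg.Agent.Low.T4Odd

set_option autoImplicit false

namespace CL.Low

open Module CL.Sp

section

variable {F V : Type*} [Field F] [Finite F] [AddCommGroup V] [Module F V] {B : LinearMap.BilinForm F V}
  {M : Subgroup (V ≃ₗ[F] V)}

/-- One field parametrises all root groups containing the parameter `1`. -/
theorem exists_root_field (h2 : (2 : F) ≠ 0) {hB : B.IsAlt} (hN : B.Nondegenerate) (h4 : finrank F V = 4)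
    (hM : M ≤ Isom B) (hirr : ∀ W : Submodule F V, (∀ g ∈ M, ∀ w ∈ W, g w ∈ W) → W = ⊥ ∨ W = ⊤) (hgen : SpGen hB M)
    {v₀ : V} (hv0 : v₀ ≠ 0) (hv : tv hB v₀ 1 ∈ M) : ∃ K : Subfield F, (∀ u, u ≠ 0 → tv hB u 1 ∈ M → Good hB M K u) ∧
      ∀ u w, tv hB u 1 ∈ M → tv hB w 1 ∈ M → B u w ^ 2 ∈ K := by
  obtain ⟨v, s, hv, hs, h1, h3⟩ : ∃ v s, v ≠ 0 ∧ s ≠ 0 ∧ tv hB v s ∈ M ∧
      ((∃ a, tv hB v (a * s) ∈ M ∧ a ≠ 0 ∧ a ≠ 1 ∧ a ≠ -1) ∨
      ∀ v c c', v ≠ 0 → c ≠ 0 → tv hB v c ∈ M → tv hB v c' ∈ M → c' ^ 2 = c ^ 2 ∨ c' = 0) := by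
    by_cases hs : ∀ v c c', v ≠ 0 → c ≠ 0 → tv hB v c ∈ M → tv hB v c' ∈ M → c' ^ 2 = c ^ 2 ∨ c' = 0
    · exact ⟨v₀, 1, hv0, one_ne_zero, hv, .inr hs⟩
    · push Not at hs
      obtain ⟨v, c, c', hv, hc, h1, h3, h4, h5⟩ := hs
      refine ⟨v, c, hv, hc, h1, .inl ⟨c' / c, by rwa [div_mul_cancel₀ _ hc], div_ne_zero h5 hc, fun e => h4 ?_,
        fun e => h4 ?_⟩⟩ <;> rw [div_eq_iff hc] at e <;> rw [e] <;> ring
  have e : ∀ v c, tv (hB.smul s) v c = tv hB v (c * s) := fun v c => LinearEquiv.ext fun x => by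
    simp [tv_apply, mul_assoc]
  have hN' : (s • B).Nondegenerate := ⟨fun x hx => hN.1 x fun y => by simpa [hs] using hx y,
    fun x hx => hN.2 x fun y => by simpa [hs] using hx y⟩
  have hM' : M ≤ Isom (s • B) := by rwa [isom_smul hs]
  have hgen' : SpGen (hB.smul s) M := fun N h => hgen N fun v c hc => by
    simpa only [e, inv_mul_cancel_right₀ hs] using h v (c * s⁻¹) (by rwa [e, inv_mul_cancel_right₀ hs])
  obtain ⟨K, hK, hP⟩ := exists_good h2 hN' h4 hM' hirr hgen' hv (by rwa [e, one_mul])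
    (h3.imp (by simpa only [e] using id) fun h v c c' a1 a2 a3 a4 => by
      rw [e] at a3 a4
      simpa [mul_pow, hs] using h v _ _ a1 (mul_ne_zero a2 hs) a3 a4)
  obtain ⟨W, -, w2, -, -, w5⟩ := odd_struct h2 hN' hM' hirr hgen' hv hK hP
  have key : ∀ u, u ≠ 0 → tv hB u 1 ∈ M → ∃ a : F, a ≠ 0 ∧ a • u ∈ W ∧ a ^ 2 * s ∈ K ∧ Good hB M K u :=
    fun u u0 hu => by
      obtain ⟨a, a0, a1, a2⟩ := w5 u s⁻¹ (by rwa [e, inv_mul_cancel₀ hs]) (inv_ne_zero hs)
      have a3 : ∀ c, tv hB u c ∈ M ↔ c / (a ^ 2 * s) ∈ K := fun c => by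
        rw [← a2 u0, e, tv_smul, show a ^ 2 * (c / (a ^ 2 * s) * s) = c by field_simp]
      have a4 : a ^ 2 * s ∈ K := by simpa only [one_div, inv_mem_iff] using (a3 1).1 hu
      refine ⟨a, a0, a1, a4, fun c => (a3 c).trans ⟨fun h => ?_, fun h => K.div_mem h a4⟩⟩
      simpa only [div_mul_cancel₀ _ (mul_ne_zero (pow_ne_zero 2 a0) hs)] using K.mul_mem h a4
  refine ⟨K, fun u u0 hu => (key u u0 hu).choose_spec.2.2.2, fun u w hu hw => ?_⟩
  by_cases h0 : B u w = 0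
  · simp [h0]
  obtain ⟨a, a0, a1, a2, -⟩ := key u (fun e => h0 (by simp [e])) hu
  obtain ⟨b, b0, b1, b2, -⟩ := key w (fun e => h0 (by simp [e])) hw
  have k := w2 _ a1 _ b1
  convert K.div_mem (K.mul_mem k k) (K.mul_mem a2 b2) using 1
  simp only [map_smul, LinearMap.smul_apply, smul_eq_mul]
  field_simp

variable {F₀ W : Type*} [Field F₀] [Algebra F₀ F] [AddCommGroup W] [Module F₀ W] [FiniteDimensional F₀ W]
  {B₀ : LinearMap.BilinForm F₀ W} {ι : W →ₛₗ[algebraMap F₀ F] V}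

theorem isom_le_or_smul_four (D : SubData B B₀ ι) (hp : (finrank F₀ F).Prime) (h2 : (2 : F) ≠ 0)
    (h4 : finrank F V = 4) (hM : M ≤ Isom B) (hH : ∀ v c, tv D.alt (ι v) (algebraMap F₀ F c) ∈ M) :
    Isom B ≤ M ∨ ∀ g ∈ M, ∃ l : F, l ≠ 0 ∧ ∀ v, ∃ w, g (ι v) = l • ι w := by
  have : FiniteDimensional F V := Module.finite_of_finrank_eq_succ h4
  by_cases h : ∀ g ∈ M, ∀ v, ∃ (l : F) (w : W), g (ι v) = l • ι w
  · exact Or.inr fun g hg => D.exists_smul_of_forall (h g hg)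
  left
  push Not at h
  obtain ⟨g, hg, v, hv⟩ := h
  have h1 : ∀ v, tv D.alt (ι v) 1 ∈ M := fun v => by simpa using hH v 1
  obtain ⟨a, ha⟩ := D.exists_sq_notMem (x := g (ι v)) fun ⟨l, w, e⟩ => hv l w e
  have a0 : ι a ≠ 0 := fun e => ha ⟨0, by simp [e]⟩
  let N := Subgroup.closure {g | g ∈ M ∧ ∃ v c, g = tv D.alt v c}
  have hN : N ≤ M := (Subgroup.closure_le _).2 fun _ h => h.1
  have hN' : ∀ {v c}, tv D.alt v c ∈ M → tv D.alt v c ∈ N := fun h => Subgroup.subset_closure ⟨h, _, _, rfl⟩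
  obtain ⟨K, k1, k2⟩ := exists_root_field h2 D.nondeg h4 (hN.trans hM) (fun U hU => or_iff_not_imp_left.2 fun h0 => by
      obtain ⟨x, hx, x0⟩ := Submodule.exists_mem_ne_zero_of_ne_bot h0
      have key : ∀ w, B x (ι w) ≠ 0 → ι w ∈ U := fun w hw => by
        have := hU _ (hN' (h1 w)) x hx
        rwa [tv_apply, Submodule.add_mem_iff_right _ hx, one_mul, Submodule.smul_mem_iff _ hw] at this
      obtain ⟨_, ⟨b, rfl⟩, hb⟩ := exists_ne_zero_of_span D.nondeg D.span x0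
      rw [eq_top_iff, ← D.span, Submodule.span_le]
      rintro _ ⟨y, rfl⟩
      by_cases hy : B x (ι y) = 0
      · simpa using sub_mem (key (y + b) (by simpa [hy] using hb)) (key b hb)
      · exact key y hy)
    (fun N' h => (Subgroup.closure_le _).2 fun _ ⟨hg, v, c, e⟩ => e ▸ h v c (hN' (e ▸ hg))) a0 (hN' (h1 a))
  let A : Submodule F₀ F :=
    { K.toAddSubgroup with
      smul_mem' := fun c x hx => by
        rw [Algebra.smul_def]; exact K.mul_mem ((k1 _ a0 (hN' (h1 a)) _).1 (hN' (hH a c))) hx }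
  by_cases htop : A = ⊤
  · refine D.isom_le_of_LP (exists_ne_zero_one_of_two_ne h2) fun c => D.mem_LP.2 fun w => ?_
    by_cases hw : ι w = 0
    · rw [hw, tv_zero_left]; exact one_mem M
    · exact hN ((k1 _ hw (hN' (h1 w)) c).2 (show c ∈ A from htop ▸ Submodule.mem_top))
  exact (ha (exists_algebraMap_of_mul_mem hp (A := A)
    (fun e => one_ne_zero ((Submodule.mem_bot F₀).1 (e ▸ (show (1 : F) ∈ A from K.one_mem)))) htop fun s hs =>
      K.mul_mem hs (k2 _ _ (hN' (tv_conj_mem D.alt hg (hM hg) (h1 v))) (hN' (h1 a))))).elim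

end

open Matrix

variable {F : Type*} [Field F]

theorem isMaximalIn_subfieldSubgroup_four [Fintype F] (h2 : (2 : F) ≠ 0) {m : ℕ} (hm : m = 2) (F₀ : Subfield F)
    {r : ℕ} (hr : r.Prime) (hcard : Fintype.card F = Nat.card F₀ ^ r) (P : GL (Fin m ⊕ Fin m) F) {ζ : F}
    (hζ : ζ ≠ 0) (hP : Cfsg.Geo.IsFormRationalStructure (Cfsg.sympForm m F) F₀ ζ P) :
    Cfsg.Geo.IsMaximalIn (Cfsg.spGL m F) (Cfsg.Geo.subfieldSubgroup F₀ P ⊓ Cfsg.spGL m F) := by
  have hp : (finrank F₀ F).Prime := by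
    have h1 := CL.Asch.card_eq_pow_finrank_subfield F₀
    rw [Nat.card_eq_fintype_card, hcard] at h1
    rwa [← Nat.pow_right_injective (Finite.one_lt_card (α := F₀)) h1]
  let ι : (Fin m ⊕ Fin m → F₀) →ₛₗ[algebraMap F₀ F] (Fin m ⊕ Fin m → F) :=
    { toFun := fun v => (P : Matrix _ _ F) *ᵥ fun i => (v i : F)
      map_add' := fun u v => by rw [← mulVec_add]; rfl
      map_smul' := fun c v => by rw [← mulVec_smul]; rfl }
  have hι : ∀ v, ι v = (P : Matrix _ _ F) *ᵥ fun i => (v i : F) := fun v => rfl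
  let B := ζ • stdForm (Fin m) F
  have hB : B.IsAlt := fun v => by simp [B, alt_self (stdForm_isAlt (Fin m) F)]
  have hN : B.Nondegenerate := (LinearMap.IsRefl.nondegenerate_iff_separatingLeft hB.isRefl).2 fun x hx =>
    (stdForm_nondegenerate (Fin m) F).1 x fun y => by simpa [B, hζ] using hx y
  have hmem : ∀ u v, B (ι u) (ι v) ∈ F₀ := fun u v => by
    have := hP _ _ (fun i => (u i).2) (fun i => (v i).2)
    rwa [← stdForm_eq_sympForm] at this
  let B₀ : LinearMap.BilinForm F₀ (Fin m ⊕ Fin m → F₀) := LinearMap.mk₂ F₀ (fun u v => ⟨_, hmem u v⟩)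
    (fun u u' v => Subtype.ext (by simp only [map_add, LinearMap.add_apply]; rfl))
    (fun c u v => Subtype.ext (by simp only [map_smulₛₗ ι, map_smul B, LinearMap.smul_apply]; rfl))
    (fun u v v' => Subtype.ext (by simp only [map_add]; rfl))
    (fun c u v => Subtype.ext (by simp only [map_smulₛₗ ι, map_smul (B _)]; rfl))
  have he : ∀ u v, B (ι u) (ι v) = algebraMap F₀ F (B₀ u v) := fun u v => rfl
  have hspan : Submodule.span F (Set.range ι) = ⊤ := eq_top_iff.2 fun x _ => by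
    rw [← CL.Asch.gl_mulVec_inv P x, pi_eq_sum_univ' (((P⁻¹ : GL (Fin m ⊕ Fin m) F) : Matrix (Fin m ⊕ Fin m) (Fin m ⊕ Fin m) F) *ᵥ x),
      mulVec_sum]
    refine Submodule.sum_mem _ fun j _ => ?_
    rw [mulVec_smul]
    refine Submodule.smul_mem _ _ (Submodule.subset_span ⟨Pi.single j 1, ?_⟩)
    rw [hι]; congr 1
    ext i; by_cases hij : i = j <;> simp [hij]
  have hB₀ : B₀.IsAlt := fun v => Subtype.ext (hB (ι v))
  have hN₀ : B₀.Nondegenerate := (LinearMap.IsRefl.nondegenerate_iff_separatingLeft hB₀.isRefl).2 fun x hx => by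
    have h1 : ι x = 0 := hN.1 _ fun y => by
      have : Submodule.span F (Set.range ι) ≤ LinearMap.ker (B (ι x)) := Submodule.span_le.2 (by
        rintro _ ⟨a, rfl⟩
        change B (ι x) (ι a) = 0
        rw [he, hx, map_zero])
      exact this (hspan ▸ Submodule.mem_top)
    have h3 := CL.Asch.gl_inv_mulVec P fun i => (x i : F)
    rw [← hι, h1, mulVec_zero] at h3
    ext i
    exact (congrFun h3 i).symm
  have D : SubData B B₀ ι := ⟨hB, hN, hB₀, hN₀, he, hspan⟩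
  have hI : Isom B = Isom (stdForm (Fin m) F) := isom_smul hζ
  refine isMaximalIn_spGL _ ?_ fun M hM hS g hg hgD => ?_
  · have : Nonempty (Fin m ⊕ Fin m) := ⟨Sum.inl ⟨0, by omega⟩⟩
    obtain ⟨g, hg, h⟩ := D.exists_isom_not_smul hp
    refine ⟨g, hI ▸ hg, fun hh => h ?_⟩
    obtain ⟨l, -, hl⟩ := (mem_subfieldSubgroup_symm_iff F₀ P g).1 hh
    exact ⟨l, hl⟩
  · rw [← hI] at hM hS ⊢
    subst hm
    refine (isom_le_or_smul_four D hp h2 (by simp) hM fun v c => hS _ (tv_mem_isom _ _ _) ?_).resolve_right fun h =>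
      hgD ((mem_subfieldSubgroup_symm_iff F₀ P g).2 (h g hg))
    exact (mem_subfieldSubgroup_symm_iff F₀ P _).2
      ⟨1, one_ne_zero, fun w => ⟨_, by rw [one_smul]; exact D.tv_apply_ι v c w⟩⟩

end CL.Low
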