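/-
Project LOWDIM: the stabiliser of `± j` (`j` skew, `j² = δ`) is maximal in `Sp₄(q)`, `q ≥ 5` odd.
-/
import Cfsg.Agent.Low.Cliff
import Cfsg.Agent.Low.T4Sub
import Cfsg.Agent.Cls.SpUni
import Cfsg.Agent.Cls.QuadClass
import Cfsg.Agent.Cls.GeoTrans

set_option autoImplicit false

namespace CL.Low.MJ

open Module CL.Sp

universe u

section Abstract

variable {F V : Type*} [Field F] [Finite F] [AddCommGroup V] [Module F V] {B : LinearMap.BilinForm F V}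
  {M : Subgroup (V ≃ₗ[F] V)}

/-- The transvections of `M` fix no proper non-zero subspace. -/
def TvIrr (hB : B.IsAlt) (M : Subgroup (V ≃ₗ[F] V)) : Prop :=
  ∀ W : Submodule F V, (∀ v c, tv hB v c ∈ M → ∀ x ∈ W, tv hB v c x ∈ W) → W = ⊥ ∨ W = ⊤

theorem cen_of_quad_one (h2 : (2 : F) ≠ 0) {hB : B.IsAlt} (hN : B.Nondegenerate) (h4 : finrank F V = 4)
    (hM : M ≤ Isom B) (hirr : TvIrr hB M) {N : V →ₗ[F] V} (h0 : N ≠ 0) (hq : ∀ c : F, ∃ g ∈ M, ∀ x, g x = x + c • N x)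
    {v : V} (hv0 : v ≠ 0) (hv : tv hB v 1 ∈ M) : v ∈ Cen hB M := by
  let T := Subgroup.closure {g | g ∈ M ∧ ∃ v c, g = tv hB v c}
  have hT : T ≤ M := (Subgroup.closure_le _).2 fun _ h => h.1
  have hT' : ∀ {v c}, tv hB v c ∈ M → tv hB v c ∈ T := fun h => Subgroup.subset_closure ⟨h, _, _, rfl⟩
  have hi : ∀ W : Submodule F V, (∀ g ∈ T, ∀ w ∈ W, g w ∈ W) → W = ⊥ ∨ W = ⊤ := fun W h =>
    hirr W fun v c hc => h _ (hT' hc)
  obtain ⟨K, k1, k2⟩ := exists_root_field h2 hN h4 (hT.trans hM) hi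
    (fun N' h => (Subgroup.closure_le _).2 fun _ ⟨hg, v, c, e⟩ => e ▸ h v c (hT' (e ▸ hg))) hv0 (hT' hv)
  have hY := span_orbit hi hv0
  have h1 : ∀ w ∈ {w | ∃ g ∈ T, g v = w}, tv hB w 1 ∈ M := by
    rintro _ ⟨g, hg, rfl⟩
    exact tv_conj_mem hB (hT hg) (hM (hT hg)) hv
  obtain ⟨w, hw, hw'⟩ : ∃ w ∈ {w | ∃ g ∈ T, g v = w}, N w ≠ 0 := by
    by_contra! h
    exact h0 (LinearMap.ext_on hY h)
  obtain ⟨u, hu, hu'⟩ := exists_ne_zero_of_span hN hY hw'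
  have h3 : ∀ a : F, a ^ 2 ∈ K := fun a => by
    obtain ⟨g, hg, e⟩ := hq ((a - B w u) / B (N w) u)
    have := k2 _ _ (hT' (tv_conj_mem hB hg (hM hg) (h1 w hw))) (hT' (h1 u hu))
    rwa [e, map_add, map_smul, LinearMap.add_apply, LinearMap.smul_apply, smul_eq_mul, div_mul_cancel₀ _ hu',
      add_sub_cancel] at this
  refine fun c => hT ((k1 v hv0 (hT' hv) c).2 ?_)
  rw [show c = ((c + 1) / 2) ^ 2 - ((c - 1) / 2) ^ 2 by field_simp; ring]
  exact sub_mem (h3 _) (h3 _)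

theorem isom_le_of_quad (h2 : (2 : F) ≠ 0) {hB : B.IsAlt} (hN : B.Nondegenerate) (h4 : finrank F V = 4)
    (hM : M ≤ Isom B) (hirr : TvIrr hB M) {N : V →ₗ[F] V} (h0 : N ≠ 0) (hq : ∀ c : F, ∃ g ∈ M, ∀ x, g x = x + c • N x) :
    Isom B ≤ M := by
  have : FiniteDimensional F V := Module.finite_of_finrank_eq_succ h4
  have key : ∀ v s, s ≠ 0 → tv hB v s ∈ M → v ∈ Cen hB M := fun v s hs hv c => by
    by_cases hv0 : v = 0
    · exact hv0 ▸ zero_mem_cen hB M c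
    have e : ∀ v c, tv (hB.smul s) v c = tv hB v (c * s) := fun v c => LinearEquiv.ext fun x => by
      simp [tv_apply, mul_assoc]
    have := cen_of_quad_one h2 (hB := hB.smul s) ⟨fun x hx => hN.1 x fun y => by simpa [hs] using hx y,
      fun x hx => hN.2 x fun y => by simpa [hs] using hx y⟩ h4 (by rwa [isom_smul hs])
      (fun W h => hirr W fun v c hc => by
        simpa only [e, inv_mul_cancel_right₀ hs] using h v (c * s⁻¹) (by rwa [e, inv_mul_cancel_right₀ hs]))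
      h0 hq hv0 (by rwa [e, one_mul]) (c * s⁻¹)
    rwa [e, inv_mul_cancel_right₀ hs] at this
  obtain ⟨v, s, hv, hs, h1⟩ : ∃ v s, v ≠ 0 ∧ s ≠ 0 ∧ tv hB v s ∈ M := by
    by_contra! h
    obtain ⟨z, -, z0, -⟩ := exists_ne_zero_orth (B := B) ⊤ (![] : Fin 0 → V) (by simp; omega)
    rcases hirr (Submodule.span F {z}) (fun v c hc x hx => by
      by_cases e : v = 0 ∨ c = 0
      · rcases e with rfl | rfl <;> simpa [tv_apply] using hx
      · exact (h v c (not_or.1 e).1 (not_or.1 e).2 hc).elim) with e | e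
    · exact z0 (Submodule.span_singleton_eq_bot.1 e)
    · have := finrank_span_singleton (K := F) z0
      rw [e, finrank_top] at this
      omega
  refine isom_le_of_cen_conn hB hN (exists_ne_zero_one_of_two_ne h2) (key v s hs h1) fun S hS h =>
    (hirr S fun w d hd x hx => ?_).resolve_left fun e => hv (by simpa [e] using hS)
  rw [tv_apply]
  by_cases e : d * B x w = 0
  · simpa [e] using hx
  · exact add_mem hx (S.smul_mem _ (h w (key w d (left_ne_zero_of_mul e) hd) x hx (right_ne_zero_of_mul e)))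

omit [Finite F] in
/-- A subspace fixed by all transvections, whose centres span, gives a non-scalar map commuting with them. -/
theorem exists_proj {hB : B.IsAlt} (hN : B.Nondegenerate)
    (hY : Submodule.span F {v | ∃ c, c ≠ 0 ∧ tv hB v c ∈ M} = ⊤) (h : ¬ TvIrr hB M) :
    ∃ π : V →ₗ[F] V, (∀ c : F, π ≠ c • LinearMap.id) ∧
      ∀ v c, tv hB v c ∈ M → ∀ x, (c * B x v) • π v = (c * B (π x) v) • v := by
  obtain ⟨W, hW, h⟩ := by simpa only [TvIrr, not_forall] using h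
  have h1 : ∀ v c, c ≠ 0 → tv hB v c ∈ M → v ∈ W ∨ v ∈ B.orthogonal W := fun v c hc hv =>
    or_iff_not_imp_right.2 fun e => by
      obtain ⟨x, hx, e⟩ := by simpa only [mem_orth, not_forall] using e
      have := hW v c hv x hx
      rwa [tv_apply, Submodule.add_mem_iff_right _ hx, Submodule.smul_mem_iff _ (mul_ne_zero hc e)] at this
  have h2 : IsCompl W (B.orthogonal W) := ⟨Submodule.disjoint_def.2 fun x hx hx' => by
      by_contra e
      obtain ⟨y, ⟨c, hc, hy⟩, e⟩ := exists_ne_zero_of_span hN hY e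
      exact (h1 y c hc hy).elim (fun hy => e ((mem_orth' hB).1 hx' y hy)) fun hy => e (hy x hx),
    codisjoint_iff.2 (eq_top_iff.2 (hY.ge.trans (Submodule.span_le.2 fun y ⟨c, hc, hy⟩ =>
      (h1 y c hc hy).elim (fun e => Submodule.mem_sup_left e) fun e => Submodule.mem_sup_right e)))⟩
  refine ⟨W.projection _ h2, fun c e => h ?_, fun v c hv x => ?_⟩
  · by_cases hc : c = 0
    · refine Or.inl (eq_bot_iff.2 fun x hx => ?_)
      have := LinearMap.congr_fun e x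
      rw [Submodule.projection_apply_of_mem_left h2 hx] at this
      simpa [hc] using this
    · refine Or.inr (eq_top_iff.2 fun x _ => (W.smul_mem_iff hc).1 ?_)
      simpa [e] using Submodule.projection_apply_mem h2 x
  by_cases hc : c = 0
  · simp [hc]
  rcases h1 v c hc hv with e | e
  · have := (mem_orth' hB).1 (Submodule.sub_projection_mem h2 x) v e
    rw [map_sub, LinearMap.sub_apply, sub_eq_zero] at this
    rw [Submodule.projection_apply_of_mem_left h2 e, this]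
  · rw [(Submodule.projection_apply_eq_zero_iff h2).2 e, e _ (Submodule.projection_apply_mem h2 x)]
    simp

omit [Finite F] in
theorem exists_eigen (hN : B.Nondegenerate) {X : V →ₗ[F] V} {v : V} {c : F} (hc : c ≠ 0)
    (h : ∀ x, (c * B x v) • X v = (c * B (X x) v) • v) : ∃ l : F, X v = l • v ∧ ∀ y, B (X y) v = l * B y v := by
  by_cases hv : v = 0
  · exact ⟨0, by simp [hv], by simp [hv]⟩
  obtain ⟨x, hx⟩ : ∃ x, B x v ≠ 0 := by
    by_contra! e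
    exact hv (hN.2 v e)
  have e : X v = (B (X x) v / B x v) • v := by
    rw [← smul_right_inj (mul_ne_zero hc hx), h x, smul_smul]
    congr 1
    field_simp
  refine ⟨_, e, fun y => mul_left_cancel₀ hc (smul_left_injective F hv ?_)⟩
  simp only [← h y, e, smul_smul]
  congr 1
  ring

end Abstract

section Coord

open Matrix Cfsg Cfsg.Geo CL.Asch

variable {F : Type u} [Field F] {δ : F} {M : Subgroup (GL I4 F)}

theorem sadj_eq_of {A A' : Matrix I4 I4 F}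
    (h : ∀ x y, stdForm (Fin 2) F (A *ᵥ x) y = stdForm (Fin 2) F x (A' *ᵥ y)) : sadj A = A' :=
  Sp.matrix_ext_mulVec fun y => sub_eq_zero.1 ((stdForm_nondegenerate (Fin 2) F).2 _ fun x => by
    rw [map_sub, ← stdForm_sadj, h, sub_self])

theorem sadj_sadj (A : Matrix I4 I4 F) : sadj (sadj A) = A := sadj_eq_of fun x y => by
  rw [alt_neg (stdForm_isAlt _ _), ← stdForm_sadj, ← alt_neg (stdForm_isAlt _ _)]

theorem sadj_blocks (a b c d : Matrix (Fin 2) (Fin 2) F) :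
    sadj (fromBlocks a b c d) = fromBlocks dᵀ (-bᵀ) (-cᵀ) aᵀ := by
  simp [sadj, J, fromBlocks_transpose, fromBlocks_neg, fromBlocks_multiply]

theorem exists_sp {A : Matrix I4 I4 F} (h : sadj A * A = 1) : ∃ g ∈ spGL 2 F, g.1 = A :=
  ⟨⟨A, sadj A, mul_eq_one_comm.1 h, h⟩, (mem_spGL_iff _).2 fun x y => by
    rw [glEquiv_apply, glEquiv_apply, stdForm_sadj, mulVec_mulVec, h, one_mulVec], rfl⟩

theorem sadj_conjAlg {g : GL I4 F} (hg : g ∈ spGL 2 F) (X : Matrix I4 I4 F) :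
    sadj (conjAlg g X) = conjAlg g (sadj X) := by
  rw [conjAlg_apply, conjAlg_apply, sadj_mul, sadj_mul, ← coe_inv_eq_sadj hg, ← coe_inv_eq_sadj (inv_mem hg), inv_inv,
    mul_assoc]

/-- `g` fixes or inverts `j`. -/
def JN (j : Matrix I4 I4 F) (g : GL I4 F) : Prop := conjAlg g j = j ∨ conjAlg g j = -j

theorem JN.of_comm {j : Matrix I4 I4 F} {g : GL I4 F} (h : g.1 * j = j * g.1 ∨ g.1 * j = -j * g.1) : JN j g :=
  h.imp (fun e => by rw [conjAlg_apply, e, mul_assoc, gl_mul_inv, mul_one]) fun e => by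
    rw [conjAlg_apply, e, mul_assoc, gl_mul_inv, mul_one]

theorem JN.of_smul {j : Matrix I4 I4 F} {g : GL I4 F} (hδ : δ ≠ 0) (h : j * j = δ • 1) {r : F}
    (e : conjAlg g j = r • j) : JN j g := by
  have h1 := congrArg (conjAlg g) h
  rw [map_mul, e, map_smul, map_one, smul_mul_smul_comm, h, smul_smul] at h1
  have h2 : r * r = 1 := by simpa [hδ] using congrFun₂ h1 (.inl 0) (.inl 0)
  exact (mul_self_eq_one_iff.1 h2).imp (fun e' => by rw [e, e', one_smul]) fun e' => by rw [e, e', neg_one_smul]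

theorem JN.inv {j : Matrix I4 I4 F} {g : GL I4 F} (h : JN j g) : JN j g⁻¹ :=
  h.imp (fun e => by simpa only [conjAlg_inv_conjAlg] using congrArg (conjAlg g⁻¹) e.symm) fun e => by
    simpa only [conjAlg_inv_conjAlg, map_neg, neg_neg] using congrArg (-conjAlg g⁻¹ ·) e.symm

/-- The second tensor factor. -/
def cM (δ p q r s : F) : Matrix I4 I4 F := fromBlocks !![p, δ * q; r, s] 0 0 !![p, -q; -(δ * r), s]

/-- The upper nilpotent element of the first tensor factor. -/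
def eU (δ : F) : Matrix I4 I4 F := fromBlocks 0 !![δ, 0; 0, -1] 0 0

/-- The lower nilpotent element of the first tensor factor. -/
def eL (δ : F) : Matrix I4 I4 F := fromBlocks 0 0 !![1, 0; 0, -δ] 0

theorem eq_cM (hδ : δ ≠ 0) {X : Matrix I4 I4 F} (h1 : X * eU δ = eU δ * X) (h2 : X * eL δ = eL δ * X) :
    ∃ p q r s, X = cM δ p q r s := by
  refine ⟨X (.inl 0) (.inl 0), -X (.inr 0) (.inr 1), X (.inl 1) (.inl 0), X (.inl 1) (.inl 1), ?_⟩
  simp [← ext_iff, eU, eL, cM, mul_apply, Fin.sum_univ_two, Fin.forall_fin_two, hδ] at h1 h2 ⊢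
  grind

theorem sadj_cM (p q r s : F) : sadj (cM δ p q r s) = cM δ p (-r) (-q) s := by
  simp [cM, sadj_blocks, ← ext_iff, Fin.forall_fin_two]

theorem cM_mul (p q r s p' q' r' s' : F) : cM δ p q r s * cM δ p' q' r' s' =
    cM δ (p * p' + δ * q * r') (p * q' + q * s') (r * p' + s * r') (δ * r * q' + s * s') := by
  simp [cM, fromBlocks_multiply]
  grind

theorem cM_one : cM δ 1 0 0 1 = 1 := by simp [cM, ← one_fin_two]

theorem exists_quad {j N : Matrix I4 I4 F} (h1 : N * N = 0) (h2 : sadj N = -N) (h3 : N * j = j * N) (c : F) :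
    ∃ g ∈ spGL 2 F, JN j g ∧ g.1 = 1 + c • N := by
  obtain ⟨g, hg, e⟩ := exists_sp (A := 1 + c • N) (by
    simp [sadj_add, sadj_one, sadj_smul, h2, add_mul, mul_add, h1])
  exact ⟨g, hg, .of_comm (.inl (by simp [e, add_mul, mul_add, h3])), e⟩

variable (hH : ∀ g ∈ spGL 2 F, JN (cM δ 0 1 1 0) g → g ∈ M)
include hH

theorem qn_eU : QN M ⊤ (eU δ) := by
  have h : eU δ * eU δ = 0 := by simp [eU, fromBlocks_multiply]
  refine ⟨h, fun c _ => ?_⟩
  obtain ⟨g, a, b, e⟩ := exists_quad (j := cM δ 0 1 1 0) h (by simp [eU, sadj_blocks, ← ext_iff, Fin.forall_fin_two])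
    (by simp [eU, cM, fromBlocks_multiply]) c
  exact ⟨g, hH g a b, e⟩

theorem qn_eL : QN M ⊤ (eL δ) := by
  have h : eL δ * eL δ = 0 := by simp [eL, fromBlocks_multiply]
  refine ⟨h, fun c _ => ?_⟩
  obtain ⟨g, a, b, e⟩ := exists_quad (j := cM δ 0 1 1 0) h (by simp [eL, sadj_blocks, ← ext_iff, Fin.forall_fin_two])
    (by simp [eL, cM, fromBlocks_multiply]) c
  exact ⟨g, hH g a b, e⟩

theorem exists_refl : ∃ g ∈ M, g.1 = cM δ 1 0 0 (-1) ∧ (g⁻¹).1 = cM δ 1 0 0 (-1) := by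
  obtain ⟨g, hg, e⟩ := exists_sp (A := cM δ 1 0 0 (-1)) (by simp [sadj_cM, cM_mul, cM_one])
  refine ⟨g, hH g hg (.of_comm (.inr ?_)), e, by simp [coe_inv_eq_sadj hg, e, sadj_cM]⟩
  rw [e, neg_mul, cM_mul, cM_mul]
  simp [cM, fromBlocks_neg]

theorem exists_levi {a : F} (ha : a ^ 2 ≠ δ) : ∃ g ∈ M, ∃ d d', g.1 = fromBlocks !![a, δ; 1, a] 0 0 d ∧
    (g⁻¹).1 = fromBlocks ((a ^ 2 - δ)⁻¹ • !![a, -δ; -1, a]) 0 0 d' := by
  have h := sub_ne_zero.2 ha
  obtain ⟨g, hg, e⟩ := exists_sp (A := fromBlocks !![a, δ; 1, a] 0 0 ((a ^ 2 - δ)⁻¹ • !![a, -1; -δ, a])) (by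
    simp [sadj_blocks, ← ext_iff, mul_apply, Fin.forall_fin_two]
    grind)
  refine ⟨g, hH g hg (.of_comm (.inl ?_)), _, !![a, δ; 1, a]ᵀ, e, ?_⟩
  · simp [e, cM, fromBlocks_multiply]
    grind
  · simp [coe_inv_eq_sadj hg, e, sadj_blocks, ← ext_iff, Fin.forall_fin_two]

theorem irr_of (h2 : (2 : F) ≠ 0) (hδ : δ ≠ 0) : Irr M := by
  refine irr_iff.2 fun W hW => or_iff_not_imp_left.2 fun h0 => ?_
  have hq : ∀ N, QN M ⊤ N → ∀ w ∈ W, N *ᵥ w ∈ W := fun N h w hw => by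
    obtain ⟨g, hg, e⟩ := h.2 1 trivial
    simpa [e, add_mulVec, W.add_mem_iff_right hw] using hW g hg w hw
  obtain ⟨g, hg, e, -⟩ := exists_refl hH
  obtain ⟨k, hk, d, -, e', -⟩ := exists_levi hH (a := 0) (by simpa using hδ.symm)
  have h1 : ∀ w ∈ W, w (.inr 0) ≠ 0 → Pi.single (.inl 0) 1 ∈ W := fun w hw h => by
    have h3 := hq _ (qn_eU hH) w hw
    refine (W.smul_mem_iff (mul_ne_zero (mul_ne_zero h2 hδ) h)).1 ?_
    convert add_mem h3 (hW g hg _ h3) using 1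
    simp [e, funext_iff, cM, eU, mulVec, dotProduct, mul_apply, Fin.forall_fin_two]
    ring
  have h3 : ∀ w ∈ W, w (.inl 0) ≠ 0 → Pi.single (.inl 0) 1 ∈ W := fun w hw h =>
    h1 _ (hq _ (qn_eL hH) w hw) (by simpa [eL, mulVec, dotProduct] using h)
  have h4 : ∀ w ∈ W, w (.inl 1) ≠ 0 → Pi.single (.inl 0) 1 ∈ W := fun w hw h =>
    h3 _ (hW k hk w hw) (by simpa [e', mulVec, dotProduct, hδ] using h)
  have h5 : Pi.single (.inl 0) 1 ∈ W := by
    obtain ⟨w, hw, h⟩ := Submodule.exists_mem_ne_zero_of_ne_bot h0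
    obtain ⟨i, hi⟩ := Function.ne_iff.1 h
    rcases i with i | i <;> fin_cases i
    · exact h3 w hw hi
    · exact h4 w hw hi
    · exact h1 w hw hi
    · exact h4 _ (hq _ (qn_eU hH) w hw) (by simpa [eU, mulVec, dotProduct] using hi)
  have h6 := hW k hk _ h5
  refine eq_top_iff.2 fun w _ => ?_
  convert add_mem (add_mem (W.smul_mem (w (.inl 0)) h5) (W.smul_mem (w (.inl 1)) h6))
    (add_mem (W.smul_mem (w (.inr 0)) (hq _ (qn_eL hH) _ h5))
      (W.smul_mem (-w (.inr 1) / δ) (hq _ (qn_eL hH) _ h6))) using 1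
  simp [e', funext_iff, eL, mulVec, dotProduct, Fin.forall_fin_two]
  field_simp

theorem scalar_of_comm (h2 : (2 : F) ≠ 0) (hδ : δ ≠ 0) {a : F} (ha0 : a ≠ 0) (ha : a ^ 2 ≠ δ) {p q r s : F}
    (h1 : sadj (cM δ p q r s) = cM δ p q r s)
    (h3 : ∀ g ∈ M, cM δ p q r s * conjAlg g (cM δ p q r s) = conjAlg g (cM δ p q r s) * cM δ p q r s) :
    cM δ p q r s = p • 1 := by
  obtain ⟨g, hg, e1, e2⟩ := exists_refl hH
  obtain ⟨k, hk, d, d', e3, e4⟩ := exists_levi hH ha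
  have h4 := h3 g hg
  have h5 := congrFun₂ (h3 k hk) (.inl 1) (.inl 0)
  have h6 := congrFun₂ (sadj_cM p q r s ▸ h1) (.inl 1) (.inl 0)
  have h := sub_ne_zero.2 ha
  simp only [conjAlg_apply, e1, e2, cM_mul] at h4
  replace h4 := congrFun₂ h4 (.inl 1) (.inl 0)
  simp [conjAlg_apply, e3, e4, cM, fromBlocks_multiply] at h4 h5 h6
  field_simp at h5
  have h7 : r * (p - s) = 0 := mul_left_cancel₀ h2 (by subst h6; linear_combination h4)
  have h8 : (p - s) ^ 2 = 4 * δ * r ^ 2 := mul_left_cancel₀ ha0 (by subst h6; linear_combination -h5)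
  have h9 : r = 0 := by
    by_contra h0
    rw [(mul_eq_zero.1 h7).resolve_left h0, show (4 : F) = 2 * 2 by norm_num] at h8
    simp [h2, hδ, h0] at h8
  have h10 : p = s := sub_eq_zero.1 (by simpa [h9] using h8)
  subst h9 h10
  simp [cM, neg_eq_zero.1 h6, ← ext_iff, Fin.forall_fin_two]

omit hH in
theorem conj_mem_cent {𝒩 : Set (Matrix I4 I4 F)} (h : ∀ g ∈ M, ∀ N ∈ 𝒩, conjAlg g N ∈ 𝒩) {g : GL I4 F} (hg : g ∈ M)
    {X : Matrix I4 I4 F} (hX : X ∈ Subalgebra.centralizer F 𝒩) : conjAlg g X ∈ Subalgebra.centralizer F 𝒩 :=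
  fun N hN => by simpa only [map_mul, conjAlg_conjAlg_inv] using congrArg (conjAlg g) (hX _ (h _ (inv_mem hg) N hN))

theorem jn_of_cent (h2 : (2 : F) ≠ 0) (hδ : δ ≠ 0) {a : F} (ha0 : a ≠ 0) (ha : a ^ 2 ≠ δ) (hM : M ≤ spGL 2 F)
    {𝒩 : Set (Matrix I4 I4 F)} (h1 : ∀ N ∈ 𝒩, sadj N = -N) (h3 : ∀ g ∈ M, ∀ N ∈ 𝒩, conjAlg g N ∈ 𝒩)
    (h4 : ∀ X ∈ Subalgebra.centralizer F 𝒩, ∀ N, QN M ⊤ N → X * N = N * X) {D : Matrix I4 I4 F}
    (hD : D ∈ Subalgebra.centralizer F 𝒩) (hD' : ∀ c : F, D ≠ c • 1) : ∀ g ∈ M, JN (cM δ 0 1 1 0) g := by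
  have h5 : ∀ X ∈ Subalgebra.centralizer F 𝒩, ∃ p q r s, X = cM δ p q r s := fun X hX =>
    eq_cM hδ (h4 X hX _ (qn_eU hH)) (h4 X hX _ (qn_eL hH))
  have h6 : ∀ X ∈ Subalgebra.centralizer F 𝒩, sadj X = -X → ∃ r : F, X = r • cM δ 0 1 1 0 := fun X hX e => by
    obtain ⟨p, q, r, s, rfl⟩ := h5 X hX
    refine ⟨r, ?_⟩
    rw [sadj_cM] at e
    simp [cM, ← ext_iff, Fin.forall_fin_two, hδ] at e ⊢
    grind
  have h7 : cM δ 0 1 1 0 * cM δ 0 1 1 0 = δ • 1 := by simp [cM, ← ext_iff, Fin.forall_fin_two, mul_apply]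
  by_cases h : cM δ 0 1 1 0 ∈ Subalgebra.centralizer F 𝒩
  · intro g hg
    obtain ⟨r, e⟩ := h6 _ (conj_mem_cent h3 hg h) (by
      rw [sadj_conjAlg (hM hg), ← map_neg, sadj_cM]
      simp [cM, fromBlocks_neg])
    exact .of_smul hδ h7 e
  have h8 : ∀ X ∈ Subalgebra.centralizer F 𝒩, sadj X = X := fun X hX => by
    have h9 : X - sadj X ∈ Subalgebra.centralizer F 𝒩 := sub_mem hX fun N hN => by
      simpa only [sadj_mul, h1 N hN, mul_neg, neg_mul, neg_inj] using congrArg sadj (hX N hN).symm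
    obtain ⟨r, e⟩ := h6 _ h9 (by rw [sadj_sub, sadj_sadj, neg_sub])
    by_cases hr : r = 0
    · rw [hr, zero_smul, sub_eq_zero] at e
      exact e.symm
    · exact (h (by simpa [e, hr] using Subalgebra.smul_mem _ h9 r⁻¹)).elim
  obtain ⟨p, q, r, s, rfl⟩ := h5 D hD
  refine (hD' p (scalar_of_comm hH h2 hδ ha0 ha (h8 _ hD) fun g hg => ?_)).elim
  have h9 := conj_mem_cent h3 hg hD
  rw [← h8 _ (mul_mem hD h9), sadj_mul, h8 _ hD, h8 _ h9]

omit hH in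
theorem QN.exists_inv {N : Matrix I4 I4 F} (h : QN M ⊤ N) : ∃ g ∈ M, g.1 = 1 + N ∧ (g⁻¹).1 = 1 - N := by
  obtain ⟨g, hg, e⟩ := h.2 1 trivial
  rw [one_smul] at e
  exact ⟨g, hg, e, Units.inv_eq_of_mul_eq_one_right (by simp [e, add_mul, mul_sub, h.1])⟩

theorem jn_of_noTv [Finite F] (hQ : Sp4Q.{u}) (h2 : (2 : F) ≠ 0) (hδ : δ ≠ 0) {a : F} (ha0 : a ≠ 0) (ha : a ^ 2 ≠ δ)
    (h3 : 3 < Nat.card F) (hM : M ≤ spGL 2 F) (hT : ¬ HasTv M) : ∀ g ∈ M, JN (cM δ 0 1 1 0) g := by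
  obtain ⟨D, h4, h5⟩ := hQ F M ⊤ h2 hM hT (by rwa [Nat.card_congr Subfield.topEquiv.toEquiv])
  refine jn_of_cent hH h2 hδ ha0 ha hM (𝒩 := {N | QN M ⊤ N}) (fun N hN => ?_) (fun g hg N hN => ⟨?_, fun c _ => ?_⟩)
    (fun X hX N hN => (hX N hN).symm) (fun N hN => (h5 N hN).symm) h4
  · obtain ⟨g, hg, e, e'⟩ := QN.exists_inv hN
    rwa [coe_inv_eq_sadj (hM hg), e, sadj_add, sadj_one, sub_eq_add_neg, add_right_inj] at e'
  · rw [← map_mul, hN.1, map_zero]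
  · obtain ⟨k, hk, e⟩ := hN.2 c trivial
    exact ⟨_, mul_mem (mul_mem hg hk) (inv_mem hg), by rw [← conjAlg_coe, e, map_add, map_one, map_smul]⟩

theorem jn_of_red (h2 : (2 : F) ≠ 0) (hδ : δ ≠ 0) {a : F} (ha0 : a ≠ 0) (ha : a ^ 2 ≠ δ) (hM : M ≤ spGL 2 F)
    (hT : HasTv M) (hR : ¬ TvIrr (stdForm_isAlt (Fin 2) F) (M.map (glEquiv I4 F).toMonoidHom)) :
    ∀ g ∈ M, JN (cM δ 0 1 1 0) g := by
  have hB := stdForm_isAlt (Fin 2) F
  have hN := stdForm_nondegenerate (Fin 2) F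
  set M' := M.map (glEquiv I4 F).toMonoidHom
  have h1 : ∀ g ∈ M, ∀ {v c}, tv hB v c ∈ M' → tv hB (g.1 *ᵥ v) c ∈ M' := fun g hg v c h =>
    tv_conj_mem hB (M := M') (g := glEquiv I4 F g) ⟨g, hg, rfl⟩ ((mem_spGL_iff g).1 (hM hg)) h
  have hY : Submodule.span F {v | ∃ c, c ≠ 0 ∧ tv hB v c ∈ M'} = ⊤ :=
    (irr_iff.1 (irr_of hH h2 hδ) _ fun g hg w hw => apply_mem_span (toLin' g.1) (hx := hw)
      fun y hy => Submodule.subset_span (hy.imp fun c hc => ⟨hc.1, h1 g hg hc.2⟩)).resolve_left fun e => by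
      obtain ⟨g, hg, ht⟩ := hT
      obtain ⟨v, c, hv, hc, hx⟩ := ht.exists_sp (hM hg)
      refine hv (Submodule.span_eq_bot.1 e v ⟨-c, neg_ne_zero.2 hc, g, hg, LinearEquiv.ext fun x => ?_⟩)
      rw [tv_apply, alt_neg hB x, neg_mul_neg]
      exact hx x
  let 𝒩 := {N : Matrix I4 I4 F | ∃ v c, tv hB v c ∈ M' ∧ ∀ x, N *ᵥ x = (c * stdForm (Fin 2) F x v) • v}
  have h3 : ∀ X, X ∈ Subalgebra.centralizer F 𝒩 ↔ ∀ v c, tv hB v c ∈ M' → ∀ x,
      (c * stdForm (Fin 2) F x v) • X *ᵥ v = (c * stdForm (Fin 2) F (X *ᵥ x) v) • v := fun X => by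
    refine ⟨fun h v c hv x => ?_, fun h N ⟨v, c, hv, e⟩ => Sp.matrix_ext_mulVec fun x => ?_⟩
    · have e : ∀ x, (sympTransvection 2 v c - 1) *ᵥ x = (c * stdForm (Fin 2) F x v) • v := fun x => by
        rw [sub_mulVec, sympTransvection_mulVec, tv_apply, one_mulVec, add_sub_cancel_left]
      rw [← e (X *ᵥ x), mulVec_mulVec, h _ ⟨v, c, hv, e⟩, ← mulVec_mulVec, e, mulVec_smul]
    · rw [← mulVec_mulVec, ← mulVec_mulVec, e, e, mulVec_smul, h v c hv]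
  have h4 : ∀ g ∈ M, ∀ N ∈ 𝒩, conjAlg g N ∈ 𝒩 := fun g hg N ⟨v, c, hv, e⟩ => ⟨_, c, h1 g hg hv, fun x => by
    rw [← gl_mulVec_inv g x, conjAlg_mulVec, e, mulVec_smul]
    exact congrArg (fun t => (c * t) • g.1 *ᵥ v) (sympForm_smul_smul (hM hg) _ _).symm⟩
  obtain ⟨π, h5, h6⟩ := exists_proj hN hY hR
  refine jn_of_cent hH h2 hδ ha0 ha hM (𝒩 := 𝒩) (D := LinearMap.toMatrix' π)
    (fun N ⟨v, c, _, e⟩ => sadj_eq_of fun x y => ?_) h4 (fun X hX N hq => ?_)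
    ((h3 _).2 (by simpa only [LinearMap.toMatrix'_mulVec] using h6))
    fun c e => h5 c (LinearMap.toMatrix'.injective (by simp [e]))
  · simp only [neg_mulVec, e, map_smul, map_neg, LinearMap.smul_apply, smul_eq_mul, alt_neg hB v y]
    ring
  obtain ⟨g, hg, e, e'⟩ := QN.exists_inv hq
  have h7 := Subalgebra.smul_mem _ (sub_mem (conj_mem_cent h4 hg hX) (conj_mem_cent h4 (inv_mem hg) hX)) (2 : F)⁻¹
  rw [conjAlg_apply, conjAlg_apply, inv_inv, e, e', show (1 + N) * X * (1 - N) - (1 - N) * X * (1 + N) =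
    (2 : F) • (N * X - X * N) by rw [two_smul]; noncomm_ring, inv_smul_smul₀ h2] at h7
  refine (sub_eq_zero.1 (toLin'.injective (LinearMap.ext_on hY fun v ⟨c, hc, hv⟩ => ?_))).symm
  by_cases hv0 : v = 0
  · simp [hv0]
  obtain ⟨w, ⟨d, hd, hw⟩, h8⟩ := exists_ne_zero_of_span hN hY hv0
  obtain ⟨l, a1, -⟩ := exists_eigen hN (X := toLin' X) hc ((h3 _).1 hX v c hv)
  obtain ⟨m, -, a2⟩ := exists_eigen hN (X := toLin' X) hd ((h3 _).1 hX w d hw)
  obtain ⟨k, a3, -⟩ := exists_eigen hN (X := toLin' (N * X - X * N)) hc ((h3 _).1 h7 v c hv)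
  have a4 := a2 v
  have a5 := congrArg (stdForm (Fin 2) F · w) a3
  simp only [toLin'_apply, sub_mulVec, ← mulVec_mulVec] at a1 a2 a4 a5
  simp only [a1, mulVec_smul, map_sub, map_smul, LinearMap.sub_apply, LinearMap.smul_apply, smul_eq_mul, a2] at a4 a5
  rw [mul_right_cancel₀ h8 a4, sub_self, eq_comm, mul_eq_zero_iff_right h8] at a5
  rw [a3, a5, zero_smul, map_zero, LinearMap.zero_apply]

theorem jn_or_le [Finite F] (hQ : Sp4Q.{u}) (h2 : (2 : F) ≠ 0) (hδ : δ ≠ 0) (h3 : 3 < Nat.card F)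
    (hM : M ≤ spGL 2 F) : (∀ g ∈ M, JN (cM δ 0 1 1 0) g) ∨ spGL 2 F ≤ M := by
  obtain ⟨a, ha0, ha⟩ : ∃ a : F, a ≠ 0 ∧ a ^ 2 ≠ δ := by
    by_cases h : ∃ b : F, b ^ 2 = δ
    · obtain ⟨b, rfl⟩ := h
      classical
      have := Fintype.ofFinite F
      obtain ⟨a, -, ha⟩ := Finset.exists_mem_notMem_of_card_lt_card (s := {0, b, -b}) (t := Finset.univ)
        (Finset.card_le_three.trans_lt (by rwa [Finset.card_univ, ← Nat.card_eq_fintype_card]))
      exact ⟨a, by simpa [sq_eq_sq_iff_eq_or_eq_neg, not_or] using ha⟩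
    · exact ⟨1, one_ne_zero, fun e => h ⟨1, e⟩⟩
  by_cases hT : HasTv M
  swap
  · exact .inl (jn_of_noTv hH hQ h2 hδ ha0 ha h3 hM hT)
  refine or_iff_not_imp_left.2 fun h g hg => ?_
  obtain ⟨k, hk, e⟩ := isom_le_of_quad h2 (stdForm_nondegenerate (Fin 2) F) (by simp)
    (M := M.map (glEquiv I4 F).toMonoidHom) (by rintro _ ⟨k, hk, rfl⟩; exact (mem_spGL_iff k).1 (hM hk))
    (by_contra fun e => h (jn_of_red hH h2 hδ ha0 ha hM hT e)) (N := toLin' (eU δ))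
    (fun e => hδ (by simpa [eU] using congrFun₂ (toLin'.map_eq_zero_iff.1 e) (.inl 0) (.inr 0))) (fun c => by
      obtain ⟨k, hk, e⟩ := (qn_eU hH).2 c trivial
      exact ⟨_, ⟨k, hk, rfl⟩, fun x => by simp [glEquiv_apply, e, add_mulVec, smul_mulVec]⟩) ((mem_spGL_iff g).1 hg)
  exact (glEquiv I4 F).injective e ▸ hk

omit hH

theorem exists_not_jn : ∃ g ∈ spGL 2 F, ¬ JN (cM δ 0 1 1 0) g := by
  obtain ⟨g, hg, e⟩ := exists_sp (F := F) (A := fromBlocks 1 !![1, 0; 0, 0] 0 1) (by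
    simp [sadj_blocks, fromBlocks_multiply, ← ext_iff, Fin.forall_fin_two])
  refine ⟨g, hg, fun h => ?_⟩
  rw [JN, conjAlg_apply, coe_inv_eq_sadj hg, e, sadj_blocks] at h
  rcases h with h | h <;> simpa [cM, mul_apply] using congrFun₂ h (.inl 1) (.inr 0)

theorem exists_frame (h2 : (2 : F) ≠ 0) (hδ : δ ≠ 0) {j : Matrix I4 I4 F} (hj : sadj j = -j) (hsq : j * j = δ • 1)
    {v : I4 → F} (hv : stdForm (Fin 2) F v (j *ᵥ v) = 0) (hi : v ∉ Submodule.span F {j *ᵥ v}) :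
    ∃ c ∈ spGL 2 F, j = conjAlg c (cM δ 0 1 1 0) := by
  have hB := stdForm_isAlt (Fin 2) F
  have h1 : ∀ x y, stdForm (Fin 2) F (j *ᵥ x) y = -stdForm (Fin 2) F x (j *ᵥ y) := fun x y => by
    rw [stdForm_sadj, hj, neg_mulVec, map_neg]
  have h3 : ∀ x, j *ᵥ j *ᵥ x = δ • x := fun x => by rw [mulVec_mulVec, hsq, smul_mulVec, one_mulVec]
  obtain ⟨y, a1, a2⟩ : ∃ y, stdForm (Fin 2) F v y = -1 ∧ stdForm (Fin 2) F v (j *ᵥ y) = 0 := by
    obtain ⟨y, hy, hy'⟩ := exists_orth_ne_zero hB (stdForm_nondegenerate _ _) hi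
    have := mem_orth.1 hy _ (Submodule.mem_span_singleton_self _)
    exact ⟨(-stdForm (Fin 2) F v y)⁻¹ • y, by simp [hy'], by
      rw [mulVec_smul, map_smul, neg_eq_zero.1 ((h1 v y).symm.trans this), smul_zero]⟩
  obtain ⟨w, a1, a2, a3⟩ : ∃ w, stdForm (Fin 2) F v w = -1 ∧ stdForm (Fin 2) F v (j *ᵥ w) = 0 ∧
      stdForm (Fin 2) F w (j *ᵥ w) = 0 := by
    refine ⟨y + (-stdForm (Fin 2) F y (j *ᵥ y) / (2 * δ)) • j *ᵥ v, by simp [a1, hv], ?_, ?_⟩ <;>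
      simp [mulVec_add, mulVec_smul, h1, h3, a1, a2, alt_self hB, alt_neg hB y v, hv]
    field_simp
    ring
  let f : I4 → I4 → F := Sum.elim ![v, j *ᵥ v] ![w, (-δ⁻¹) • j *ᵥ w]
  have h4 : (of f) * J (Fin 2) F * (of f)ᵀ = J (Fin 2) F := by
    have : ∀ i k, ((of f) * J (Fin 2) F * (of f)ᵀ) i k = stdForm (Fin 2) F (f i) (f k) := fun i k => by
      rw [stdForm_apply, mul_assoc]
      rfl
    simp only [← ext_iff, this]
    simp [f, Fin.forall_fin_two, J, h1, h3, hv, a1, a2, a3, alt_self hB, alt_neg hB w v, hδ,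
      alt_neg hB w (j *ᵥ v)]
  refine ⟨spToGL _ _ ⟨_, SymplecticGroup.transpose_mem (SymplecticGroup.mem_iff.2 h4)⟩,
    spToGL_range (F := F) 2 ▸ ⟨_, rfl⟩, ?_⟩
  rw [conjAlg_apply, Units.eq_mul_inv_iff_mul_eq, coe_spToGL]
  have h5 : ∀ i k, (j * (of f)ᵀ) i k = (j *ᵥ f k) i := fun i k => rfl
  simp only [← ext_iff, h5]
  simp [f, Fin.forall_fin_two, h3, mulVec_smul, mulVec_neg, cM, mul_apply, hδ, mul_comm]

theorem maxJ [Finite F] (hQ : Sp4Q.{u}) (h2 : (2 : F) ≠ 0) (hδ : δ ≠ 0) (h3 : 3 < Nat.card F) {j : Matrix I4 I4 F}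
    (hj : sadj j = -j) (hsq : j * j = δ • 1) {v : I4 → F} (hv : stdForm (Fin 2) F v (j *ᵥ v) = 0)
    (hi : v ∉ Submodule.span F {j *ᵥ v}) {H : Subgroup (GL I4 F)} (hH : ∀ g ∈ spGL 2 F, g ∈ H ↔ JN j g) :
    IsMaximalIn (spGL 2 F) (H ⊓ spGL 2 F) := by
  obtain ⟨c, hc, rfl⟩ := exists_frame h2 hδ hj hsq hv hi
  have h1 : ∀ g, JN (conjAlg c (cM δ 0 1 1 0)) (c * g * c⁻¹) ↔ JN (cM δ 0 1 1 0) g := fun g => by
    simp only [JN, conjAlg_mul, conjAlg_inv_conjAlg, ← map_neg, EmbeddingLike.apply_eq_iff_eq]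
  have h4 : ∀ g ∈ spGL 2 F, c * g * c⁻¹ ∈ spGL 2 F := fun g hg => mul_mem (mul_mem hc hg) (inv_mem hc)
  have h5 : ∀ g, c * (c⁻¹ * g * c) * c⁻¹ = g := fun g => by group
  refine ⟨lt_of_le_of_ne inf_le_right fun e => ?_, fun M a1 a2 => ?_⟩
  · obtain ⟨g, hg, h⟩ := exists_not_jn (δ := δ)
    exact h ((h1 g).1 ((hH _ (h4 g hg)).1 (e.ge (h4 g hg)).1))
  rcases jn_or_le (M := M.comap (MulAut.conj c).toMonoidHom)
    (fun g hg h => a1 ⟨(hH _ (h4 g hg)).2 ((h1 g).2 h), h4 g hg⟩) hQ h2 hδ h3 fun g hg => by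
      simpa [mul_assoc] using mul_mem (mul_mem (inv_mem hc) (a2 hg)) hc with h | h
  · exact .inl (le_antisymm (fun g hg => ⟨(hH g (a2 hg)).2
      (h5 g ▸ (h1 _).2 (h _ (show c * _ * c⁻¹ ∈ M from (h5 g).symm ▸ hg))), a2 hg⟩) a1)
  · exact .inr (le_antisymm a2 fun g hg => h5 g ▸ h (mul_mem (mul_mem (inv_mem hc) hg) hc))

theorem s5786_3 (hQ : Sp4Q.{u}) [Fintype F] (hodd : Odd (Fintype.card F)) (h5 : 5 ≤ Fintype.card F)
    (D : Fin 2 → Submodule F (Fin 2 ⊕ Fin 2 → F)) (hD : IsMDecomposition 2 D)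
    (hts : ∀ i, IsTotallySingularFor (sympForm 2 F) (D i)) :
    IsMaximalIn (spGL 2 F) (decompositionStabilizer D ⊓ spGL 2 F) := by
  have h := isTIPair_of_isMDecomposition hD hts
  have h2 := two_ne_zero_of_odd_card hodd
  obtain ⟨j, j0, j1⟩ : ∃ j : Matrix I4 I4 F, (∀ x ∈ D 0, j *ᵥ x = x) ∧ ∀ x ∈ D 1, j *ᵥ x = -x :=
    ⟨LinearMap.toMatrix' ((D 0).projection _ h.compl - (D 1).projection _ h.compl.symm),
      fun x hx => by simp [sub_mulVec, Submodule.projection_apply_of_mem_left _ hx, hx],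
      fun x hx => by simp [sub_mulVec, Submodule.projection_apply_of_mem_left _ hx, hx]⟩
  have h1 : ∀ {A A' : Matrix I4 I4 F}, (∀ x ∈ D 0, A *ᵥ x = A' *ᵥ x) → (∀ x ∈ D 1, A *ᵥ x = A' *ᵥ x) → A = A' :=
    fun a b => Sp.matrix_ext_mulVec fun x => by
      obtain ⟨u, hu, w, hw, rfl⟩ := h.exists_add x
      rw [mulVec_add, mulVec_add, a u hu, b w hw]
  have h3 : ∀ x, (j *ᵥ x = x → x ∈ D 0) ∧ (j *ᵥ x = -x → x ∈ D 1) := fun x => by
    obtain ⟨u, hu, w, hw, rfl⟩ := h.exists_add x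
    rw [mulVec_add, j0 u hu, j1 w hw]
    refine ⟨fun e => ?_, fun e => ?_⟩
    · rwa [(smul_eq_zero_iff_right h2).1 (show (2 : F) • w = 0 by linear_combination (norm := module) -e), add_zero]
    · rwa [(smul_eq_zero_iff_right h2).1 (show (2 : F) • u = 0 by linear_combination (norm := module) e), zero_add]
  obtain ⟨x, hx, x0, -⟩ := exists_ne_zero_orth (B := stdForm (Fin 2) F) (D 0) (![] : Fin 0 → _)
    (by simp [hD.finrank_eq])
  obtain ⟨y, hy, y0, h4⟩ := exists_ne_zero_orth (B := stdForm (Fin 2) F) (D 1) ![x] (by simp [hD.finrank_eq])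
  have h6 : j *ᵥ (x + y) = x - y := by rw [mulVec_add, j0 x hx, j1 y hy, sub_eq_add_neg]
  refine maxJ (j := j) (v := x + y) hQ h2 one_ne_zero (by rw [Nat.card_eq_fintype_card]; omega)
    (sadj_eq_of fun a b => ?_) (h1 (fun a ha => ?_) fun a ha => ?_) ?_ (fun e => ?_) fun g _ => ⟨fun hg => ?_, fun hg => ?_⟩
  · obtain ⟨u, hu, w, hw, rfl⟩ := h.exists_add a
    obtain ⟨u', hu', w', hw', rfl⟩ := h.exists_add b
    simp [mulVec_add, neg_mulVec, j0 _ hu, j0 _ hu', j1 _ hw, j1 _ hw', h.left _ hu _ hu', h.right _ hw _ hw']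
  · simp [← mulVec_mulVec, j0 a ha]
  · simp [← mulVec_mulVec, j1 a ha, mulVec_neg]
  · have : stdForm (Fin 2) F y x = 0 := h4 0
    simp [h6, alt_self (stdForm_isAlt (Fin 2) F), alt_neg (stdForm_isAlt _ _) x y, this]
  · obtain ⟨c, e⟩ := Submodule.mem_span_singleton.1 (h6 ▸ e)
    have h7 : (c - 1) • x = (c + 1) • y := by linear_combination (norm := module) e
    have h8 := h.eq_zero_of_mem ((D 0).smul_mem (c - 1) hx) (h7 ▸ (D 1).smul_mem _ hy)
    have h9 := (smul_eq_zero_iff_left y0).1 (h7 ▸ h8)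
    exact h2 (by linear_combination h9 - (smul_eq_zero_iff_left x0).1 h8)
  · have h7 : ∀ {i k}, (D i).map (toLin' g.1) = D k → ∀ a ∈ D i, g.1 *ᵥ a ∈ D k := fun e a ha => e ▸ ⟨a, ha, rfl⟩
    refine .of_comm (((exists_perm_two_iff D (Submodule.map _)).1 hg).imp (fun e => h1 ?_ ?_) fun e => h1 ?_ ?_) <;>
      intro a ha
    · rw [← mulVec_mulVec, ← mulVec_mulVec, j0 a ha, j0 _ (h7 e.1 a ha)]
    · rw [← mulVec_mulVec, ← mulVec_mulVec, j1 a ha, j1 _ (h7 e.2 a ha), mulVec_neg]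
    · rw [← mulVec_mulVec, ← mulVec_mulVec, j0 a ha, neg_mulVec, j1 _ (h7 e.1 a ha), neg_neg]
    · rw [← mulVec_mulVec, ← mulVec_mulVec, j1 a ha, neg_mulVec, j0 _ (h7 e.2 a ha), mulVec_neg]
  · have h7 := conjAlg_mulVec g j
    rcases hg with e | e <;> rw [e] at h7
    · exact SLn.mem_decompositionStabilizer_of 1 (Fin.forall_fin_two.2
        ⟨fun a ha => (h3 (g.1 *ᵥ a)).1 (by rw [h7, j0 a ha]),
          fun a ha => (h3 (g.1 *ᵥ a)).2 (by rw [h7, j1 a ha, mulVec_neg])⟩)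
    · simp only [neg_mulVec, neg_eq_iff_eq_neg] at h7
      exact SLn.mem_decompositionStabilizer_of (Equiv.swap 0 1) (Fin.forall_fin_two.2
        ⟨fun a ha => (h3 (g.1 *ᵥ a)).2 (by rw [h7, j0 a ha]),
          fun a ha => (h3 (g.1 *ᵥ a)).1 (by rw [h7, j1 a ha, mulVec_neg, neg_neg])⟩)

theorem s5786_5 (hQ : Sp4Q.{u}) [Fintype F] (hodd : Odd (Fintype.card F)) (h5 : 5 ≤ Fintype.card F)
    (K : Subalgebra F (Matrix (Fin 2 ⊕ Fin 2) (Fin 2 ⊕ Fin 2) F)) (hK : IsFieldSubalgebra 2 K)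
    (hac : IsAdjointClosedFor (sympForm 2 F) K) (hnsa : ¬ IsSelfAdjointFor (sympForm 2 F) K) :
    IsMaximalIn (spGL 2 F) (subalgebraNormalizer K ⊓ spGL 2 F) := by
  have h2 := two_ne_zero_of_odd_card hodd
  obtain ⟨j, hj, δ, D, span⟩ := exists_uData h2 K hK hac hnsa
  have h1 : sadj j = -j := sadj_eq_of fun x y => by rw [neg_mulVec, map_neg]; exact D.adj x y
  have h3 : j * j = δ • 1 := Sp.matrix_ext_mulVec fun x => by
    rw [← mulVec_mulVec, smul_mulVec, one_mulVec]; exact D.sq x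
  obtain ⟨v, v0, hv⟩ := CL.Cls.exists_singular_of_three_le
    (LinearMap.BilinMap.toQuadraticMap ((stdForm (Fin 2) F).compl₂ (toLin' j))) (by simp)
  have h4 : ∀ g, JN j g → ∀ k ∈ K, conjAlg g k ∈ K := fun g hg k hk => by
    obtain ⟨a, b, rfl⟩ := span k hk
    rw [map_add, map_smul, map_smul, map_one]
    exact add_mem (K.smul_mem K.one_mem a) (K.smul_mem (hg.elim (·.symm ▸ hj) (·.symm ▸ neg_mem hj)) b)
  refine maxJ hQ h2 D.δ_ne (by rw [Nat.card_eq_fintype_card]; omega) h1 h3 hv (fun e => ?_) fun g hg =>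
    ⟨fun h => ?_, fun h k => ⟨h4 g h k, fun hk => conjAlg_inv_conjAlg g k ▸ h4 _ h.inv _ hk⟩⟩
  · obtain ⟨c, e⟩ := Submodule.mem_span_singleton.1 e
    exact one_ne_zero (D.indep v0 (a := 1) (b := -c) (by simp [e])).1
  · obtain ⟨a, b, e⟩ := span _ ((h j).1 hj)
    have h6 := sadj_conjAlg hg j
    rw [h1, map_neg, conjAlg_apply, e, sadj_add, sadj_smul, sadj_smul, sadj_one, h1] at h6
    have h7 : (2 * a) • (1 : Matrix I4 I4 F) = 0 := by linear_combination (norm := module) h6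
    rw [(mul_eq_zero_iff_left h2).1 ((smul_eq_zero_iff_left one_ne_zero).1 h7), zero_smul, zero_add] at e
    exact .of_smul D.δ_ne h3 e

end Coord

end CL.Low.MJ
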