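/-
Project LOWDIM, step `Sp4Q`: systems of square-zero matrices of rank two in dimension four.
-/
import Cfsg.Agent.Low.Cliff
import Cfsg.Agent.Cls.QuadClass

set_option autoImplicit false

namespace CL.Low

open Matrix Module

universe u

variable {F : Type u} [Field F]

local notation "M2" => Matrix (Fin 2) (Fin 2)

theorem exists_sq_of_trace {A : M2 F} (h : A.trace = 0) : ∃ c : F, A * A = c • (1 : M2 F) := by
  have h1 : A 1 1 = -A 0 0 := by rw [trace_fin_two] at h; linear_combination h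
  refine ⟨A 0 0 * A 0 0 + A 0 1 * A 1 0, ?_⟩
  ext i j
  fin_cases i <;> fin_cases j <;> simp [mul_apply, Fin.sum_univ_two, h1] <;> ring

theorem comm_of_comm_lie (h2 : (2 : F) ≠ 0) {A B : M2 F} (hA : (A * B - B * A) * A = A * (A * B - B * A))
    (hB : (A * B - B * A) * B = B * (A * B - B * A)) : A * B = B * A := by
  set L := A * B - B * A with hL
  have h0 : L 1 1 = -L 0 0 := by
    simp only [hL, Matrix.sub_apply, mul_apply, Fin.sum_univ_two]; ring
  have a1 := congrFun (congrFun hA 0) 0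
  have a2 := congrFun (congrFun hA 0) 1
  have a3 := congrFun (congrFun hA 1) 0
  have b1 := congrFun (congrFun hB 0) 0
  have b2 := congrFun (congrFun hB 0) 1
  have b3 := congrFun (congrFun hB 1) 0
  have l1 : L 0 0 = A 0 1 * B 1 0 - B 0 1 * A 1 0 := by simp only [hL, Matrix.sub_apply, mul_apply, Fin.sum_univ_two]; ring
  have l2 : L 0 1 = A 0 1 * (B 1 1 - B 0 0) - B 0 1 * (A 1 1 - A 0 0) := by
    simp only [hL, Matrix.sub_apply, mul_apply, Fin.sum_univ_two]; ring
  have l3 : L 1 0 = B 1 0 * (A 1 1 - A 0 0) - A 1 0 * (B 1 1 - B 0 0) := by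
    simp only [hL, Matrix.sub_apply, mul_apply, Fin.sum_univ_two]; ring
  simp only [mul_apply, Fin.sum_univ_two, h0] at a1 a2 a3 b1 b2 b3
  have e1 : L 0 0 = 0 := mul_self_eq_zero.mp (mul_left_cancel₀ h2 (by
    linear_combination (2 * L 0 0) * l1 + B 1 0 * a2 + B 0 1 * a3 - (A 1 1 - A 0 0) * b1))
  have e2 : L 0 1 = 0 := mul_self_eq_zero.mp (by linear_combination L 0 1 * l2 - B 0 1 * a2 + A 0 1 * b2)
  have e3 : L 1 0 = 0 := mul_self_eq_zero.mp (by linear_combination L 1 0 * l3 - B 1 0 * a3 + A 1 0 * b3)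
  rw [← sub_eq_zero, ← hL]
  ext i j
  fin_cases i <;> fin_cases j <;> simp [e1, e2, e3, h0]

/-- A finite Jordan division ring of two by two matrices is commutative. -/
theorem jordan_comm [Finite F] (h2 : (2 : F) ≠ 0) (J : AddSubgroup (M2 F)) (h1 : (1 : M2 F) ∈ J)
    (hsq : ∀ A ∈ J, A * A ∈ J) (hu : ∀ A ∈ J, A ≠ 0 → IsUnit A) : ∀ A ∈ J, ∀ B ∈ J, A * B = B * A := by
  have half : ∀ A : M2 F, A + A ∈ J → A ∈ J := fun A hA => by
    obtain ⟨n, hn, e⟩ := isOfFinOrder_iff_pow_eq_one.mp (isOfFinOrder_of_finite (Units.mk0 (2 : F) h2))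
    have e' : ((2 ^ (n - 1) : ℕ) : F) * 2 = 1 := by
      push_cast
      rw [← pow_succ, Nat.sub_add_cancel hn]
      simpa using congrArg Units.val e
    have := J.nsmul_mem hA (2 ^ (n - 1))
    rwa [← two_smul F A, ← Nat.cast_smul_eq_nsmul F, smul_smul, e', one_smul] at this
  have jor : ∀ A ∈ J, ∀ B ∈ J, A * B + B * A ∈ J := fun A hA B hB => by
    have := J.sub_mem (J.sub_mem (hsq _ (J.add_mem hA hB)) (hsq _ hA)) (hsq _ hB)
    rwa [show (A + B) * (A + B) - A * A - B * B = A * B + B * A by noncomm_ring] at this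
  have lie : ∀ A ∈ J, ∀ B ∈ J, ∀ C ∈ J, (A * B - B * A) * C - C * (A * B - B * A) ∈ J := fun A hA B hB C hC => by
    have := J.sub_mem (jor _ hA _ (jor _ hB _ hC)) (jor _ hB _ (jor _ hA _ hC))
    convert this using 1
    noncomm_ring
  have sm : ∀ c : F, c • (1 : M2 F) ∈ J → ∀ A ∈ J, c • A ∈ J := fun c hc A hA =>
    half _ (by simpa using jor _ hc _ hA)
  let K : Subring F :=
    { carrier := {c | c • (1 : M2 F) ∈ J}
      mul_mem' := fun {a b} ha hb => by have := sm a ha _ hb; rwa [smul_smul] at this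
      one_mem' := by simpa using h1
      add_mem' := fun {a b} ha hb => by have := J.add_mem ha hb; rwa [← add_smul] at this
      zero_mem' := by simp
      neg_mem' := fun {a} ha => by have := J.neg_mem ha; rwa [← neg_smul] at this }
  have key : ∀ L : M2 F, L.trace = 0 → L ≠ 0 → (∀ C ∈ J, L * C - C * L ∈ J) → ∀ C ∈ J, L * C = C * L := by
    intro L tL L0 hL C hC
    by_contra hne
    obtain ⟨l, hl⟩ := exists_sq_of_trace tL
    have hX := hL C hC
    set X := L * C - C * L with hXd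
    have X0 : X ≠ 0 := sub_ne_zero.mpr hne
    have a1 : X * L = -(L * X) := by
      have : X * L + L * X = L * L * C - C * (L * L) := by rw [hXd]; noncomm_ring
      rw [hl] at this
      exact eq_neg_of_add_eq_zero_left (by simpa using this)
    have hY : L * X ∈ J := half _ (by have := hL X hX; rwa [a1, sub_neg_eq_add] at this)
    have tX : X.trace = 0 := by rw [hXd, trace_sub, trace_mul_comm, sub_self]
    have tY : (L * X).trace = 0 := by
      have := trace_mul_comm X L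
      rw [a1, trace_neg] at this
      exact mul_left_cancel₀ h2 (by linear_combination -this)
    have Y0 : L * X ≠ 0 := fun e => L0 ((hu X hX X0).mul_left_eq_zero.mp e)
    obtain ⟨x, hx⟩ := exists_sq_of_trace tX
    obtain ⟨y, hy⟩ := exists_sq_of_trace tY
    have a2 : X * (L * X) = -(L * X * X) := by rw [← mul_assoc, a1, neg_mul]
    letI : Field K := (Finite.isField_of_domain K).toField
    obtain ⟨r, s, t, h0, e⟩ := CL.Cls.exists_zero_ternary (F := K) 1 (-⟨x, show x • _ ∈ J from hx ▸ hsq _ hX⟩)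
      (-⟨y, show y • _ ∈ J from hy ▸ hsq _ hY⟩) 0 0 0
    have e' : (r : F) * r = x * (s * s) + y * (t * t) := by
      have := congrArg Subtype.val e
      simp only [pow_two] at this
      change 1 * ((r : F) * r) + -x * (s * s) + -y * (t * t) + 0 * r * s + 0 * r * t + 0 * s * t = 0 at this
      linear_combination this
    set Z := (s : F) • X + (t : F) • (L * X) with hZ
    have hZZ : Z * Z = ((r : F) * r) • (1 : M2 F) := by
      rw [hZ, e', add_smul, mul_comm x, mul_comm y, ← smul_smul (_ * _) x, ← smul_smul (_ * _) y, ← hx, ← hy]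
      simp only [mul_add, add_mul, Matrix.smul_mul, Matrix.mul_smul, smul_smul, a2, smul_neg, mul_comm (t : F) s]
      abel
    have hm : (r : F) • (1 : M2 F) + Z ∈ J := J.add_mem r.2 (J.add_mem (sm _ s.2 _ hX) (sm _ t.2 _ hY))
    have tZ : Z.trace = 0 := by rw [hZ, trace_add, trace_smul, trace_smul, tX, tY]; simp
    have h3 : (r : F) • (1 : M2 F) + Z = 0 ∨ (r : F) • (1 : M2 F) - Z = 0 := by
      by_contra h
      rw [not_or] at h
      refine h.2 ((hu _ hm h.1).mul_right_eq_zero.mp ?_)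
      simp only [mul_sub, add_mul, Matrix.smul_mul, Matrix.mul_smul, smul_smul, hZZ, one_mul, mul_one, smul_add]
      abel
    have h4 : (r : F) = 0 := by
      rcases h3 with h | h <;> have := congrArg trace h
      · simpa [trace_add, tZ, h2] using this
      · simpa [trace_sub, tZ, h2] using this
    have h5 : Z = 0 := by simpa [h4] using h3
    have h6 : (s : F) = 0 := by
      have : X * Z + Z * X = (2 * s : F) • (X * X) := by
        simp only [hZ, mul_add, add_mul, Matrix.smul_mul, Matrix.mul_smul, a2, smul_neg, two_mul, add_smul]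
        abel
      rw [h5, mul_zero, zero_mul, add_zero, eq_comm, smul_eq_zero] at this
      exact this.elim (fun h => (mul_eq_zero.mp h).resolve_left h2)
        fun h => absurd ((hu X hX X0).mul_left_eq_zero.mp h) X0
    have h7 : (t : F) = 0 := by simpa [hZ, h6, Y0] using h5
    rcases h0 with h | h | h
    exacts [h (Subtype.ext h4), h (Subtype.ext h6), h (Subtype.ext h7)]
  intro A hA B hB
  by_contra hne
  have h := key _ (by rw [trace_sub, trace_mul_comm, sub_self]) (sub_ne_zero.mpr hne) (lie A hA B hB)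
  exact hne (comm_of_comm_lie h2 (h A hA) (h B hB))

/-- A system of square-zero matrices of rank two, any two of them annihilating each other or opposite. -/
structure QSys (S : Set (Matrix I4 I4 F)) : Prop where
  sq : ∀ N ∈ S, N * N = 0
  zero : 0 ∈ S
  neg : ∀ N ∈ S, -N ∈ S
  add : ∀ N ∈ S, ∀ N' ∈ S, N * N' = 0 → N' * N = 0 → N + N' ∈ S
  conj : ∀ N ∈ S, ∀ N' ∈ S, (1 + N) * N' * (1 - N) ∈ S
  ker : ∀ N ∈ S, N ≠ 0 → ∀ v, N *ᵥ v = 0 → ∃ w, v = N *ᵥ w
  dich : ∀ N ∈ S, ∀ N' ∈ S, N ≠ 0 → (N * N' = 0 ∧ N' * N = 0) ∨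
    ∃ E ∈ S, E ≠ 0 ∧ E * N = 0 ∧ N * E = 0 ∧ E * N' * E = E

namespace QSys

variable {S : Set (Matrix I4 I4 F)} (h : QSys S)
include h

theorem comap (c : GL I4 F) : QSys {N | c.1 * N * (c⁻¹).1 ∈ S} := by
  let φ : Matrix I4 I4 F ≃+* Matrix I4 I4 F := (CL.Asch.conjAlg c).toRingEquiv
  have hφ : ∀ N, c.1 * N * (c⁻¹).1 = φ N := fun N => rfl
  have h0 : ∀ {N}, φ N = 0 ↔ N = 0 := map_eq_zero_iff φ φ.injective
  simp only [hφ]
  refine ⟨fun N hN => h0.mp (by rw [map_mul]; exact h.sq _ hN), by simpa using h.zero,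
    fun N hN => by simpa using h.neg _ hN,
    fun N hN N' hN' e e' => by
      simpa using h.add _ hN _ hN' (by rw [← map_mul, e, map_zero]) (by rw [← map_mul, e', map_zero]),
    fun N hN N' hN' => by simpa using h.conj _ hN _ hN', fun N hN N0 v hv => ?_, fun N hN N' hN' N0 => ?_⟩
  · obtain ⟨w, hw⟩ := h.ker _ hN (mt h0.mp N0) (c.1 *ᵥ v) (by
      rw [← hφ, mulVec_mulVec, mul_assoc, Units.inv_mul, mul_one, ← mulVec_mulVec, hv, mulVec_zero])
    refine ⟨(c⁻¹).1 *ᵥ w, ?_⟩
    have := congrArg ((c⁻¹).1 *ᵥ ·) hw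
    simpa only [← hφ, mulVec_mulVec, ← mul_assoc, Units.inv_mul, one_mul, one_mulVec] using this
  · rcases h.dich _ hN _ hN' (mt h0.mp N0) with e | ⟨E, hE, E0, e1, e2, e3⟩
    · exact Or.inl ⟨h0.mp (by rw [map_mul]; exact e.1), h0.mp (by rw [map_mul]; exact e.2)⟩
    · obtain ⟨E, rfl⟩ := φ.surjective E
      exact Or.inr ⟨E, hE, mt h0.mpr E0, h0.mp (by rw [map_mul, e1]), h0.mp (by rw [map_mul, e2]),
        φ.injective (by rw [map_mul, map_mul, e3])⟩

section Blocks

variable (he : fromBlocks 0 1 0 0 ∈ S) (hf : fromBlocks 0 0 1 0 ∈ S) {A P Q R T : M2 F}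

omit h in
theorem conj_up (A P Q R T : M2 F) : (1 + fromBlocks 0 A 0 0) * fromBlocks P Q R T * (1 - fromBlocks 0 A 0 0) =
    fromBlocks (P + A * R) (Q + A * T - (P + A * R) * A) R (T - R * A) := by
  rw [← fromBlocks_one, sub_eq_add_neg, fromBlocks_neg, fromBlocks_add, fromBlocks_add, fromBlocks_multiply,
    fromBlocks_multiply, fromBlocks_inj]
  refine ⟨?_, ?_, ?_, ?_⟩ <;> noncomm_ring

omit h in
theorem conj_lo (A P Q R T : M2 F) : (1 + fromBlocks 0 0 A 0) * fromBlocks P Q R T * (1 - fromBlocks 0 0 A 0) =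
    fromBlocks (P - Q * A) Q (R + A * P - (T + A * Q) * A) (T + A * Q) := by
  rw [← fromBlocks_one, sub_eq_add_neg, fromBlocks_neg, fromBlocks_add, fromBlocks_add, fromBlocks_multiply,
    fromBlocks_multiply, fromBlocks_inj]
  refine ⟨?_, ?_, ?_, ?_⟩ <;> noncomm_ring

/-- The upper right blocks. -/
def up : AddSubgroup (M2 F) where
  carrier := {A | fromBlocks 0 A 0 0 ∈ S}
  zero_mem' := by simpa using h.zero
  neg_mem' := fun {A} hA => by simpa [fromBlocks_neg] using h.neg _ hA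
  add_mem' := fun {A B} hA hB => by
    simpa [fromBlocks_add] using h.add _ hA _ hB (by simp [fromBlocks_multiply]) (by simp [fromBlocks_multiply])

theorem isUnit_up (hA : A ∈ h.up) (h0 : A ≠ 0) : IsUnit A := by
  refine mulVec_surjective_iff_isUnit.mp fun x => ?_
  obtain ⟨w, hw⟩ := h.ker _ hA (fun e => h0 (by rw [← fromBlocks_zero, fromBlocks_inj] at e; exact e.2.1))
    (Sum.elim x 0) (by simp [fromBlocks_mulVec])
  refine ⟨w ∘ Sum.inr, funext fun i => ?_⟩
  simpa [fromBlocks_mulVec] using (congrFun hw (.inl i)).symm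

include he hf

theorem swap (hN : fromBlocks P Q R T ∈ S) : fromBlocks T (-R) (-Q) P ∈ S := by
  have h1 := h.conj _ he _ hN
  rw [conj_up] at h1
  have h2 := h.conj _ (h.neg _ hf) _ h1
  simp only [fromBlocks_neg, neg_zero] at h2
  rw [conj_lo] at h2
  have h3 := h.conj _ he _ h2
  rw [conj_up] at h3
  convert h3 using 2 <;> noncomm_ring

omit hf in
theorem cases (hN : fromBlocks P Q R T ∈ S) : (P = 0 ∧ R = 0 ∧ T = 0) ∨ ∃ A ∈ h.up, A * R = 1 := by
  have key : ∀ {P Q R T : M2 F}, fromBlocks 0 1 0 0 * fromBlocks P Q R T = 0 →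
      fromBlocks P Q R T * fromBlocks 0 1 0 0 = 0 → P = 0 ∧ R = 0 ∧ T = 0 := fun e e' => by
    rw [fromBlocks_multiply, ← fromBlocks_zero, fromBlocks_inj] at e e'
    exact ⟨by simpa using e'.2.1, by simpa using e.1, by simpa using e.2.1⟩
  rcases h.dich _ he _ hN (fun e => by rw [← fromBlocks_zero, fromBlocks_inj] at e; simpa using e.2.1) with
    e | ⟨E, hE, E0, e1, e2, e3⟩
  · exact Or.inl (key e.1 e.2)
  · rw [← fromBlocks_toBlocks E] at hE E0 e1 e2 e3
    obtain ⟨a, b, c⟩ := key e2 e1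
    rw [a, b, c] at hE E0 e3
    simp only [fromBlocks_multiply, fromBlocks_inj, zero_mul, mul_zero, add_zero, zero_add] at e3
    refine Or.inr ⟨_, hE, (h.isUnit_up hE fun e => E0 (by rw [e, fromBlocks_zero])).mul_right_cancel ?_⟩
    rw [e3.2.1, one_mul]

theorem lo_mem (hN : fromBlocks P Q R T ∈ S) : R ∈ h.up := by
  rcases h.cases he hN with e | ⟨A, hA, e⟩
  · exact e.2.1 ▸ h.up.zero_mem
  · have h1 := h.swap he hf (h.up.neg_mem hA)
    rcases h.cases he h1 with e' | ⟨B, hB, e'⟩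
    · rw [neg_neg] at e'
      simp [e'.2.1] at e
    · rw [neg_neg] at e'
      rwa [← one_mul R, ← e', mul_assoc, e, mul_one]

theorem up_mem (hN : fromBlocks P Q R T ∈ S) : Q ∈ h.up := h.up.neg_mem_iff.mp (h.lo_mem he hf (h.swap he hf hN))

theorem sq_mem (hA : A ∈ h.up) : A * A ∈ h.up := by
  have h1 := h.conj _ hA _ hf
  rw [conj_up] at h1
  simpa using h.up_mem he hf h1

theorem sub_mem (hN : fromBlocks P Q R T ∈ S) : P - T ∈ h.up := by
  have h1 := h.conj _ he _ hN
  rw [conj_up] at h1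
  have := h.up.sub_mem (h.up.sub_mem (h.up_mem he hf hN) (h.lo_mem he hf hN)) (h.up_mem he hf h1)
  convert this using 1
  noncomm_ring

theorem comm_diag (h2 : (2 : F) ≠ 0) {d : M2 F} (hd : ∀ A ∈ h.up, d * A = A * d) {N : Matrix I4 I4 F} (hN : N ∈ S) :
    fromBlocks d 0 0 d * N = N * fromBlocks d 0 0 d := by
  rw [← fromBlocks_toBlocks N] at hN ⊢
  generalize N.toBlocks₁₁ = P, N.toBlocks₁₂ = Q, N.toBlocks₂₁ = R, N.toBlocks₂₂ = T at hN ⊢
  have hQ := hd _ (h.up_mem he hf hN)
  have hR := hd _ (h.lo_mem he hf hN)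
  suffices d * P = P * d ∧ d * T = T * d by simp [fromBlocks_multiply, this, hQ, hR]
  rcases h.cases he hN with e | ⟨A, -, hA⟩
  · simp [e]
  have R0 : R ≠ 0 := fun e => by simp [e] at hA
  rcases h.dich _ hN _ he (fun e => by rw [← fromBlocks_zero, fromBlocks_inj] at e; exact R0 e.2.2.1) with
    e | ⟨E, hE, E0, e1, e2, e3⟩
  · rw [fromBlocks_multiply, ← fromBlocks_zero, fromBlocks_inj] at e
    exact absurd (by simpa using e.1.2.2.2) R0
  rw [← fromBlocks_toBlocks E] at hE E0 e1 e2 e3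
  generalize E.toBlocks₁₁ = P', E.toBlocks₁₂ = Q', E.toBlocks₂₁ = R', E.toBlocks₂₂ = T' at hE E0 e1 e2 e3
  have e4 := h.sq _ hE
  rw [fromBlocks_multiply, ← fromBlocks_zero, fromBlocks_inj] at e1 e2 e4
  simp only [fromBlocks_multiply, fromBlocks_inj, zero_mul, mul_zero, add_zero, zero_add, mul_one] at e3
  obtain rfl : R' = 1 := by
    rcases h.cases he hE with e | ⟨B, -, hB⟩
    · exact absurd (by rw [← e3.2.1, e.1, e.2.1, e.2.2, zero_mul, fromBlocks_zero]) E0
    · rw [← one_mul R', ← hB, mul_assoc, e3.2.2.1]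
  obtain rfl : T' = -P' := eq_neg_of_add_eq_zero_right (by simpa using e4.2.2.1)
  have h5 : d * P' = P' * d := by
    have := hd _ (h.sub_mem he hf hE)
    rw [sub_neg_eq_add, ← two_smul F, Matrix.mul_smul, Matrix.smul_mul] at this
    exact smul_right_injective _ h2 this
  obtain rfl : P = P' * R := by simpa [add_neg_eq_zero] using e1.2.2.1
  obtain rfl : T = -(R * P') := eq_neg_of_add_eq_zero_right (by simpa using e2.2.2.1)
  exact ⟨by rw [← mul_assoc, h5, mul_assoc, hR, mul_assoc],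
    by rw [mul_neg, neg_mul, ← mul_assoc, hR, mul_assoc, h5, mul_assoc]⟩

theorem exists_comm_blocks [Finite F] (h2 : (2 : F) ≠ 0) :
    ∃ D : Matrix I4 I4 F, (∀ c : F, D ≠ c • (1 : Matrix I4 I4 F)) ∧ ∀ N ∈ S, D * N = N * D := by
  obtain ⟨d, hd, hd'⟩ : ∃ d : M2 F, (∀ c : F, d ≠ c • (1 : M2 F)) ∧ ∀ A ∈ h.up, d * A = A * d := by
    by_cases hs : ∀ A ∈ h.up, ∃ c : F, A = c • (1 : M2 F)
    · refine ⟨!![0, 1; 0, 0], fun c e => by simpa using congrFun (congrFun e 0) 1, fun A hA => ?_⟩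
      obtain ⟨c, rfl⟩ := hs A hA
      simp
    · push Not at hs
      obtain ⟨d, hd, hd'⟩ := hs
      exact ⟨d, hd', jordan_comm h2 h.up he (fun A => h.sq_mem he hf) (fun A => h.isUnit_up) d hd⟩
  refine ⟨fromBlocks d 0 0 d, fun c e => hd c ?_, fun N => h.comm_diag he hf h2 hd'⟩
  rw [← fromBlocks_one, fromBlocks_smul, fromBlocks_inj] at e
  exact e.1

end Blocks

theorem exists_comm [Finite F] (h2 : (2 : F) ≠ 0) :
    ∃ D : Matrix I4 I4 F, (∀ c : F, D ≠ c • (1 : Matrix I4 I4 F)) ∧ ∀ N ∈ S, D * N = N * D := by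
  by_cases h0 : ∀ N ∈ S, ∀ N' ∈ S, N * N' = 0
  · by_cases h1 : ∀ N ∈ S, N = 0
    · exact ⟨fromBlocks 0 1 0 0, fun c e => by simpa using congrFun (congrFun e (.inl 0)) (.inr 0),
        fun N hN => by simp [h1 N hN]⟩
    · push Not at h1
      obtain ⟨N, hN, N0⟩ := h1
      refine ⟨N, fun c e => N0 ?_, fun N' hN' => by rw [h0 _ hN _ hN', h0 _ hN' _ hN]⟩
      have := h.sq _ hN
      rw [e, Matrix.smul_mul, one_mul, smul_smul, smul_eq_zero] at this
      rw [e, mul_self_eq_zero.mp (this.resolve_right one_ne_zero), zero_smul]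
  push Not at h0
  obtain ⟨N, hN, e, he, hne⟩ := h0
  obtain ⟨f, hf, f0, -, -, hfe⟩ := (h.dich _ hN _ he fun e0 => hne (by rw [e0, zero_mul])).resolve_left
    fun e0 => hne e0.1
  have hk : LinearMap.ker (toLin' f) = LinearMap.range (toLin' f) := le_antisymm
    (fun v hv => let ⟨w, hw⟩ := h.ker _ hf f0 v hv; ⟨w, hw.symm⟩) (by
      rintro _ ⟨w, rfl⟩
      rw [LinearMap.mem_ker, toLin'_apply, toLin'_apply, mulVec_mulVec, h.sq _ hf, zero_mulVec])
  have hr : finrank F (LinearMap.range (toLin' f)) = 2 := by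
    have := LinearMap.finrank_range_add_finrank_ker (toLin' f)
    rw [hk, finrank_fintype_fun_eq_card, Fintype.card_sum, Fintype.card_fin] at this
    omega
  let b := finBasisOfFinrankEq F _ hr
  let w : Matrix I4 (Fin 2) F := Matrix.of fun i a => (b a : I4 → F) i
  have hw : ∀ x, w *ᵥ x = 0 → x = 0 := fun x hx => funext fun a =>
    Fintype.linearIndependent_iff.mp b.linearIndependent x (Subtype.ext (funext fun i => by
      simpa [w, mulVec, dotProduct, mul_comm] using congrFun hx i)) a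
  obtain ⟨y, hy⟩ : ∃ y : Matrix I4 (Fin 2) F, w = f * y := by
    choose y hy using fun a => (b a).2
    exact ⟨Matrix.of fun i a => y a i, by ext i a; exact (congrFun (hy a) i).symm⟩
  have w1 : f * w = 0 := by rw [hy, ← Matrix.mul_assoc, h.sq _ hf, Matrix.zero_mul]
  have w2 : f * (e * w) = w := by rw [hy, ← Matrix.mul_assoc, ← Matrix.mul_assoc, hfe]
  have w3 : e * (e * w) = 0 := by rw [← Matrix.mul_assoc, h.sq _ he, Matrix.zero_mul]
  obtain ⟨c, hc⟩ : IsUnit (fromCols (e * w) w) := by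
    refine mulVec_injective_iff_isUnit.mp ((injective_iff_map_eq_zero (mulVecLin _)).mpr fun x hx => ?_)
    rw [mulVecLin_apply, ← Sum.elim_comp_inl_inr x, fromCols_mulVec_sumElim] at hx
    have h1 := congrArg (f *ᵥ ·) hx
    simp only [mulVec_add, mulVec_mulVec, w1, w2, zero_mulVec, add_zero, mulVec_zero] at h1
    rw [hw _ h1, mulVec_zero, zero_add] at hx
    rw [← Sum.elim_comp_inl_inr x, hw _ h1, hw _ hx, Sum.elim_zero_zero]
  obtain ⟨D, hD, hD'⟩ := (h.comap c).exists_comm_blocks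
    (show c.1 * _ * _ ∈ S by
      rwa [Units.mul_inv_eq_iff_eq_mul _ |>.mpr (show c.1 * fromBlocks 0 1 0 0 = e * c.1 by
        rw [hc, fromCols_mul_fromBlocks, mul_fromCols]; simp [w3])])
    (show c.1 * _ * _ ∈ S by
      rwa [Units.mul_inv_eq_iff_eq_mul _ |>.mpr (show c.1 * fromBlocks 0 0 1 0 = f * c.1 by
        rw [hc, fromCols_mul_fromBlocks, mul_fromCols]; simp [w1, w2])]) h2
  refine ⟨CL.Asch.conjAlg c D, fun a ha => hD a ((CL.Asch.conjAlg c).injective (by simpa using ha)), fun N hN => ?_⟩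
  obtain ⟨N, rfl⟩ := (CL.Asch.conjAlg c).surjective N
  rw [← map_mul, hD' N hN, map_mul]

end QSys

end CL.Low
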