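/-
Project LOWDIM, step `Sp4Q`: quadratic families in subgroups of `Sp₄(F)` without transvections.
-/
import Cfsg.Agent.Low.Sp4QBlk
import Cfsg.Agent.Chev.QuadPD

set_option autoImplicit false

namespace CL.Low

open Matrix Module Cfsg Cfsg.Geo CL.Asch CL.Chev.Quad

universe u

section General

variable {ι : Type} [Fintype ι] [DecidableEq ι] {F : Type u} [Field F] {G : Subgroup (GL ι F)} {k : Subfield F}
  {N N' : Matrix ι ι F}

theorem QN.exists_mem (h : QN G k N) : ∃ g ∈ G, g.1 = 1 + N ∧ (g⁻¹).1 = 1 - N := by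
  obtain ⟨g, hg, e⟩ := h.2 1 k.one_mem
  rw [one_smul] at e
  exact ⟨g, hg, e, Units.inv_eq_of_mul_eq_one_right (by rw [e, add_mul, mul_sub, mul_sub, h.1]; simp)⟩

theorem QN.conj (h : QN G k N) {g : GL ι F} (hg : g ∈ G) : QN G k (g.1 * N * (g⁻¹).1) :=
  ⟨by rw [conj_mul_conj, h.1, mul_zero, zero_mul], fun c hc => by
    obtain ⟨x, hx, e⟩ := h.2 c hc
    exact ⟨g * x * g⁻¹, G.mul_mem (G.mul_mem hg hx) (G.inv_mem hg), by simp [e, mul_add, add_mul]⟩⟩

theorem QN.add (h : QN G k N) (h' : QN G k N') (e : N * N' = 0) (e' : N' * N = 0) : QN G k (N + N') :=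
  ⟨by simp [mul_add, add_mul, h.1, h'.1, e, e'], fun c hc => by
    obtain ⟨x, hx, a⟩ := h.2 c hc
    obtain ⟨y, hy, b⟩ := h'.2 c hc
    exact ⟨x * y, G.mul_mem hx hy, by simp [a, b, mul_add, add_mul, e, add_assoc]⟩⟩

/-- Matrices as endomorphisms over the subfield. -/
noncomputable def resEnd (ι : Type) [Fintype ι] [DecidableEq ι] (k : Subfield F) : Matrix ι ι F →+* End k (ι → F) where
  toFun A := (toLin' A).restrictScalars k
  map_one' := LinearMap.ext fun x => by simp
  map_mul' A B := LinearMap.ext fun x => by simp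
  map_zero' := by ext1 x; simp
  map_add' A B := by ext1 x; simp

theorem resEnd_injective : Function.Injective (resEnd ι k) := fun _ _ h =>
  toLin'.injective (LinearMap.ext fun x => LinearMap.congr_fun h x)

theorem resEnd_smul (c : k) (A : Matrix ι ι F) : resEnd ι k ((c : F) • A) = c • resEnd ι k A :=
  LinearMap.ext fun x => smul_mulVec (c : F) A x

theorem q0_resEnd : Q0 (G.map (Units.map (resEnd ι k).toMonoidHom)) (resEnd ι k N) ↔ QN G k N := by
  constructor
  · refine fun h => ⟨resEnd_injective (k := k) (by rw [map_mul, h.sq, map_zero]), fun c hc => ?_⟩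
    obtain ⟨g, hg, e⟩ := h.ex_smul_mem ⟨c, hc⟩
    refine ⟨g, hg, resEnd_injective (k := k) ?_⟩
    rw [map_add, map_one, resEnd_smul ⟨c, hc⟩]
    exact congrArg Units.val e
  · refine fun h => ⟨by rw [← map_mul, h.1, map_zero], fun c τ hτ => ?_⟩
    obtain ⟨g, hg, e⟩ := h.2 c c.2
    refine ⟨g, hg, Units.ext ?_⟩
    rw [hτ, ← resEnd_smul, ← map_one (resEnd ι k), ← map_add, ← e]
    rfl

theorem exists_resEnd {b : End k (ι → F)} (h : Q0 (G.map (Units.map (resEnd ι k).toMonoidHom)) b) :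
    ∃ N, resEnd ι k N = b := by
  obtain ⟨g, -, e⟩ := h.ex_mem
  refine ⟨g.1 - 1, ?_⟩
  rw [map_sub, map_one, sub_eq_iff_eq_add']
  exact congrArg Units.val e

end General

variable {F : Type u} [Field F] {G : Subgroup (GL I4 F)} {k : Subfield F} {N N' : Matrix I4 I4 F}

theorem QN.sadj_eq (hG : G ≤ spGL 2 F) (h : QN G k N) : sadj N = -N := by
  obtain ⟨g, hg, e, e'⟩ := h.exists_mem
  rw [coe_inv_eq_sadj (hG hg), e, sadj_add, sadj_one, sub_eq_add_neg] at e'
  exact add_left_cancel e'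

theorem QN.two_le (hT : ¬ HasTv G) (h : QN G k N) (h0 : N ≠ 0) : 2 ≤ finrank F (LinearMap.range (toLin' N)) := by
  obtain ⟨g, hg, e, -⟩ := h.exists_mem
  have e' : g.1 - 1 = N := by rw [e, add_sub_cancel_left]
  have h1 : finrank F (LinearMap.range (toLin' N)) ≠ 1 := fun h1 =>
    hT ⟨g, hg, isTv_of_rank (by rw [e', h.1]) (by rwa [e'])⟩
  have h2 : finrank F (LinearMap.range (toLin' N)) ≠ 0 := fun h2 =>
    h0 (toLin'.map_eq_zero_iff.mp (LinearMap.range_eq_bot.mp (Submodule.finrank_eq_zero.mp h2)))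
  omega

theorem QN.range_eq (hT : ¬ HasTv G) (h : QN G k N) (h0 : N ≠ 0) :
    LinearMap.range (toLin' N) = LinearMap.ker (toLin' N) ∧ finrank F (LinearMap.range (toLin' N)) = 2 := by
  have h1 : LinearMap.range (toLin' N) ≤ LinearMap.ker (toLin' N) := by
    rw [LinearMap.range_le_ker_iff, ← toLin'_mul, h.1, map_zero]
  have h2 := LinearMap.finrank_range_add_finrank_ker (toLin' N)
  have h3 := h.two_le hT h0
  have h4 := Submodule.finrank_mono h1
  rw [finrank_fintype_fun_eq_card, Fintype.card_sum, Fintype.card_fin] at h2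
  exact ⟨Submodule.eq_of_le_of_finrank_le h1 (by omega), by omega⟩

/-- A self-adjoint matrix of rank at most one is zero. -/
theorem eq_zero_of_sadj (h2 : (2 : F) ≠ 0) {A : Matrix I4 I4 F} (hA : sadj A = A) {I : Submodule F (I4 → F)}
    (hI : finrank F I ≤ 1) (h : ∀ x, A *ᵥ x ∈ I) : A = 0 := by
  by_contra h0
  obtain ⟨x, hx⟩ : ∃ x, A *ᵥ x ≠ 0 := by
    by_contra h1
    push Not at h1
    exact h0 (matrix_ext_mulVec fun x => by rw [h1, zero_mulVec])
  obtain ⟨u, hu⟩ := finrank_le_one_iff.mp hI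
  have hB := CL.Sp.stdForm_isAlt (Fin 2) F
  refine hx ((CL.Sp.stdForm_nondegenerate (Fin 2) F).1 _ fun y => ?_)
  have alt : ∀ z, CL.Sp.stdForm (Fin 2) F (A *ᵥ z) z = 0 := fun z => mul_left_cancel₀ h2 (by
    have := stdForm_sadj A z z
    rw [hA] at this
    linear_combination this - hB.neg_eq z (A *ᵥ z))
  obtain ⟨a, ha⟩ := hu ⟨_, h x⟩
  obtain ⟨b, hb⟩ := hu ⟨_, h y⟩
  have ha' : a • (u : I4 → F) = A *ᵥ x := congrArg Subtype.val ha
  have hb' : b • (u : I4 → F) = A *ᵥ y := congrArg Subtype.val hb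
  have a0 : a ≠ 0 := fun e => hx (by rw [← ha', e, zero_smul])
  have e1 := alt x
  have e2 := stdForm_sadj A x y
  rw [hA, ← hb', ← hB.neg_eq (b • _)] at e2
  rw [← ha'] at e1
  simp only [map_smul, LinearMap.smul_apply, smul_eq_mul] at e1 e2
  rw [e2, (mul_eq_zero.mp e1).resolve_left a0, mul_zero, neg_zero]

theorem QN.mul_eq_zero (h2 : (2 : F) ≠ 0) (hG : G ≤ spGL 2 F) (hT : ¬ HasTv G) (h : QN G k N) (h' : QN G k N')
    (hc : QN G k (N * N' - N' * N)) (e : N * N' * N = 0) (e' : N' * N * N' = 0) : N * N' = 0 := by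
  by_cases h0 : N = 0
  · simp [h0]
  by_cases h0' : N' = 0
  · simp [h0']
  obtain ⟨a1, a2⟩ := h.range_eq hT h0
  obtain ⟨b1, b2⟩ := h'.range_eq hT h0'
  set I := LinearMap.range (toLin' N) ⊓ LinearMap.range (toLin' N') with hI
  by_cases hr : finrank F I ≤ 1
  · have m1 : ∀ x, (N * N') *ᵥ x ∈ I := fun x => ⟨⟨N' *ᵥ x, mulVec_mulVec x N N'⟩, by
      rw [b1, SetLike.mem_coe, LinearMap.mem_ker, toLin'_apply, mulVec_mulVec, ← mul_assoc, e', zero_mulVec]⟩
    have m2 : ∀ x, (N' * N) *ᵥ x ∈ I := fun x => ⟨by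
      rw [a1, SetLike.mem_coe, LinearMap.mem_ker, toLin'_apply, mulVec_mulVec, ← mul_assoc, e, zero_mulVec],
      N *ᵥ x, mulVec_mulVec x N' N⟩
    have h3 : N * N' - N' * N = 0 := by
      by_contra h3
      have h4 : LinearMap.range (toLin' (N * N' - N' * N)) ≤ I := by
        rintro _ ⟨x, rfl⟩
        rw [toLin'_apply, sub_mulVec]
        exact I.sub_mem (m1 x) (m2 x)
      have := hc.two_le hT h3
      have := Submodule.finrank_mono h4
      omega
    exact eq_zero_of_sadj h2 (by rw [sadj_mul, h.sadj_eq hG, h'.sadj_eq hG, neg_mul_neg, sub_eq_zero.mp h3]) hr m1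
  · have h3 : I = LinearMap.range (toLin' N') := Submodule.eq_of_le_of_finrank_le inf_le_right (by omega)
    have h4 : LinearMap.range (toLin' N') ≤ LinearMap.ker (toLin' N) := by rw [← a1, ← h3]; exact inf_le_left
    rwa [LinearMap.range_le_ker_iff, ← toLin'_mul, toLin'.map_eq_zero_iff] at h4

theorem qSys [Finite F] (h2 : (2 : F) ≠ 0) (hG : G ≤ spGL 2 F) (hT : ¬ HasTv G) (hk : 3 < Nat.card k) :
    QSys {N | QN G k N} := by
  have H : Hyp k := hyp_of (fun e => h2 (by
    have := ringChar.Nat.cast_ringChar (R := k)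
    rw [e] at this
    exact congrArg Subtype.val this)) hk.ne'
  haveI : FiniteDimensional k (I4 → F) := Module.Finite.of_finite
  have h0 : ∀ {N : Matrix I4 I4 F}, resEnd I4 k N = 0 ↔ N = 0 := map_eq_zero_iff _ resEnd_injective
  have rk2 : ∀ N, QN G k N → N ≠ 0 → rk (resEnd I4 k N) + rk (resEnd I4 k N) = finrank k (I4 → F) := fun N h N0 => by
    rw [← rk_add_ker (resEnd I4 k N), show LinearMap.ker (resEnd I4 k N) = LinearMap.range (resEnd I4 k N) from
      Submodule.ext fun x => (SetLike.ext_iff.mp (h.range_eq hT N0).1 x).symm]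
    rfl
  have hmin : ∀ N, QN G k N → N ≠ 0 → Min (G.map (Units.map (resEnd I4 k).toMonoidHom)) (resEnd I4 k N) :=
    fun N h N0 => ⟨q0_resEnd.mpr h, mt h0.mp N0, fun b hb b0 => by
      obtain ⟨M, rfl⟩ := exists_resEnd hb
      have := rk2 N h N0
      have := rk2 M (q0_resEnd.mp hb) (mt h0.mpr b0)
      omega⟩
  refine ⟨fun N h => h.1, ⟨mul_zero _, fun c _ => ⟨1, G.one_mem, by simp⟩⟩,
    fun N h => ⟨by rw [neg_mul_neg, h.1], fun c hc => by simpa using h.2 _ (k.neg_mem hc)⟩, fun N h N' h' => h.add h',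
    fun N h N' h' => ?_, fun N h N0 v hv => ?_, fun N h N' h' N0 => ?_⟩
  · obtain ⟨g, hg, e, e'⟩ := h.exists_mem
    exact e ▸ e' ▸ h'.conj hg
  · obtain ⟨w, hw⟩ : v ∈ LinearMap.range (toLin' N) := (h.range_eq hT N0).1 ▸ hv
    exact ⟨w, hw.symm⟩
  · by_cases e : N * N' * N = 0
    · by_cases N0' : N' = 0
      · simp [N0']
      have e' : N' * N * N' = 0 := by
        by_contra e'
        refine (opp_of_aba_ne H (hmin _ h' N0') (hmin _ h N0) ?_).symm.aba_ne (mt h0.mp N0) ?_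
        · rw [← map_mul, ← map_mul]; exact mt h0.mp e'
        · rw [← map_mul, ← map_mul, e, map_zero]
      have hc : ∀ {N N' : Matrix I4 I4 F}, QN G k N → QN G k N' → N * N' * N = 0 → N' * N * N' = 0 →
          QN G k (N * N' - N' * N) := fun h h' e e' => q0_resEnd.mp (by
        rw [map_sub, map_mul, map_mul]
        exact (q0_resEnd.mpr h).comm (q0_resEnd.mpr h') (by rw [← map_mul, ← map_mul, e, map_zero])
          (by rw [← map_mul, ← map_mul, e', map_zero]))
      exact Or.inl ⟨h.mul_eq_zero h2 hG hT h' (hc h h' e e') e e', h'.mul_eq_zero h2 hG hT h (hc h' h e' e) e' e⟩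
    · obtain ⟨b, hb, b0, hbb⟩ := exists_inverse H (hmin _ h N0) (q0_resEnd.mpr h')
        (by rw [← map_mul, ← map_mul]; exact mt h0.mp e)
      obtain ⟨E, rfl⟩ := exists_resEnd (cls_q0 hb)
      have hN := self_mem_cls (q0_resEnd.mpr h)
      exact Or.inr ⟨E, q0_resEnd.mp (cls_q0 hb), mt h0.mpr b0, h0.mp (by rw [map_mul, cls_mul hb hN]),
        h0.mp (by rw [map_mul, cls_mul hN hb]), resEnd_injective (k := k) (by rw [map_mul, map_mul, hbb])⟩

theorem sp4Q : Sp4Q.{u} := fun _ _ _ _ _ h2 hG hT hk => (qSys h2 hG hT hk).exists_comm h2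

/-- A quasisimple absolutely irreducible subgroup of `Sp₄(F)` without transvections has no quadratic family. -/
theorem QS.qn_eq_zero [Finite F] {P : Subgroup (GL I4 F)} (h : QS P) (h2 : (2 : F) ≠ 0) (hP : P ≤ spGL 2 F)
    (hT : ¬ HasTv P) (hk : 3 < Nat.card k) (hN : QN P k N) : N = 0 := by
  by_contra h0
  obtain ⟨D, hD, hD'⟩ := sp4Q F P k h2 hP hT hk
  obtain ⟨g, hg, e, -⟩ := hN.exists_mem
  have hle := h.le_closure (S := {g | QN P k (g.1 - 1)}) (fun x hx y hy => by
    simpa [mul_sub, sub_mul] using QN.conj hy hx) (x := g) (by simpa [e] using hN) hg fun hs => by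
      obtain ⟨c, hc⟩ := mem_scalars_iff'.mp hs
      have e1 : N = (c - 1) • (1 : Matrix I4 I4 F) := by rw [sub_smul, ← hc, e]; simp
      have := hN.1
      rw [e1, Matrix.smul_mul, one_mul, smul_smul, smul_eq_zero] at this
      exact h0 (by rw [e1, mul_self_eq_zero.mp (this.resolve_right one_ne_zero), zero_smul])
  obtain ⟨c, hc⟩ := scalar_of_comm_span h.span (x := D) fun l hl => by
    refine Subgroup.closure_induction (p := fun (l : GL I4 F) _ => l.1 * D = D * l.1) (fun x hx => ?_) (by simp)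
      (fun x y _ _ a b => by rw [Units.val_mul, mul_assoc, b, ← mul_assoc, a, mul_assoc])
      (fun x _ a => (Commute.units_inv_left (u := x) (a := D) a).eq) (hle hl)
    have := hD' _ hx
    rw [mul_sub, sub_mul, mul_one, one_mul, sub_left_inj] at this
    exact this.symm
  exact hD c hc

end CL.Low
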