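/-
Project LOWDIM: no root of a quasisimple irreducible subgroup of `Sp₄(q)` without transvections is a square.
-/
import Cfsg.Agent.Low.Cliff
import Cfsg.Agent.Low.Weights
import Cfsg.Agent.Inv.BaerSuzuki

set_option autoImplicit false
set_option linter.style.haveILetI false

namespace CL.Low

open Matrix Cfsg Cfsg.Geo CL.Asch CL.SLn Module
open scoped MatrixGroups

universe u

section Two

open CL.SL2 CL.GL2

variable {K : Type u} [Field K]

/-- In `PGL₂(3)` squares of elements of order dividing four commute. -/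
theorem pgl_three_comm [Finite K] (hK : Nat.card K = 3) {x y : PGL(2, K)} (hx : x ^ 4 = 1) (hy : y ^ 4 = 1) :
    x * x * (y * y) = y * y * (x * x) := by
  have e : P1 K ≃ Fin 4 := Finite.equivFinOfCardEq (by rw [card_P1, hK])
  let f : PGL(2, K) →* Equiv.Perm (Fin 4) := e.permCongrHom.toMonoidHom.comp (MulAction.toPermHom _ (P1 K))
  have hf : Function.Injective f := by
    rw [injective_iff_map_eq_one]
    intro g hg
    have h1 : MulAction.toPermHom _ (P1 K) g = 1 := e.permCongrHom.injective (hg.trans (map_one _).symm)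
    have h2 : ∀ z : P1 K, g • z = z := fun z => Equiv.congr_fun h1 z
    exact pgl_eq_one_of_fix_three (pinf_ne_pt 0) (pinf_ne_pt 1) (fun h => zero_ne_one (pt_inj.1 h)) (h2 _) (h2 _) (h2 _)
  have a2 : ∀ x y : Equiv.Perm (Fin 4), x ^ 4 = 1 → y ^ 4 = 1 → x * x * (y * y) = y * y * (x * x) := by
    decide +kernel
  apply hf
  simp only [map_mul]
  exact a2 _ _ (by rw [← map_pow, hx, map_one]) (by rw [← map_pow, hy, map_one])

/-- A plane group containing a reflection of order four and an involution moving its axis and centre. -/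
theorem refl_two [Finite K] (h2 : (2 : K) ≠ 0) (H : Subgroup (GL (Fin 2) K)) {κ B : GL (Fin 2) K} (hκ : κ ∈ H)
    (hB : B ∈ H) {i ε l : K} (hi : i * i = -1) (hε : ε * ε = 1) (hl : l * l ≠ 1)
    (eκ : κ.1 = !![i, 0; 0, ε]) (eB : B.1 = !![-l, 1 - l * l; 1, l]) :
    l * (2 * l * l - 1) = 0 ∨ ∃ (L : Subfield K) (E : M2 K), 3 < Nat.card L ∧ E ≠ 0 ∧ QN H L E := by
  classical
  obtain ⟨p, hp⟩ := CharP.exists K
  haveI : Fact p.Prime := ⟨CharP.char_is_prime K p⟩
  have hie : i ≠ ε := fun e => h2 (by rw [e, hε] at hi; linear_combination hi)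
  have eκ2 : (κ * κ).1 = !![-1, 0; 0, 1] := by
    rw [Units.val_mul, eκ]
    simp [hi, hε]
  have hBB : B * B = 1 := Units.ext (by
    rw [Units.val_mul, eB, Units.val_one, one_fin_two]
    simp only [mul_fin_two]
    congr <;> ring)
  have hB1 : B⁻¹ = B := inv_eq_of_mul_eq_one_right hBB
  have hκ4 : κ ^ 4 = 1 := Units.ext (by
    rw [show κ ^ 4 = κ * κ * (κ * κ) by simp only [pow_succ, pow_zero, one_mul, mul_assoc], Units.val_mul, eκ2,
      Units.val_one, one_fin_two]
    simp)
  set k : PGL(2, K) := ProjGenLinGroup.mk κ with hk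
  set b : PGL(2, K) := ProjGenLinGroup.mk B with hb
  have hk4 : k ^ 4 = 1 := by rw [hk, ← map_pow, hκ4, map_one]
  have hk4' : (b * k * b⁻¹) ^ 4 = 1 := by rw [conj_pow, hk4, mul_one, mul_inv_cancel]
  have hk2 : k * k ≠ 1 := fun e => by
    rw [hk, ← map_mul, pgl_mk_eq_one_iff_isScal, eκ2] at e
    have := e.2.2
    simp only [of_apply, cons_val', cons_val_zero, cons_val_one, cons_val_fin_one] at this
    exact h2 (by linear_combination -this)
  have hk2' : b * k * b⁻¹ * (b * k * b⁻¹) ≠ 1 := fun e => hk2 (by rwa [conj_mul, conj_eq_one_iff] at e)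
  have fin : k * k * (b * k * b⁻¹ * (b * k * b⁻¹)) = b * k * b⁻¹ * (b * k * b⁻¹) * (k * k) →
      l * (2 * l * l - 1) = 0 := fun e => by
    rw [conj_mul, hk, hb, ← map_inv, hB1] at e
    simp only [← map_mul] at e
    obtain ⟨c, hc⟩ := exists_smul_of_mk_eq e
    simp only [Units.val_mul (κ * κ), Units.val_mul _ (κ * κ), Units.val_mul _ B, eκ2, eB, mul_fin_two] at hc
    have h00 := congrFun (congrFun hc 0) 0
    have h10 := congrFun (congrFun hc 1) 0
    simp at h00 h10
    apply mul_left_cancel₀ (mul_ne_zero h2 h2)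
    linear_combination 2 * l * h00 + (2 * l * l - 1) * h10
  let G : Subgroup PGL(2, K) := H.map ProjGenLinGroup.mk
  have hkG : k ∈ G := ⟨κ, hκ, rfl⟩
  have hbG : b ∈ G := ⟨B, hB, rfl⟩
  have hkG' : b * k * b⁻¹ ∈ G := mul_mem (mul_mem hbG hkG) (inv_mem hbG)
  have small : Small G → l * (2 * l * l - 1) = 0 := fun hs => fin (by
    have := hs.comm (k := ⟨k, hkG⟩) (k' := ⟨_, hkG'⟩) (i := 2) (j := 2) (fun e => hk2 (congrArg Subtype.val e))
      (fun e => hk2' (congrArg Subtype.val e)) (Subtype.ext (by simpa [← pow_add] using hk4))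
      (Subtype.ext (by rw [← pow_add]; exact hk4'))
    rw [pow_two, pow_two] at this
    exact congrArg Subtype.val this)
  haveI : Finite PGL(2, K) := Finite.of_surjective _ ProjGenLinGroup.mk_surjective
  rcases dickson_pgl p G with ⟨x, hx⟩ | h | ⟨n, -, h⟩ | ⟨-, h⟩ | ⟨-, h⟩ | ⟨L, c, hL, h3, h⟩
  · exfalso
    have h1 := hx k hkG
    have h3 := hx b hbG
    rw [hk, pgl_mk_smul] at h1
    rw [hb, pgl_mk_smul] at h3
    rcases eq_pinf_or_pt x with rfl | ⟨t, rfl⟩
    · rw [gl_smul_pinf_eq_pinf, eB] at h3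
      simp at h3
    · rw [gl_smul_pt_eq_pt, eB] at h3
      rw [gl_smul_pt_eq_pt, eκ] at h1
      simp only [of_apply, cons_val', cons_val_zero, cons_val_one, cons_val_fin_one] at h1 h3
      have ht : t = 0 := by
        apply mul_left_cancel₀ (sub_ne_zero.2 hie)
        linear_combination h1
      rw [ht] at h3
      exact hl (by linear_combination -h3)
  · exact Or.inl (small (Or.inl h.1))
  · exact Or.inl (small (Or.inr (Or.inl ⟨n, h⟩)))
  · exact Or.inl (small (Or.inr (Or.inr h)))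
  · exact Or.inl (small (Or.inr (Or.inr (Or.inr (Or.inr h)))))
  rcases h3.eq_or_lt with h3 | h3
  · have hle : G ≤ (pglEmb L c).range := by
      rcases h with h | h <;> rw [h]
      rintro _ ⟨g, rfl⟩
      exact ⟨_, rfl⟩
    obtain ⟨x, hx⟩ := hle hkG
    obtain ⟨y, hy⟩ := hle hkG'
    refine Or.inl (fin ?_)
    rw [← hy, ← hx]
    simp only [← map_mul]
    exact congrArg _ (pgl_three_comm h3.symm (pglEmb_injective L c (by rw [map_pow, hx, hk4, map_one]))
      (pglEmb_injective L c (by rw [map_pow, hy, hk4', map_one])))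
  obtain ⟨C, rfl⟩ := ProjGenLinGroup.mk_surjective c
  have hE : (!![0, 1; 0, 0] : M2 K) * !![0, 1; 0, 0] = 0 := by
    ext i j
    fin_cases i <;> fin_cases j <;> simp
  refine Or.inr ⟨L, C.1 * !![0, 1; 0, 0] * (C⁻¹).1, h3, fun e => ?_, ?_, fun t ht => ?_⟩
  · have : (!![0, 1; 0, 0] : M2 K) = 0 := by
      rwa [Units.mul_left_eq_zero, Units.mul_right_eq_zero] at e
    simpa using congrFun (congrFun this 0) 1
  · calc _ = C.1 * (!![0, 1; 0, 0] * ((C⁻¹).1 * C.1) * !![0, 1; 0, 0]) * (C⁻¹).1 := by simp only [mul_assoc]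
      _ = 0 := by rw [Units.inv_mul, mul_one, hE, mul_zero, zero_mul]
  have hu : ProjGenLinGroup.mk (C * affGL 1 t * C⁻¹) ∈ G := by
    have h1 : ProjGenLinGroup.mk (C * affGL 1 t * C⁻¹) = pglEmb L (ProjGenLinGroup.mk C) (aff 1 ⟨t, ht⟩) := by
      rw [pglEmb_apply, pgl_map_aff, map_one, map_mul, map_mul, map_inv]
      rfl
    rw [h1]
    rcases h with h | h <;> rw [h]
    · exact ⟨SpecialLinearGroup.transvection (zero_ne_one (α := Fin 2)) (⟨t, ht⟩ : L),
        congrArg (pglEmb L _) (toPGL_transvection_zero_one _)⟩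
    · exact ⟨_, rfl⟩
  obtain ⟨g, hg, e⟩ := hu
  obtain ⟨s, hs⟩ := ProjGenLinGroup.mk_eq_mk_iff.1 e.symm
  letI := Fintype.ofFinite K
  have hpow : ∀ n : ℕ, affGL (1 : Kˣ) t ^ n = affGL 1 (n * t) := fun n => by
    induction n with
    | zero => ext i j; fin_cases i <;> fin_cases j <;> simp [affGL, coe_gl]
    | succ n ih => rw [pow_succ, ih, affGL_mul]; congr 1; exacts [one_mul _, by push_cast; ring]
  have hc : Commute (C * affGL 1 t * C⁻¹) (GeneralLinearGroup.scalar (Fin 2) s) :=
    Subgroup.mem_center_iff.1 (scalars_le_center ⟨s, rfl⟩) _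
  have h1 : g ^ (Fintype.card Kˣ * Fintype.card Kˣ) = C * affGL 1 t * C⁻¹ := by
    rw [← hs, hc.mul_pow, ← map_pow, pow_mul s, pow_card_eq_one, map_one, mul_one, conj_pow, hpow,
      Fintype.card_units, Nat.cast_mul, Nat.cast_sub Fintype.card_pos, FiniteField.cast_card_eq_zero]
    simp
  refine ⟨_, H.pow_mem hg (Fintype.card Kˣ * Fintype.card Kˣ), ?_⟩
  have h4 : (affGL (1 : Kˣ) t).1 = 1 + t • !![0, 1; 0, 0] := by
    ext i j
    fin_cases i <;> fin_cases j <;> simp [affGL, coe_gl]
  rw [h1, Units.val_mul, Units.val_mul, h4, mul_add, add_mul, mul_one, Units.mul_inv, Matrix.mul_smul, Matrix.smul_mul]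

end Two

section Tools

variable {ι : Type} [Fintype ι] [DecidableEq ι] {K : Type u} [Field K]

/-- `1 + T` is a transvection when `T² = 0` and the minors through a non-zero entry vanish. -/
theorem isTv_of_minor {g : GL ι K} {T : Matrix ι ι K} (hg : g.1 = 1 + T) (hT : T * T = 0) {r s : ι} (h0 : T r s ≠ 0)
    (h : ∀ i j, T i s * T r j = T r s * T i j) : IsTv g := by
  refine ⟨fun i => T i s, (T r s)⁻¹ • (LinearMap.proj r ∘ₗ toLin' T), fun e => h0 (congrFun e r), fun e => ?_, ?_,
    fun x => ?_⟩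
  · have := LinearMap.congr_fun e (Pi.single s 1)
    simp [h0] at this
  · have := congrFun (congrFun hT r) s
    simp only [mul_apply, Matrix.zero_apply] at this
    simp [mulVec, dotProduct, this]
  · change g.1 *ᵥ x = _
    rw [hg, add_mulVec, one_mulVec, add_right_inj]
    funext i
    simp only [LinearMap.smul_apply, LinearMap.comp_apply, toLin'_apply, LinearMap.proj_apply, Pi.smul_apply,
      smul_eq_mul, mulVec, dotProduct, Finset.mul_sum, Finset.sum_mul]
    refine Finset.sum_congr rfl fun j _ => ?_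
    field_simp
    linear_combination -x j * h i j

theorem isTv_of_sandwich {g : GL ι K} {T : Matrix ι ι K} (hg : g.1 = 1 + T) (hT : T * T = 0) (h0 : T ≠ 0)
    (h : ∀ X, ∃ c : K, T * X * T = c • T) : IsTv g := by
  obtain ⟨r, s, hrs⟩ : ∃ r s, T r s ≠ 0 := by
    by_contra hn
    push Not at hn
    exact h0 (Matrix.ext hn)
  obtain ⟨c, hc⟩ := h (single s r 1)
  have h1 : ∀ i j, T i s * T r j = c * T i j := fun i j => by
    have := congrFun (congrFun hc i) j
    simpa [mul_apply, single_apply, ite_and] using this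
  refine isTv_of_minor hg hT hrs fun i j => ?_
  rw [h1, mul_right_cancel₀ hrs (h1 r s)]

theorem eq_zero_or_of_sandwich {A B : Matrix ι ι K} (h : ∀ X, A * X * B = 0) : A = 0 ∨ B = 0 := by
  by_contra hn
  push Not at hn
  obtain ⟨i, j, h1⟩ : ∃ i j, A i j ≠ 0 := by
    by_contra h'
    push Not at h'
    exact hn.1 (Matrix.ext h')
  obtain ⟨r, s, h2⟩ : ∃ r s, B r s ≠ 0 := by
    by_contra h'
    push Not at h'
    exact hn.2 (Matrix.ext h')
  have := congrFun (congrFun (h (single j r 1)) i) s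
  simp [mul_apply, single_apply, ite_and, h1, h2] at this

/-- The family of `N` over the field generated by a fourth root of unity. -/
theorem qn_of_pair [Finite K] (h2 : (2 : K) ≠ 0) {G : Subgroup (GL ι K)} {N : Matrix ι ι K} (hN : N * N = 0) {μ : K}
    (hμ : μ * μ = -1) {g g' : GL ι K} (hg : g ∈ G) (hg' : g' ∈ G) (e : g.1 = 1 + N) (e' : g'.1 = 1 + μ • N) :
    ∃ L : Subfield K, 3 < Nat.card L ∧ QN G L N := by
  classical
  have hmul : ∀ a b : K, (1 + a • N) * (1 + b • N) = 1 + (a + b) • N := fun a b => by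
    simp only [mul_add, add_mul, mul_one, one_mul, smul_mul_assoc, mul_smul_comm, hN, smul_zero, add_zero]
    module
  let T : AddSubgroup K :=
    { carrier := {c | ∃ g ∈ G, g.1 = 1 + c • N}
      add_mem' := fun ⟨x, hx, ex⟩ ⟨y, hy, ey⟩ => ⟨x * y, mul_mem hx hy, by rw [Units.val_mul, ex, ey, hmul]⟩
      zero_mem' := ⟨1, one_mem _, by simp⟩
      neg_mem' := fun ⟨x, hx, ex⟩ => ⟨x⁻¹, inv_mem hx, Units.inv_eq_of_mul_eq_one_right (by
        rw [ex, hmul, add_neg_cancel, zero_smul, add_zero])⟩ }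
  let R : Subring K :=
    { carrier := {c | ∃ s t : ℤ, c = s + t * μ}
      mul_mem' := by
        rintro _ _ ⟨s, t, rfl⟩ ⟨s', t', rfl⟩
        exact ⟨s * s' - t * t', s * t' + t * s', by push_cast; linear_combination t * t' * hμ⟩
      one_mem' := ⟨1, 0, by simp⟩
      add_mem' := by
        rintro _ _ ⟨s, t, rfl⟩ ⟨s', t', rfl⟩
        exact ⟨s + s', t + t', by push_cast; ring⟩
      zero_mem' := ⟨0, 0, by simp⟩
      neg_mem' := by
        rintro _ ⟨s, t, rfl⟩
        exact ⟨-s, -t, by push_cast; ring⟩ }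
  letI := Fintype.ofFinite K
  let L : Subfield K :=
    { R with
      inv_mem' := fun x hx => by
        rcases eq_or_ne x 0 with rfl | h0
        · rwa [_root_.inv_zero]
        · have : x⁻¹ = x ^ (Fintype.card K - 2) := inv_eq_of_mul_eq_one_right (by
            rw [← pow_succ', show Fintype.card K - 2 + 1 = Fintype.card K - 1 by
              have := Fintype.one_lt_card (α := K); omega, FiniteField.pow_card_sub_one_eq_one x h0])
          rw [this]
          exact R.pow_mem hx _ }
  refine ⟨L, ?_, hN, ?_⟩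
  · let m : L := ⟨μ, 0, 1, by simp⟩
    have hm : m * m = -1 := Subtype.ext hμ
    have h2' : (2 : L) ≠ 0 := fun e => h2 (congrArg Subtype.val e)
    have h1 : ({0, 1, -1, m} : Finset L).card = 4 := by
      rw [Finset.card_eq_four]
      refine ⟨0, 1, -1, m, zero_ne_one, by simp, fun e => ?_, fun e => h2' (by linear_combination e), fun e => ?_,
        fun e => ?_, rfl⟩ <;> rw [← e] at hm
      · simp at hm
      · exact h2' (by linear_combination hm)
      · exact h2' (by linear_combination hm)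
    have := Finset.card_le_univ ({0, 1, -1, m} : Finset L)
    rw [Nat.card_eq_fintype_card]
    omega
  · rintro _ ⟨s, t, rfl⟩
    have h1 : (1 : K) ∈ T := ⟨g, hg, by rw [e, one_smul]⟩
    have := T.add_mem (T.zsmul_mem h1 s) (T.zsmul_mem (show μ ∈ T from ⟨g', hg', e'⟩) t)
    rwa [zsmul_eq_mul, zsmul_eq_mul, mul_one] at this

end Tools

section Four

variable {K : Type u} [Field K]

theorem sadj_neg (A : Matrix I4 I4 K) : sadj (-A) = -sadj A := by
  simp only [sadj, transpose_neg, mul_neg, neg_mul]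

theorem sadj_zero : sadj (0 : Matrix I4 I4 K) = 0 := by
  simp only [sadj, transpose_zero, mul_zero, zero_mul]

theorem sadj_sadj (A : Matrix I4 I4 K) : sadj (sadj A) = A := by
  ext i j
  rcases i with i | i <;> rcases j with j | j <;> fin_cases i <;> fin_cases j <;>
    simp [sadj, J, mul_apply, Fintype.sum_sum_type, Fin.sum_univ_two]

/-- A self-adjoint matrix supported on an eigenspace of a root is a multiple of the projection. -/
theorem Rt.eq_smul (h2 : (2 : K) ≠ 0) {a : GL I4 K} (ha : Rt a) {σ : K} (hσ : σ * σ = 1) {X : Matrix I4 I4 K}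
    (hX : sadj X = X) (h1 : a.1 * X = σ • X) (h1' : X * a.1 = σ • X) : ∃ c : K, X = c • (1 + σ • a.1) := by
  have h4 : (4 : K) ≠ 0 := by rw [show (4 : K) = 2 * 2 by norm_num]; exact mul_ne_zero h2 h2
  obtain ⟨n, hn⟩ := cliff_of_sadj h2 ha.sadj_eq (Y := X - (X.trace / 4) • 1)
    (by rw [sadj_sub, sadj_smul, sadj_one, hX]) (ha.trace h2) (by simp [h4])
  set d := X.trace / 4
  simp only [mul_sub, sub_mul, h1, h1', Matrix.mul_smul, Matrix.smul_mul, mul_one, one_mul] at hn
  have h3 : (2 * σ) • X = n • (1 : Matrix I4 I4 K) + (2 * d) • a.1 := by linear_combination (norm := module) hn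
  have h5 := congrArg (a.1 * ·) h3
  simp only [mul_add, Matrix.mul_smul, h1, mul_one, ha.sq'] at h5
  have h6 : n = 2 * d * σ := by
    by_contra hne
    refine ha.ns (mem_scalars_of_eq_smul (c := (n - 2 * d * σ)⁻¹ * (σ * n - 2 * d)) ?_)
    rw [mul_smul, eq_inv_smul_iff₀ (sub_ne_zero.2 hne)]
    linear_combination (norm := module) σ • h3 - h5
  refine ⟨d, smul_right_injective _ (mul_ne_zero h2 (left_ne_zero_of_mul_eq_one hσ)) ?_⟩
  simp only
  rw [h3, h6]
  linear_combination (norm := module) -(2 * d) • hσ • a.1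

/-- The decomposition of an element whose square is a root. -/
structure Parts (k : GL I4 K) (ε : K) (P M T : Matrix I4 I4 K) : Prop where
  eps : ε * ε = 1
  val : k.1 = ε • P + T
  inv : (k⁻¹).1 = ε • P - T
  add : P + M = 1
  sq : (k * k).1 = P - M
  PP : P * P = P
  MM : M * M = M
  PM : P * M = 0
  MP : M * P = 0
  PT : P * T = 0
  TP : T * P = 0
  MT : M * T = T
  TM : T * M = T
  TT : T * T = -M
  sP : sadj P = P
  sM : sadj M = M
  sT : sadj T = -T
  M0 : M ≠ 0
  onP : ∀ X, sadj X = X → P * X = X → X * P = X → ∃ c : K, X = c • P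
  onM : ∀ X, sadj X = X → M * X = X → X * M = X → ∃ c : K, X = c • M

theorem exists_parts (h2 : (2 : K) ≠ 0) {k : GL I4 K} (hk : k ∈ spGL 2 K) (ha : Rt (k * k)) :
    ∃ ε P M T, Parts k ε P M T := by
  set A := (k * k).1 with hA
  have hAA : A * A = 1 := ha.sq'
  have hkk : k.1 * k.1 = A := rfl
  have hkA : A * k.1 = k.1 * A := by rw [← hkk, mul_assoc]
  have hsk : sadj k.1 = k.1 * A := by
    rw [← coe_inv_eq_sadj hk]
    exact Units.inv_eq_of_mul_eq_one_right (by rw [← mul_assoc, hkk, hAA])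
  have hsA : sadj A = A := ha.sadj_eq
  obtain ⟨h, hh⟩ : ∃ h : K, 2 * h = 1 := ⟨2⁻¹, mul_inv_cancel₀ h2⟩
  obtain ⟨P, hP⟩ : ∃ P : Matrix I4 I4 K, P = h • (1 + A) := ⟨_, rfl⟩
  obtain ⟨M, hM⟩ : ∃ M : Matrix I4 I4 K, M = h • (1 - A) := ⟨_, rfl⟩
  have add : P + M = 1 := by rw [hP, hM]; linear_combination (norm := module) hh • (1 : Matrix I4 I4 K)
  have sub : A = P - M := by rw [hP, hM]; linear_combination (norm := module) -hh • A
  have AP : A * P = P := by rw [hP, Matrix.mul_smul, mul_add, hAA, mul_one, add_comm]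
  have PA : P * A = P := by rw [hP, Matrix.smul_mul, add_mul, hAA, one_mul, add_comm]
  have AM : A * M = -M := by rw [hM, Matrix.mul_smul, mul_sub, hAA, mul_one, ← smul_neg, neg_sub]
  have MA : M * A = -M := by rw [hM, Matrix.smul_mul, sub_mul, hAA, one_mul, ← smul_neg, neg_sub]
  have PM : P * M = 0 := by rw [hP, Matrix.smul_mul, add_mul, AM, one_mul, add_neg_cancel, smul_zero]
  have MP : M * P = 0 := by rw [hM, Matrix.smul_mul, sub_mul, AP, one_mul, sub_self, smul_zero]
  have PP : P * P = P := by conv_rhs => rw [← mul_one P, ← add, mul_add, PM, add_zero]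
  have MM : M * M = M := by conv_rhs => rw [← mul_one M, ← add, mul_add, MP, zero_add]
  have kP : P * k.1 = k.1 * P := by rw [hP, Matrix.smul_mul, Matrix.mul_smul, add_mul, mul_add, hkA, one_mul, mul_one]
  have kM : M * k.1 = k.1 * M := by rw [hM, Matrix.smul_mul, Matrix.mul_smul, sub_mul, mul_sub, hkA, one_mul, mul_one]
  have sP : sadj P = P := by rw [hP, sadj_smul, sadj_add, sadj_one, hsA]
  have sM : sadj M = M := by rw [hM, sadj_smul, sadj_sub, sadj_one, hsA]
  have onP : ∀ X, sadj X = X → P * X = X → X * P = X → ∃ c : K, X = c • P := fun X h0 h1 h1' => by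
    obtain ⟨c, hc⟩ := ha.eq_smul h2 (one_mul 1) h0 (by rw [one_smul, ← h1, ← mul_assoc, AP])
      (by rw [one_smul, ← h1', mul_assoc, PA])
    exact ⟨2 * c, by rw [hc, hP]; linear_combination (norm := module) -(c • hh • (1 + A))⟩
  have onM : ∀ X, sadj X = X → M * X = X → X * M = X → ∃ c : K, X = c • M := fun X h0 h1 h1' => by
    obtain ⟨c, hc⟩ := ha.eq_smul h2 (σ := -1) (by ring) h0 (by rw [neg_one_smul, ← h1, ← mul_assoc, AM, neg_mul])
      (by rw [neg_one_smul, ← h1', mul_assoc, MA, mul_neg])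
    exact ⟨2 * c, by rw [hc, hM]; linear_combination (norm := module) -(c • hh • (1 - A))⟩
  obtain ⟨ε, hε⟩ := onP (k.1 * P) (by rw [sadj_mul, sP, hsk, ← mul_assoc, kP, mul_assoc, PA])
    (by rw [← mul_assoc, kP, mul_assoc, PP]) (by rw [mul_assoc, PP])
  have P0 : P ≠ 0 := fun e => ha.ns (mem_scalars_of_eq_smul (c := -1) (by
    rw [e, zero_add] at add
    rw [← hA, sub, e, add, zero_sub, neg_one_smul]))
  have eps : ε * ε = 1 := by
    refine smul_left_injective K P0 ?_
    simp only
    rw [mul_smul, ← hε, ← Matrix.mul_smul, ← hε, ← mul_assoc, hkk, AP, one_smul]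
  have val : k.1 = ε • P + k.1 * M := by rw [← hε, ← mul_add, add, mul_one]
  refine ⟨ε, P, M, k.1 * M, eps, val, ?_, add, sub, PP, MM, PM, MP, ?_, ?_, ?_, ?_, ?_, sP, sM, ?_, fun e => ?_,
    onP, onM⟩
  · rw [coe_inv_eq_sadj hk, hsk, sub, mul_sub, hε]
  · rw [← mul_assoc, kP, mul_assoc, PM, mul_zero]
  · rw [mul_assoc, MP, mul_zero]
  · rw [← mul_assoc, kM, mul_assoc, MM]
  · rw [mul_assoc, MM]
  · rw [mul_assoc, ← mul_assoc M, kM, mul_assoc, MM, ← mul_assoc, hkk, AM]
  · rw [sadj_mul, sM, hsk, ← mul_assoc, kM, mul_assoc, MA, mul_neg]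
  · refine ha.ns (mem_scalars_of_eq_smul (c := 1) ?_)
    rw [e, add_zero] at add
    rw [← hA, sub, e, add, sub_zero, one_smul]

namespace Parts

variable {k : GL I4 K} {ε : K} {P M T : Matrix I4 I4 K} (h : Parts k ε P M T)
include h

theorem sadj_q (i : K) : sadj (M - i • T) = M - (-i) • T := by
  rw [sadj_sub, sadj_smul, h.sM, h.sT, smul_neg, neg_smul]

theorem q_ne (h2 : (2 : K) ≠ 0) (i : K) : M - i • T ≠ 0 := fun e => by
  have h1 := h.sadj_q i
  rw [e, sadj_zero] at h1
  exact h.M0 (smul_right_injective _ h2 (by simp only [smul_zero]; linear_combination (norm := module) e - h1))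

theorem val_q {i : K} (hi : i * i = -1) : k.1 * (M - i • T) = i • (M - i • T) := by
  rw [h.val]
  simp only [mul_sub, add_mul, Matrix.mul_smul, Matrix.smul_mul, h.PM, h.PT, h.TM, h.TT]
  linear_combination (norm := module) hi • T

theorem q_sandwich (h2 : (2 : K) ≠ 0) {i : K} (hi : i * i = -1) (X : Matrix I4 I4 K) :
    ∃ c : K, (M - i • T) * X * (M - i • T) = c • (M - i • T) := by
  set q := M - i • T with hq
  set q' := M - (-i) • T with hq'
  have s1 : sadj q = q' := h.sadj_q i
  have s2 : sadj q' = q := by rw [← s1, sadj_sadj]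
  have m1 : ∀ j : K, M * (M - j • T) = M - j • T := fun j => by rw [mul_sub, Matrix.mul_smul, h.MM, h.MT]
  have m2 : ∀ j : K, (M - j • T) * M = M - j • T := fun j => by rw [sub_mul, Matrix.smul_mul, h.MM, h.TM]
  have e1 : q * q = (2 : K) • q := by
    simp only [hq, mul_sub, sub_mul, Matrix.mul_smul, Matrix.smul_mul, h.MM, h.MT, h.TM, h.TT]
    linear_combination (norm := module) -hi • M
  have e2 : q' * q = 0 := by
    simp only [hq, hq', mul_sub, sub_mul, Matrix.mul_smul, Matrix.smul_mul, h.MM, h.MT, h.TM, h.TT]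
    linear_combination (norm := module) hi • M
  obtain ⟨c, hc⟩ := h.onM (q * X * q + q' * sadj X * q')
    (by simp only [sadj_add, sadj_mul, s1, s2, sadj_sadj, mul_assoc, add_comm])
    (by simp only [mul_add, ← mul_assoc, hq, hq', m1]) (by simp only [add_mul, mul_assoc, hq, hq', m2])
  have h3 := congrArg (· * q) hc
  simp only [add_mul, mul_assoc, e1, e2, mul_zero, add_zero, Matrix.mul_smul, Matrix.smul_mul] at h3
  refine ⟨2⁻¹ * c, ?_⟩
  rw [mul_smul, eq_inv_smul_iff₀ h2, mul_assoc, h3, hq, m1]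

/-- A quadratic element inverted by the square of `k` is trivial. -/
theorem nil_eq_zero [Finite K] (h2 : (2 : K) ≠ 0) {i : K} (hi : i * i = -1) {G : Subgroup (GL I4 K)} (hT : ¬ HasTv G)
    (hQ : ∀ (L : Subfield K) N, 3 < Nat.card L → QN G L N → N = 0) (hk : k ∈ G) {g : GL I4 K} (hg : g ∈ G)
    {N : Matrix I4 I4 K} (e : g.1 = 1 + N) (hN : N * N = 0) (hA : (P - M) * N = -(N * (P - M))) (hs : sadj N = -N) :
    N = 0 := by
  have hP : P = 1 - M := eq_sub_of_add_eq h.add
  have MN : M * N = N * P := smul_right_injective _ h2 (by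
    rw [hP] at hA ⊢
    simp only [mul_sub, sub_mul, mul_one, one_mul] at hA ⊢
    linear_combination (norm := module) -hA)
  have PN : P * N = N * M := by
    rw [hP, sub_mul, MN, hP, mul_sub, one_mul, mul_one, sub_sub_cancel]
  have TNT : T * N * T = 0 := by
    calc _ = T * (M * N) * T := by rw [← mul_assoc, h.TM]
      _ = 0 := by rw [MN, mul_assoc, mul_assoc, h.PT, mul_zero, mul_zero]
  have NMN : N * M * N = 0 := by rw [← PN, mul_assoc, hN, mul_zero]
  have e' : (k * g * k⁻¹).1 = 1 + ε • (T * N - N * T) := by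
    rw [Units.val_mul, Units.val_mul, e, mul_add, add_mul, mul_one, Units.mul_inv, h.val, h.inv]
    have a1 : N * M * P = 0 := by rw [mul_assoc, h.MP, mul_zero]
    have a2 : N * M * T = N * T := by rw [mul_assoc, h.MT]
    have a3 : T * N * P = T * N := by rw [mul_assoc, ← MN, ← mul_assoc, h.TM]
    simp only [mul_sub, add_mul, Matrix.mul_smul, Matrix.smul_mul, PN, a1, a2, a3, TNT]
    module
  have hg' : k * g * k⁻¹ ∈ G := mul_mem (mul_mem hk hg) (inv_mem hk)
  have hN1 : ∀ X, N * (N * X) = 0 := fun X => by rw [← mul_assoc, hN, zero_mul]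
  have hT1 : ∀ X, T * (N * (T * X)) = 0 := fun X => by rw [← mul_assoc, ← mul_assoc, TNT, zero_mul]
  have hT2 : T * (N * T) = 0 := by rw [← mul_assoc, TNT]
  by_cases hU : N * T * N = 0
  · have h1 : N * (M - i • T) * N = 0 := by
      rw [mul_sub, sub_mul, Matrix.mul_smul, Matrix.smul_mul, NMN, hU, smul_zero, sub_zero]
    have h3 : N * (M - i • T) = 0 ∨ (M - i • T) * N = 0 := eq_zero_or_of_sandwich fun X => by
      obtain ⟨c, hc⟩ := h.q_sandwich h2 hi X
      calc _ = N * ((M - i • T) * X * (M - i • T)) * N := by simp only [mul_assoc]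
        _ = 0 := by rw [hc, Matrix.mul_smul, Matrix.smul_mul, h1, smul_zero]
    have h4 : M * N + N * M = N := by rw [MN, ← mul_add, h.add, mul_one]
    have key : ∀ μ : K, μ * μ = -1 → T * N - N * T = μ • N → N = 0 := fun μ hμ hμ' => by
      obtain ⟨L, hL, hL'⟩ := qn_of_pair h2 hN (μ := ε * μ) (by linear_combination μ * μ * h.eps + hμ) hg hg' e
        (by rw [e', hμ', mul_smul])
      exact hQ L N hL hL'
    rcases h3 with h3 | h3
    · have h5 := congrArg sadj h3
      rw [sadj_mul, h.sadj_q, hs, sadj_zero] at h5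
      simp only [mul_sub, sub_mul, mul_neg, Matrix.mul_smul, Matrix.smul_mul] at h3 h5
      exact key i hi (by linear_combination (norm := module) i • h5 - i • h3 + i • h4 + hi • (T * N - N * T))
    · have h5 := congrArg sadj h3
      rw [sadj_mul, h.sadj_q, hs, sadj_zero] at h5
      simp only [mul_sub, sub_mul, neg_mul, Matrix.mul_smul, Matrix.smul_mul] at h3 h5
      exact key (-i) (by linear_combination hi)
        (by linear_combination (norm := module) i • h3 - i • h5 - i • h4 + hi • (T * N - N * T))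
  exfalso
  have hε : ε ≠ 0 := left_ne_zero_of_mul_eq_one h.eps
  refine hT ⟨g * (k * g * k⁻¹) * (k * g * k⁻¹ * g)⁻¹, mul_mem (mul_mem hg hg') (inv_mem (mul_mem hg' hg)),
    isTv_of_sandwich (T := (2 * ε) • (N * T * N)) ?_ ?_ (smul_ne_zero (mul_ne_zero h2 hε) hU) fun X => ?_⟩
  · rw [Units.val_mul, Units.mul_inv_eq_iff_eq_mul, Units.val_mul, Units.val_mul _ g, e', e]
    simp only [mul_add, add_mul, mul_sub, sub_mul, Matrix.mul_smul, Matrix.smul_mul, mul_one, one_mul, mul_assoc, hN,
      hN1, hT1, hT2, mul_zero]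
    module
  · simp only [Matrix.mul_smul, Matrix.smul_mul, mul_assoc, hN1, mul_zero, smul_zero]
  · set U := N * T * N with hUd
    have PU : P * U = U := by rw [hUd, ← mul_assoc, ← mul_assoc, PN, mul_assoc N, h.MT]
    have UP : U * P = U := by rw [hUd, mul_assoc, ← MN, ← mul_assoc, mul_assoc N, h.TM]
    have UU : U * U = 0 := by simp only [hUd, mul_assoc, hN1, mul_zero]
    have sU : sadj U = -U := by simp only [hUd, sadj_mul, hs, h.sT, mul_neg, neg_mul, neg_neg, mul_assoc]
    obtain ⟨c, hc⟩ := h.onP (U * X * P - P * sadj X * U)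
      (by simp only [sadj_sub, sadj_mul, sU, h.sP, sadj_sadj, mul_assoc, mul_neg, neg_mul]; abel)
      (by simp only [mul_sub, ← mul_assoc, PU, h.PP]) (by simp only [sub_mul, mul_assoc, UP, h.PP])
    have h3 := congrArg (· * U) hc
    simp only [sub_mul, mul_assoc, PU, UU, mul_zero, sub_zero, Matrix.smul_mul] at h3
    exact ⟨2 * ε * c, by simp only [Matrix.mul_smul, Matrix.smul_mul, mul_assoc, h3]; module⟩

end Parts

/-- Two vectors as the columns of a matrix. -/
def cols (y z : I4 → K) : Matrix I4 (Fin 2) K := of fun r c => ![y, z] c r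

theorem mul_cols {A : Matrix I4 I4 K} {y z : I4 → K} {a b c d : K} (hy : A *ᵥ y = a • y + c • z)
    (hz : A *ᵥ z = b • y + d • z) : A * cols y z = cols y z * !![a, b; c, d] := by
  ext r s
  fin_cases s
  · have := congrFun hy r
    simp only [mulVec, dotProduct, Pi.add_apply, Pi.smul_apply, smul_eq_mul] at this
    simp [cols, mul_apply, this, mul_comm]
  · have := congrFun hz r
    simp only [mulVec, dotProduct, Pi.add_apply, Pi.smul_apply, smul_eq_mul] at this
    simp [cols, mul_apply, this, mul_comm]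

theorem cols_mulVec (y z : I4 → K) (v : Fin 2 → K) : cols y z *ᵥ v = v 0 • y + v 1 • z := by
  funext r
  simp [cols, mulVec, dotProduct, mul_comm]

/-- The product of a root that is a square with another root has order dividing eight. -/
theorem root_mul_pow [Finite K] (h2 : (2 : K) ≠ 0) {i : K} (hi : i * i = -1) {G : Subgroup (GL I4 K)}
    (hG : G ≤ spGL 2 K) (hT : ¬ HasTv G) (hQ : ∀ (L : Subfield K) N, 3 < Nat.card L → QN G L N → N = 0)
    {k b : GL I4 K} (hk : k ∈ G) (hbG : b ∈ G) (ha : Rt (k * k)) (hb : Rt b) : (k * k * b) ^ 8 = 1 := by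
  obtain ⟨ε, P, M, T, h⟩ := exists_parts h2 (hG hk) ha
  obtain ⟨n, hn⟩ := ha.cliff h2 hb
  obtain ⟨l, rfl⟩ : ∃ l, n = 2 * l := ⟨2⁻¹ * n, by rw [← mul_assoc, mul_inv_cancel₀ h2, one_mul]⟩
  set A := (k * k).1 with hA
  set B := b.1 with hB
  have hAA : A * A = 1 := ha.sq'
  have hBB : B * B = 1 := hb.sq'
  have hBA : B * A = (2 * l) • 1 - A * B := eq_sub_of_add_eq' hn
  have hx : A * B * (A * B) = (2 * l) • (A * B) - 1 := by
    rw [mul_assoc, ← mul_assoc B, hBA, sub_mul, mul_sub, mul_assoc A B, hBB, mul_one, hAA, Matrix.smul_mul, one_mul,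
      Matrix.mul_smul]
  have hx8 : ((k * k * b) ^ 8).1 = A * B * (A * B) * (A * B * (A * B)) * (A * B * (A * B) * (A * B * (A * B))) := by
    rw [Units.val_pow_eq_pow_val, show (k * k * b).1 = A * B from rfl]
    simp only [pow_succ, pow_zero, one_mul, mul_assoc]
  have hx4 : A * B * (A * B) * (A * B * (A * B)) = (4 * (l * (2 * l * l - 1))) • (A * B) + (1 - 4 * (l * l)) • 1 := by
    rw [hx]
    simp only [mul_sub, sub_mul, Matrix.mul_smul, Matrix.smul_mul, mul_one, one_mul, hx]
    module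
  by_cases hl : l * l = 1
  · have h0 : (2 * l) • (A * B) - (2 : K) • 1 = 0 := by
      refine h.nil_eq_zero h2 hi hT hQ hk (g := k * k * b * (k * k * b))
        (mul_mem (mul_mem (mul_mem hk hk) hbG) (mul_mem (mul_mem hk hk) hbG)) ?_ ?_ ?_ ?_
      · change A * B * (A * B) = _
        rw [hx]
        module
      · simp only [mul_sub, sub_mul, Matrix.mul_smul, Matrix.smul_mul, mul_one, one_mul, hx]
        linear_combination (norm := module) (8 * l) • hl • (A * B) - (4 : K) • hl • (1 : Matrix I4 I4 K)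
      · rw [← h.sq, ← hA]
        simp only [mul_sub, sub_mul, Matrix.mul_smul, Matrix.smul_mul, mul_one, one_mul, mul_assoc A B A, hBA,
          ← mul_assoc A A, hAA]
        linear_combination (norm := module) (4 : K) • hl • A
      · rw [sadj_sub, sadj_smul, sadj_smul, sadj_mul, sadj_one, ha.sadj_eq, hb.sadj_eq, ← hA, ← hB, hBA]
        linear_combination (norm := module) (4 : K) • hl • (1 : Matrix I4 I4 K)
    have h1 : A * B * (A * B) = 1 := by rw [hx]; linear_combination (norm := module) h0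
    exact Units.ext (by rw [hx8, h1, one_mul, one_mul, Units.val_one])
  have hi0 : i ≠ 0 := fun e => by simp [e] at hi
  have vec : ∀ j : K, j * j = -1 → ∃ y z : I4 → K, y ≠ 0 ∧ k.1 *ᵥ y = j • y ∧ A *ᵥ y = -y ∧ z = B *ᵥ y + l • y ∧
      A *ᵥ z = z ∧ k.1 * cols y z = cols y z * !![j, 0; 0, ε] ∧ B * cols y z = cols y z * !![-l, 1 - l * l; 1, l] := by
    intro j hj
    obtain ⟨v, hv⟩ : ∃ v, (M - j • T) *ᵥ v ≠ 0 := by
      by_contra hn
      push Not at hn
      exact h.q_ne h2 j (matrix_ext_mulVec fun v => by rw [hn, zero_mulVec])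
    have h1 : k.1 *ᵥ (M - j • T) *ᵥ v = j • (M - j • T) *ᵥ v := by rw [mulVec_mulVec, h.val_q hj, smul_mulVec]
    set y := (M - j • T) *ᵥ v
    have h3 : A *ᵥ y = -y := by
      rw [hA, Units.val_mul, ← mulVec_mulVec, h1, mulVec_smul, h1, smul_smul, hj, neg_one_smul]
    have h4 : A *ᵥ (B *ᵥ y + l • y) = B *ᵥ y + l • y := by
      rw [mulVec_add, mulVec_smul, mulVec_mulVec, eq_sub_of_add_eq hn, sub_mulVec, ← mulVec_mulVec, h3, smul_mulVec,
        one_mulVec, mulVec_neg]
      module
    refine ⟨y, _, hv, h1, h3, rfl, h4, mul_cols (by rw [h1]; module) ?_, mul_cols (by module) ?_⟩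
    · set z := B *ᵥ y + l • y
      have h5 : P *ᵥ z = z := smul_right_injective _ h2 (by
        have h6 := congrArg (· *ᵥ z) h.add
        rw [hA, h.sq, sub_mulVec] at h4
        simp only [add_mulVec, one_mulVec] at h6 ⊢
        linear_combination (norm := module) h4 + h6)
      rw [← h5, mulVec_mulVec, h.val, add_mul, h.TP, Matrix.smul_mul, h.PP, add_zero, smul_mulVec]
      module
    · rw [mulVec_add, mulVec_mulVec, hBB, one_mulVec, mulVec_smul]
      module
  obtain ⟨y, z, y0, ky, Ay, hz, Az, kW, BW⟩ := vec i hi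
  obtain ⟨y', z', y0', ky', Ay', hz', Az', kW', BW'⟩ := vec (-i) (by linear_combination hi)
  set W := cols y z with hW
  set W' := cols y' z' with hW'
  have ind : ∀ s t : K, s • y + t • y' = 0 → s = 0 ∧ t = 0 := fun s t e => by
    have e1 := congrArg (k.1 *ᵥ ·) e
    simp only [mulVec_add, mulVec_smul, ky, ky', mulVec_zero] at e1
    have e2 : (2 * i * s) • y = 0 := by linear_combination (norm := module) e1 + i • e
    have e3 : (2 * i * t) • y' = 0 := by linear_combination (norm := module) i • e - e1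
    exact ⟨by simpa [h2, hi0, y0] using e2, by simpa [h2, hi0, y0'] using e3⟩
  obtain ⟨C, hC⟩ : IsUnit (fromCols W W') := by
    rw [← mulVec_injective_iff_isUnit]
    refine (injective_iff_map_eq_zero (fromCols W W').mulVecLin).2 fun v hv => ?_
    rw [mulVecLin_apply, fromCols_mulVec, hW, hW', cols_mulVec, cols_mulVec] at hv
    have e1 := congrArg (A *ᵥ ·) hv
    simp only [mulVec_add, mulVec_smul, Ay, Ay', Az, Az', mulVec_zero, Function.comp_apply] at e1 hv
    obtain ⟨a1, a2⟩ := ind (2 * v (.inl 0)) (2 * v (.inr 0)) (by linear_combination (norm := module) hv - e1)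
    have e2 : B *ᵥ (v (.inl 1) • y + v (.inr 1) • y') = -l • (v (.inl 1) • y + v (.inr 1) • y') :=
      smul_right_injective _ h2 (by
        simp only [mulVec_add, mulVec_smul]
        linear_combination (norm := module) hv + e1 - (2 * v (.inl 1)) • hz - (2 * v (.inr 1)) • hz')
    have e3 : B *ᵥ _ = B *ᵥ _ := congrArg (B *ᵥ ·) e2
    rw [mulVec_mulVec, hBB, one_mulVec, mulVec_smul, e2] at e3
    obtain ⟨a3, a4⟩ := ind ((1 - l * l) * v (.inl 1)) ((1 - l * l) * v (.inr 1))
      (by linear_combination (norm := module) e3)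
    have hl' : 1 - l * l ≠ 0 := sub_ne_zero.2 (Ne.symm hl)
    funext r
    rcases r with r | r <;> fin_cases r
    exacts [by simpa [h2] using a1, by simpa [hl'] using a3, by simpa [h2] using a2, by simpa [hl'] using a4]
  let d : Matrix (Fin 2) (Fin 2) K := !![1, 0; 0, 1 - l * l]
  let H : Subgroup (GL (Fin 2) K) :=
    { carrier := {u | ∃ g ∈ G, ∃ u' : GL (Fin 2) K, g.1 * W = W * u.1 ∧ g.1 * W' = W' * u'.1 ∧ u.1ᵀ * d * u'.1 = d}
      one_mem' := ⟨1, one_mem _, 1, by simp, by simp, by simp⟩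
      mul_mem' := fun {u v} ⟨g, hg, u', e1, e2, e3⟩ ⟨g', hg', v', f1, f2, f3⟩ =>
        ⟨g * g', mul_mem hg hg', u' * v',
          by rw [Units.val_mul, Matrix.mul_assoc, f1, ← Matrix.mul_assoc, e1, Units.val_mul, Matrix.mul_assoc],
          by rw [Units.val_mul, Matrix.mul_assoc, f2, ← Matrix.mul_assoc, e2, Units.val_mul, Matrix.mul_assoc], by
            rw [Units.val_mul, Units.val_mul, transpose_mul]
            calc _ = v.1ᵀ * (u.1ᵀ * d * u'.1) * v'.1 := by simp only [mul_assoc]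
              _ = d := by rw [e3, f3]⟩
      inv_mem' := fun {u} ⟨g, hg, u', e1, e2, e3⟩ => by
        have key : ∀ (X : Matrix I4 (Fin 2) K) (w : GL (Fin 2) K), g.1 * X = X * w.1 → (g⁻¹).1 * X = X * (w⁻¹).1 :=
          fun X w e => by
            calc _ = (g⁻¹).1 * (X * w.1) * (w⁻¹).1 := by
                  rw [Matrix.mul_assoc, Matrix.mul_assoc, Units.mul_inv, Matrix.mul_one]
              _ = _ := by rw [← e, ← Matrix.mul_assoc, Units.inv_mul, Matrix.one_mul]
        refine ⟨g⁻¹, inv_mem hg, u'⁻¹, key _ _ e1, key _ _ e2, ?_⟩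
        calc _ = (u.1 * (u⁻¹).1)ᵀ * d * (u'.1 * (u'⁻¹).1) := by
              conv_lhs => rw [← e3]
              simp only [transpose_mul, mul_assoc]
          _ = d := by rw [Units.mul_inv, Units.mul_inv, transpose_one, one_mul, mul_one] }
  have hε0 : ε ≠ 0 := left_ne_zero_of_mul_eq_one h.eps
  have hdet : -l * l - (1 - l * l) * 1 ≠ 0 := by ring_nf; simp
  rcases refl_two h2 H (κ := CL.SL2.gl i 0 0 ε (by simp [hi0, hε0])) (B := CL.SL2.gl (-l) (1 - l * l) 1 l hdet)
    ⟨k, hk, CL.SL2.gl (-i) 0 0 ε (by simp [hi0, hε0]), kW, kW', by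
      ext r s
      fin_cases r <;> fin_cases s <;> simp [d, CL.SL2.coe_gl, mul_apply, hi]
      linear_combination (1 - l * l) * h.eps⟩
    ⟨b, hbG, CL.SL2.gl (-l) (1 - l * l) 1 l hdet, BW, BW', by
      ext r s
      fin_cases r <;> fin_cases s <;> simp [d, CL.SL2.coe_gl, mul_apply] <;> ring⟩ hi h.eps hl rfl rfl with
    h0 | ⟨L, E, hL, E0, hE, hH⟩
  · refine Units.ext ?_
    rw [hx8, hx4, h0, mul_zero, zero_smul, zero_add, Matrix.smul_mul, one_mul, smul_smul, Units.val_one]
    linear_combination (norm := module) (8 * l) • h0 • (1 : Matrix I4 I4 K)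
  exfalso
  have hl' : 1 - l * l ≠ 0 := sub_ne_zero.2 (Ne.symm hl)
  let d' : Matrix (Fin 2) (Fin 2) K := !![1, 0; 0, (1 - l * l)⁻¹]
  have hd : d' * d = 1 := by
    ext r s
    fin_cases r <;> fin_cases s <;> simp [d, d', mul_apply, hl']
  have hd' : d * d' = 1 := mul_eq_one_comm.1 hd
  have hEt : Eᵀ * Eᵀ = 0 := by rw [← transpose_mul, hE, transpose_zero]
  have h0 := hQ L (C.1 * fromBlocks E 0 0 (-(d' * Eᵀ * d)) * (C⁻¹).1) hL ⟨?_, fun t ht => ?_⟩
  · rw [Units.mul_left_eq_zero, Units.mul_right_eq_zero, ← fromBlocks_zero, fromBlocks_inj] at h0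
    exact E0 h0.1
  · have h1 : d' * Eᵀ * d * (d' * Eᵀ * d) = 0 := by
      calc _ = d' * (Eᵀ * (d * d') * Eᵀ) * d := by simp only [mul_assoc]
        _ = 0 := by rw [hd', mul_one, hEt, mul_zero, zero_mul]
    calc _ = C.1 * (fromBlocks E 0 0 (-(d' * Eᵀ * d)) * ((C⁻¹).1 * C.1) * fromBlocks E 0 0 (-(d' * Eᵀ * d))) *
          (C⁻¹).1 := by simp only [mul_assoc]
      _ = 0 := by rw [Units.inv_mul, mul_one, fromBlocks_multiply]; simp [hE, h1]
  obtain ⟨u, ⟨g, hg, u', e1, e2, e3⟩, hu⟩ := hH t ht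
  have h1 : u'.1 = 1 + t • -(d' * Eᵀ * d) := by
    have h3 : (1 - t • Eᵀ) * u.1ᵀ = 1 := by
      rw [hu, transpose_add, transpose_one, transpose_smul]
      simp only [mul_add, sub_mul, Matrix.mul_smul, Matrix.smul_mul, mul_one, one_mul, hEt]
      module
    calc u'.1 = d' * ((1 - t • Eᵀ) * (u.1ᵀ * d * u'.1)) := by
          rw [mul_assoc u.1ᵀ, ← mul_assoc _ u.1ᵀ, h3, one_mul, ← mul_assoc, hd, one_mul]
      _ = _ := by
          rw [e3, sub_mul, mul_sub, one_mul, hd, Matrix.smul_mul, Matrix.mul_smul, mul_assoc, smul_neg, sub_eq_add_neg]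
  refine ⟨g, hg, ?_⟩
  have h3 : g.1 * C.1 = C.1 * (1 + t • fromBlocks E 0 0 (-(d' * Eᵀ * d))) := by
    rw [hC, mul_fromCols, e1, e2, hu, h1, ← fromBlocks_one, fromBlocks_smul, fromBlocks_add, fromCols_mul_fromBlocks]
    simp
  rw [← Units.mul_inv_cancel_right g.1 C, h3, mul_add, add_mul, mul_one, Units.mul_inv, Matrix.mul_smul,
    Matrix.smul_mul]

end Four

section BaseChange

variable {ι : Type} [Fintype ι] [DecidableEq ι] {F : Type u} [Field F] {K : Type u} [Field K] (f : F →+* K)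

theorem glmap_injective : Function.Injective (GeneralLinearGroup.map (n := ι) f) := fun _ _ h =>
  Units.ext (Matrix.map_injective f.injective (congrArg Units.val h))

theorem mem_scalars_of_map {g : GL ι F} (h : GeneralLinearGroup.map f g ∈ scalars ι K) : g ∈ scalars ι F := by
  obtain ⟨c, hc⟩ := mem_scalars_iff'.1 h
  refine mem_scalars_iff'.2 (scalar_of_comm_all fun y => Matrix.map_injective f.injective ?_)
  have : g.1.map f = c • (1 : Matrix ι ι K) := hc
  simp only [Matrix.map_mul, this, Matrix.mul_smul, Matrix.smul_mul, mul_one, one_mul]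

theorem IsTv.of_map {g : GL ι F} (h : IsTv (GeneralLinearGroup.map f g)) : IsTv g := by
  obtain ⟨v, φ, hv, hφ, h0, hx⟩ := h
  have h1 : ∀ i j, f ((g.1 - 1) i j) = φ (Pi.single j 1) * v i := fun i j => by
    have := congrFun (hx (Pi.single j 1)) i
    change (g.1.map f *ᵥ Pi.single j 1) i = _ at this
    rw [mulVec_single_one] at this
    simp only [col_apply, map_apply, Pi.add_apply, Pi.smul_apply, smul_eq_mul] at this
    rw [Matrix.sub_apply, map_sub, this, Matrix.one_apply, Pi.single_apply]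
    split_ifs <;> simp
  obtain ⟨r, hr⟩ := Function.ne_iff.1 hv
  obtain ⟨s, hs⟩ : ∃ s, φ (Pi.single s 1) ≠ 0 := by
    by_contra hn
    push Not at hn
    exact hφ (LinearMap.pi_ext' fun s => LinearMap.ext_ring (by simpa using hn s))
  refine isTv_of_minor (T := g.1 - 1) (r := r) (s := s) (by abel) ?_ (fun e => ?_) fun i j => f.injective ?_
  · ext i j
    apply f.injective
    have h2 : ∑ l, v l * φ (Pi.single l 1) = 0 := by
      rw [← h0]
      conv_rhs => rw [pi_eq_sum_univ' v, map_sum]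
      simp
    rw [mul_apply, map_sum, Matrix.zero_apply, map_zero]
    simp only [map_mul, h1]
    rw [← mul_zero (v i * φ (Pi.single j 1)), ← h2, Finset.mul_sum]
    exact Finset.sum_congr rfl fun l _ => by ring
  · have := h1 r s
    rw [e, map_zero] at this
    exact mul_ne_zero hs hr this.symm
  · simp only [map_mul, h1]
    ring

theorem map_mem_spGL {m : ℕ} {g : GL (Fin m ⊕ Fin m) F} (h : g ∈ spGL m F) :
    GeneralLinearGroup.map f g ∈ spGL m K := by
  rw [CL.Sp.mem_spGL_iff_mem_symplecticGroup, SymplecticGroup.mem_iff] at h ⊢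
  change g.1.map f * _ * (g.1.map f)ᵀ = _
  rw [← map_J _ f, ← transpose_map, ← Matrix.map_mul, ← Matrix.map_mul, h]

theorem scalar_of_comm_map {P : Subgroup (GL ι F)} (hP : spanAlg P = ⊤) {D : Matrix ι ι K}
    (hD : ∀ g ∈ P, D * g.1.map f = g.1.map f * D) : ∃ c : K, D = c • (1 : Matrix ι ι K) := by
  have h1 : ∀ y : Matrix ι ι F, D * y.map f = y.map f * D := fun y => by
    refine spanAlg_induction (L := P) (p := fun y => D * y.map f = y.map f * D) hD (by simp) (fun a b ha hb => ?_)
      (fun c a ha => ?_) (hP ▸ Algebra.mem_top)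
    · rw [Matrix.map_add _ (map_add f), mul_add, add_mul, ha, hb]
    · rw [map_smul' _ _ _ (map_mul f), Matrix.mul_smul, Matrix.smul_mul, ha]
  refine scalar_of_comm_all fun y => ?_
  induction y using Matrix.induction_on' with
  | h_zero => simp
  | h_add a b ha hb => rw [mul_add, add_mul, ha, hb]
  | h_std_basis i j c =>
    have h2 : single i j c = c • (single i j (1 : F)).map f := by
      rw [map_single _ _ _ f, map_one, smul_single, smul_eq_mul, mul_one]
    rw [h2, Matrix.mul_smul, Matrix.smul_mul, h1]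

/-- Over every finite extension a quasisimple group without transvections has no quadratic family. -/
theorem QS.qn_map_eq_zero (hQ : Sp4Q.{u}) [Finite F] [Finite K] {P : Subgroup (GL I4 F)} (h2 : (2 : K) ≠ 0)
    (hP : P ≤ spGL 2 F) (h : QS P) (hT : ¬ HasTv P) (L : Subfield K) (N : Matrix I4 I4 K) (hL : 3 < Nat.card L)
    (hN : QN (P.map (GeneralLinearGroup.map f)) L N) : N = 0 := by
  obtain ⟨D, hD, hD'⟩ := hQ K (P.map (GeneralLinearGroup.map f)) L h2
    (by rintro _ ⟨g, hg, rfl⟩; exact map_mem_spGL f (hP hg))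
    (by rintro ⟨_, ⟨g, hg, rfl⟩, ht⟩; exact hT ⟨g, hg, ht.of_map f⟩) hL
  by_contra h0
  obtain ⟨_, ⟨x, hx, rfl⟩, e⟩ := hN.2 1 L.one_mem
  rw [one_smul] at e
  set φ := GeneralLinearGroup.map (n := I4) f with hφ
  have hle := h.le_closure (S := {g | QN (P.map φ) L ((φ g).1 - 1)}) (fun g hg y hy => ?_) (x := x)
    (by rwa [Set.mem_ofPred_eq, e, add_sub_cancel_left]) hx (fun hs => h0 ?_)
  · obtain ⟨c, hc⟩ := scalar_of_comm_map f h.span (D := D) fun g hg => by
      change Commute D (φ g).1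
      have h1 := hle hg
      clear hg
      induction h1 using Subgroup.closure_induction with
      | mem y hy => simpa using Commute.add_right (show Commute D _ from hD' _ hy) (Commute.one_right D)
      | one => simp
      | mul y z _ _ hy hz => rw [map_mul]; exact hy.mul_right hz
      | inv y _ hy => rw [map_inv]; exact hy.units_inv_right
    exact hD c hc
  · have h1 : (φ (g * y * g⁻¹)).1 - 1 = (φ g).1 * ((φ y).1 - 1) * ((φ g)⁻¹).1 := by
      rw [map_mul, map_mul, map_inv, mul_sub, sub_mul, mul_one, Units.mul_inv]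
      rfl
    rw [Set.mem_ofPred_eq, h1]
    refine ⟨?_, fun c hc => ?_⟩
    · calc _ = (φ g).1 * (((φ y).1 - 1) * (((φ g)⁻¹).1 * (φ g).1) * ((φ y).1 - 1)) * ((φ g)⁻¹).1 := by
            simp only [mul_assoc]
        _ = 0 := by rw [Units.inv_mul, mul_one, hy.1, mul_zero, zero_mul]
    · obtain ⟨z, hz, ez⟩ := hy.2 c hc
      refine ⟨φ g * z * (φ g)⁻¹, mul_mem (mul_mem ⟨g, hg, rfl⟩ hz) (inv_mem ⟨g, hg, rfl⟩), ?_⟩
      rw [Units.val_mul, Units.val_mul, ez, mul_add, add_mul, mul_one, Units.mul_inv, Matrix.mul_smul, Matrix.smul_mul]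
  · obtain ⟨c, hc⟩ := mem_scalars_iff'.1 hs
    have h1 : N = (f c - 1) • 1 := by
      have : (φ x).1 = x.1.map f := rfl
      rw [sub_smul, one_smul, eq_sub_iff_add_eq', ← e, this, hc, map_smul' _ _ _ (map_mul f),
        Matrix.map_one _ (map_zero f) (map_one f)]
    have h3 := hN.1
    rw [h1, Matrix.smul_mul, one_mul, smul_smul, smul_eq_zero_iff_left one_ne_zero, mul_self_eq_zero] at h3
    rw [h1, h3, zero_smul]

end BaseChange

open Polynomial in
theorem sp4SqA (hQ : Sp4Q.{u}) : Sp4SqA.{u} := by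
  intro F _ _ P h2 hP h hT k hk hk4
  by_contra hns
  rw [pow_two] at hns
  let K := (X ^ 2 + 1 : F[X]).SplittingField
  haveI : Finite K := Module.finite_of_finite F
  obtain ⟨i, hi⟩ : ∃ i : K, i * i = -1 := by
    obtain ⟨i, hi⟩ := (SplittingField.splits (X ^ 2 + 1 : F[X])).exists_eval_eq_zero (by
      rw [degree_map, ← C_1, degree_X_pow_add_C two_pos]
      simp)
    refine ⟨i, ?_⟩
    simp only [Polynomial.map_add, Polynomial.map_pow, map_X, Polynomial.map_one, eval_add, eval_pow, eval_X,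
      eval_one] at hi
    linear_combination hi
  let f := algebraMap F K
  let φ := GeneralLinearGroup.map (n := I4) f
  have h2' : (2 : K) ≠ 0 := fun e => h2 (f.injective (by rw [map_ofNat, e, map_zero]))
  have hkk : k * k * (k * k) = 1 := by rw [← hk4]; simp only [pow_succ, pow_zero, one_mul, mul_assoc]
  have ha : Rt (φ k * φ k) := ⟨by rw [← map_mul]; exact map_mem_spGL f (hP (mul_mem hk hk)),
    by rw [← map_mul, ← map_mul, hkk, map_one], fun e => hns (mem_scalars_of_map f (by rwa [map_mul]))⟩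
  have key : ∀ g ∈ P, (k * k * (g * (k * k) * g⁻¹)) ^ 8 = 1 := fun g hg => glmap_injective f (by
    have hg' : φ g ∈ P.map φ := ⟨g, hg, rfl⟩
    have hk' : φ k ∈ P.map φ := ⟨k, hk, rfl⟩
    simpa only [map_pow, map_mul, map_inv, map_one] using root_mul_pow h2' hi (G := P.map φ)
      (by rintro _ ⟨g, hg, rfl⟩; exact map_mem_spGL f (hP hg))
      (by rintro ⟨_, ⟨g, hg, rfl⟩, ht⟩; exact hT ⟨g, hg, ht.of_map f⟩) (h.qn_map_eq_zero f hQ h2' hP hT) hk'
      (mul_mem (mul_mem hg' (mul_mem hk' hk')) (inv_mem hg')) ha (ha.conj (map_mem_spGL f (hP hg))))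
  haveI := h.simple
  let t : PQ P := (⟨k * k, mul_mem hk hk⟩ : P)
  have ht : t * t = 1 := congrArg (QuotientGroup.mk (s := (scalars I4 F).subgroupOf P))
    (Subtype.ext hkk : (⟨k * k, mul_mem hk hk⟩ * ⟨k * k, mul_mem hk hk⟩ : P) = 1)
  have h1 : IsPGroup 2 (Subgroup.normalClosure ({t} : Set (PQ P))) := CL.Inv.baerSuzuki_elt_normalClosure t fun g =>
    CL.Inv.isPGroup_closure_pair_of_invol ht (by rw [conj_mul, ht, mul_one, mul_inv_cancel]) ⟨3, by
      obtain ⟨g, rfl⟩ := QuotientGroup.mk_surjective g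
      exact congrArg (QuotientGroup.mk (s := (scalars I4 F).subgroupOf P))
        (Subtype.ext (key g g.2) : (⟨k * k, mul_mem hk hk⟩ * (g * ⟨k * k, mul_mem hk hk⟩ * g⁻¹) : P) ^ 8 = 1)⟩
  rcases (inferInstance : (Subgroup.normalClosure ({t} : Set (PQ P))).Normal).eq_bot_or_eq_top with e | e
  · have : t ∈ Subgroup.normalClosure ({t} : Set (PQ P)) := Subgroup.subset_normalClosure rfl
    rw [e, Subgroup.mem_bot] at this
    exact hns (mk_eq_one_iff.1 this)
  · rw [e] at h1
    haveI := (h1.of_equiv Subgroup.topEquiv).isNilpotent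
    exact h.nonabelian ⟨⟨IsSimpleGroup.comm_iff_isSolvable.2 inferInstance⟩⟩

end CL.Low
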