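/-
Project LOWDIM: simple irreducible subgroups of `Sp₄(q)`, `q` even, containing a transvection.
-/
import Cfsg.Agent.Low.SpTv
import Cfsg.Agent.Inv.ZStar
import Cfsg.Agent.Transfer.Control
import Cfsg.Agent.Cls.ProdCyc

set_option autoImplicit false

namespace CL.Low

open Module CL.Sp

universe u

section Two

variable {F V : Type u} [Field F] [CharP F 2] [AddCommGroup V] [Module F V] {B : LinearMap.BilinForm F V}
  {M : Subgroup (V ≃ₗ[F] V)}

theorem two_eq_zero' : (2 : F) = 0 := CharTwo.two_eq_zero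

theorem symm_two (hB : B.IsAlt) (x y : V) : B x y = B y x := by rw [alt_neg hB, CharTwo.neg_eq]

theorem tv_sq (hB : B.IsAlt) (v : V) : tv hB v 1 * tv hB v 1 = 1 := by rw [tv_mul, CharTwo.add_self_eq_zero, tv_zero]

theorem eq_of_tv_eq (hB : B.IsAlt) {p w q : V} (h : B w p ≠ 0) (e : tv hB q 1 = tv hB p 1) : q = p := by
  have h1 : B w q • q = B w p • p := by simpa [tv_apply] using LinearEquiv.congr_fun e w
  have h2 : B w q * B w q = B w p * B w p := by simpa using congrArg (B w) h1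
  have h3 : B w q = B w p := (mul_self_eq_mul_self_iff.1 h2).elim id fun e => by rw [e, CharTwo.neg_eq]
  exact smul_right_injective V h (h3 ▸ h1)

theorem odd_orderOf_tv [Finite V] (hB : B.IsAlt) {p w : V} (h : B p w ≠ 0) :
    Odd (orderOf (tv hB p 1 * tv hB w 1)) := by
  have : Finite (V ≃ₗ[F] V) := DFunLike.finite _
  refine Nat.not_even_iff_odd.1 fun ⟨k, hk⟩ => ?_
  set g := tv hB p 1 * tv hB w 1 with hg
  have hpos := orderOf_pos g
  have hI : g ^ k ∈ Isom B := pow_mem (mul_mem (tv_mem_isom _ _ _) (tv_mem_isom _ _ _)) k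
  have hz : (g⁻¹) ^ k = g ^ k := by rw [inv_pow, inv_eq_iff_mul_eq_one, ← pow_add, ← hk, pow_orderOf_eq_one]
  have key : ∀ q, tv hB q 1 * g * (tv hB q 1)⁻¹ = g⁻¹ → tv hB ((g ^ k) q) 1 = tv hB q 1 := fun q e => by
    rw [← conj_tv hB hI, mul_inv_eq_iff_eq_mul, eq_comm, ← mul_inv_eq_iff_eq_mul, ← conj_pow, e, hz]
  have i : ∀ q, (tv hB q 1)⁻¹ = tv hB q 1 := fun q => inv_eq_of_mul_eq_one_right (tv_sq hB q)
  refine pow_ne_one_of_lt_orderOf (n := k) (by omega) (by omega) (ext_of_plane hB h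
    (eq_of_tv_eq hB (symm_two hB p w ▸ h) (key p ?_)) (eq_of_tv_eq hB h (key w ?_)) fun x a b => ?_)
  · rw [hg, ← mul_assoc, tv_sq, one_mul, mul_inv_rev, i w]
  · rw [hg, mul_assoc, mul_inv_cancel_right, mul_inv_rev, i, i]
  · have : g ∈ Fix B {x} := ⟨mul_mem (tv_mem_isom _ _ _) (tv_mem_isom _ _ _), fun y hy => by
      rw [hy, hg, LinearEquiv.mul_apply, tv_apply_of_ortho hB _ b, tv_apply_of_ortho hB _ a]⟩
    exact (pow_mem this k).2 x rfl

theorem tv_mul_tv (hB : B.IsAlt) {u u' : V} (h : B u u' = 0) (s : F) :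
    tv hB u 1 * tv hB u' 1 = tv hB (u + (s + 1) • (u + u')) 1 * tv hB (u + s • (u + u')) 1 := by
  have h' : B u' u = 0 := (alt_eq_zero_comm hB).1 h
  have h2 : (2 : F) = 0 := two_eq_zero'
  ext x
  simp only [LinearEquiv.mul_apply, tv_apply, map_add, map_smul, alt_self hB, h, h', smul_eq_mul]
  match_scalars
  · rfl
  · linear_combination (-(B x u) * (s ^ 2 + 3 * s + 2) - B x u' * (s + 1) ^ 2) * h2
  · linear_combination (-(B x u) * (s + 1) ^ 2 - B x u' * (s ^ 2 + s)) * h2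

theorem mem_of_three [Finite V] (hB : B.IsAlt) {u u' w : V} (hu : tv hB u 1 ∈ M) (hu' : tv hB u' 1 ∈ M)
    (hw : tv hB w 1 ∈ M) (h : B u u' = 0) {s : F} (h0 : B (u + s • (u + u')) w = 0) (h1 : B u w ≠ B u' w) :
    tv hB (u + s • (u + u')) 1 ∈ M := by
  have h' : B u' u = 0 := (alt_eq_zero_comm hB).1 h
  have hm := mul_mem (mul_mem hu hu') hw
  rw [tv_mul_tv hB h s] at hm
  have hp : B (u + (s + 1) • (u + u')) w ≠ 0 := by
    rw [add_smul, one_smul, ← add_assoc, map_add, LinearMap.add_apply, h0, zero_add, map_add, LinearMap.add_apply,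
      Ne, CharTwo.add_eq_zero]
    exact h1
  have c1 : Commute (tv hB (u + (s + 1) • (u + u')) 1) (tv hB (u + s • (u + u')) 1) :=
    tv_comm_of_ortho hB (by simp [alt_self hB, h, h']) 1 1
  have c2 : Commute (tv hB w 1) (tv hB (u + s • (u + u')) 1) := (tv_comm_of_ortho hB h0 1 1).symm
  obtain ⟨k, hk⟩ := odd_orderOf_tv hB hp
  have := pow_mem hm (2 * k + 1)
  rwa [mul_assoc, ← c2.eq, ← mul_assoc, (c1.mul_left c2).mul_pow, ← hk, pow_orderOf_eq_one, one_mul, hk, pow_succ,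
    pow_mul, pow_two, tv_sq, one_pow, one_mul] at this

/-- No two transvections of `M` have the same centre. -/
def Thin (hB : B.IsAlt) (M : Subgroup (V ≃ₗ[F] V)) : Prop :=
  ∀ (v : V) (a : F), v ≠ 0 → tv hB v 1 ∈ M → tv hB (a • v) 1 ∈ M → a = 0 ∨ a = 1

omit [CharP F 2] in
theorem Thin.eq {hB : B.IsAlt} (hT : Thin hB M) {a b : V} (ha : tv hB a 1 ∈ M) (hb : tv hB b 1 ∈ M) (ha0 : a ≠ 0)
    (hb0 : b ≠ 0) {x y : F} (h : x • a = y • b) (hy : y ≠ 0) : a = b := by
  have e : b = (x / y) • a := by rw [div_eq_inv_mul, mul_smul, h, inv_smul_smul₀ hy]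
  rcases hT a (x / y) ha0 ha (e ▸ hb) with h1 | h1
  · exact absurd (by rw [e, h1, zero_smul]) hb0
  · rw [e, h1, one_smul]

omit [CharP F 2] in
theorem Thin.indep {hB : B.IsAlt} (hT : Thin hB M) {a b : V} (ha : tv hB a 1 ∈ M) (hb : tv hB b 1 ∈ M) (ha0 : a ≠ 0)
    (hb0 : b ≠ 0) (hab : a ≠ b) {x y : F} (h : x • a + y • b = 0) : x = 0 ∧ y = 0 := by
  have hy : y = 0 := by_contra fun hy => hab (hT.eq ha hb ha0 hb0 (x := -x) (by
    rw [neg_smul]; exact (eq_neg_of_add_eq_zero_right h).symm) hy)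
  exact ⟨(smul_eq_zero.1 (by simpa [hy] using h)).resolve_right ha0, hy⟩

omit [CharP F 2] in
/-- Two centres on the line `⟨a, b⟩` that are orthogonal to `w` coincide. -/
theorem Thin.ker {hB : B.IsAlt} (hT : Thin hB M) {a b w : V} (ha : tv hB a 1 ∈ M) (hb : tv hB b 1 ∈ M) (ha0 : a ≠ 0)
    (hb0 : b ≠ 0) (hab : a ≠ b) (hw : B a w ≠ 0 ∨ B b w ≠ 0) {x y x' y' : F} (h : tv hB (x • a + y • b) 1 ∈ M)
    (h' : tv hB (x' • a + y' • b) 1 ∈ M) (h0 : x ≠ 0 ∨ y ≠ 0) (h0' : x' ≠ 0 ∨ y' ≠ 0)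
    (e : x * B a w + y * B b w = 0) (e' : x' * B a w + y' * B b w = 0) : x = x' ∧ y = y' := by
  have n : ∀ {x y : F}, x ≠ 0 ∨ y ≠ 0 → x • a + y • b ≠ 0 := fun h e => by
    have := hT.indep ha hb ha0 hb0 hab e
    tauto
  have d : x * y' = x' * y := by
    rcases hw with hw | hw
    · exact mul_right_cancel₀ hw (by linear_combination y' * e - y * e')
    · exact mul_right_cancel₀ hw (by linear_combination x * e' - x' * e)
  have : x • a + y • b = x' • a + y' • b := by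
    rcases h0 with hx | hy
    · exact hT.eq h h' (n (.inl hx)) (n h0') (x := x') (by linear_combination (norm := module) -d • b) hx
    · exact hT.eq h h' (n (.inr hy)) (n h0') (x := y') (by linear_combination (norm := module) d • a) hy
  have := hT.indep ha hb ha0 hb0 hab (x := x - x') (y := y - y') (by linear_combination (norm := module) this)
  exact ⟨sub_eq_zero.1 this.1, sub_eq_zero.1 this.2⟩

variable [Finite V]

theorem Thin.cases {hB : B.IsAlt} (hT : Thin hB M) {a b w : V} (ha : tv hB a 1 ∈ M) (hb : tv hB b 1 ∈ M) (ha0 : a ≠ 0)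
    (hb0 : b ≠ 0) (hab : a ≠ b) (h0 : B a b = 0) {l m : F} (hc : tv hB (l • a + m • b) 1 ∈ M) (hl : l ≠ 0)
    (hm : m ≠ 0) (hlm : l + m ≠ 1) (hw : tv hB w 1 ∈ M) (h : B a w ≠ 0 ∨ B b w ≠ 0) :
    (B a w = 0 ∧ m = 1) ∨ (B b w = 0 ∧ l = 1) ∨ (B a w = B b w ∧ l = m) := by
  have h2 : (2 : F) = 0 := two_eq_zero'
  have h0' : B b a = 0 := (alt_eq_zero_comm hB).1 h0
  set α := B a w with hα
  set β := B b w with hβ
  have z : ∀ {u u' : V}, tv hB u 1 ∈ M → tv hB u' 1 ∈ M → B u u' = 0 → B u w ≠ B u' w →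
      ∃ s, s * (B u w + B u' w) = B u w ∧ tv hB (u + s • (u + u')) 1 ∈ M := fun {u u'} a1 a2 a3 a4 => by
    have a5 : B u w + B u' w ≠ 0 := by rwa [Ne, CharTwo.add_eq_zero]
    exact ⟨_, div_mul_cancel₀ _ a5, mem_of_three hB a1 a2 hw a3 (by
      simp only [map_add, map_smul, LinearMap.add_apply, LinearMap.smul_apply, smul_eq_mul, div_mul_cancel₀ _ a5,
        CharTwo.add_self_eq_zero]) a4⟩
  have z1 : α ≠ β → ∃ s, s * (α + β) = α ∧ tv hB ((1 + s) • a + s • b) 1 ∈ M := fun e => by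
    obtain ⟨s, e1, e2⟩ := z ha hb h0 e
    exact ⟨s, e1, by convert e2 using 2; module⟩
  have z2 : α ≠ l * α + m * β → ∃ s, s * (α + (l * α + m * β)) = α ∧
      tv hB ((1 + s + s * l) • a + (s * m) • b) 1 ∈ M := fun e => by
    obtain ⟨s, e1, e2⟩ := z ha hc (by simp [alt_self hB, h0]) (by simpa using e)
    exact ⟨s, by simpa using e1, by convert e2 using 2; module⟩
  have z3 : β ≠ l * α + m * β → ∃ s, s * (β + (l * α + m * β)) = β ∧
      tv hB ((s * l) • a + (1 + s + s * m) • b) 1 ∈ M := fun e => by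
    obtain ⟨s, e1, e2⟩ := z hb hc (by simp [alt_self hB, h0']) (by simpa using e)
    exact ⟨s, by simpa using e1, by convert e2 using 2; module⟩
  have n1 : ∀ s : F, 1 + s ≠ 0 ∨ s ≠ 0 := fun s => by by_cases e : s = 0 <;> simp [e]
  have n2 : ∀ s k k' : F, k' ≠ 0 → 1 + s + s * k ≠ 0 ∨ s * k' ≠ 0 := fun s k k' hk => by
    by_cases e : s = 0 <;> simp [e, hk]
  have hlm' : 1 + l + m ≠ 0 := fun e => hlm (by linear_combination e - h2)
  by_cases e : α = β
  · have hα0 : α ≠ 0 := by rw [← e] at h; tauto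
    have e1 : α ≠ l * α + m * β := fun e' => hlm (mul_right_cancel₀ hα0 (by linear_combination -e' + m * e))
    obtain ⟨s, a1, a2⟩ := z2 e1
    obtain ⟨s', b1, b2⟩ := z3 (e ▸ e1)
    obtain ⟨c1, -⟩ := hT.ker ha hb ha0 hb0 hab h a2 b2 (n2 s l m hm) (n2 s' m l hl).symm
      (by linear_combination a1 + α * h2) (by linear_combination b1 + β * h2)
    have c2 : s = s' := mul_right_cancel₀ (mul_ne_zero hlm' hα0) (by
      linear_combination a1 - b1 + (s * m + 1 - s' - s' * m) * e)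
    have c3 : s = 1 := by linear_combination c1 - l * c2 - h2
    exact .inr (.inr ⟨e, mul_right_cancel₀ hα0 (by rw [c3] at a1; linear_combination a1 + m * e - m * α * h2)⟩)
  obtain ⟨s, a1, a2⟩ := z1 e
  have k2 : α ≠ l * α + m * β → α = 0 := fun e' => by
    obtain ⟨s', b1, b2⟩ := z2 e'
    obtain ⟨c1, c2⟩ := hT.ker ha hb ha0 hb0 hab h a2 b2 (n1 s) (n2 s' l m hm)
      (by linear_combination a1 + α * h2) (by linear_combination b1 + α * h2)
    have : s' = 0 := (mul_eq_zero.1 (show s' * (1 + l + m) = 0 by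
      linear_combination -c1 - c2 + s * h2)).resolve_right hlm'
    rw [← b1, this, zero_mul]
  have k3 : β ≠ l * α + m * β → β = 0 := fun e' => by
    obtain ⟨s', b1, b2⟩ := z3 e'
    obtain ⟨c1, c2⟩ := hT.ker ha hb ha0 hb0 hab h a2 b2 (n1 s) (n2 s' m l hl).symm
      (by linear_combination a1 + α * h2) (by linear_combination b1 + β * h2)
    have : s' = 0 := (mul_eq_zero.1 (show s' * (1 + l + m) = 0 by
      linear_combination -c1 - c2 + s * h2)).resolve_right hlm'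
    rw [← b1, this, zero_mul]
  by_cases e' : α = l * α + m * β
  · have hb' := k3 fun e'' => e (e'.trans e''.symm)
    have hα0 : α ≠ 0 := fun e'' => e (e''.trans hb'.symm)
    exact .inr (.inl ⟨hb', mul_right_cancel₀ hα0 (by rw [hb'] at e'; linear_combination -e')⟩)
  · have ha' := k2 e'
    have hβ0 : β ≠ 0 := fun e'' => e (ha'.trans e''.symm)
    refine .inl ⟨ha', mul_right_cancel₀ hβ0 ?_⟩
    have := by_contra fun e'' => hβ0 (k3 e'')
    rw [ha'] at this
    linear_combination -this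

theorem Thin.noncoll {hB : B.IsAlt} (hT : Thin hB M) (hN : B.Nondegenerate)
    (hY : Submodule.span F {w | tv hB w 1 ∈ M} = ⊤) {a b : V} (ha : tv hB a 1 ∈ M) (hb : tv hB b 1 ∈ M) (ha0 : a ≠ 0)
    (hb0 : b ≠ 0) (hab : a ≠ b) (h0 : B a b = 0) {l m : F} (hc : tv hB (l • a + m • b) 1 ∈ M)
    (hc0 : l • a + m • b ≠ 0) (hlm : l + m ≠ 1) : l = 1 ∧ m = 1 := by
  have hl : l ≠ 0 := by
    rintro rfl
    rcases hT b m hb0 hb (by simpa using hc) with e | e <;> simp [e] at hc0 hlm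
  have hm : m ≠ 0 := by
    rintro rfl
    rcases hT a l ha0 ha (by simpa using hc) with e | e <;> simp [e] at hc0 hlm
  have k := fun w hw h => hT.cases (w := w) ha hb ha0 hb0 hab h0 hc hl hm hlm hw h
  obtain ⟨w₁, a1, b1⟩ := exists_ne_zero_of_span hN hY ha0
  obtain ⟨w₂, a2, b2⟩ := exists_ne_zero_of_span hN hY hb0
  obtain ⟨w₃, a3, b3⟩ := exists_ne_zero_of_span hN hY (sub_ne_zero.2 hab)
  rw [map_sub, LinearMap.sub_apply, sub_ne_zero] at b3
  have c1 := k w₁ a1 (.inl b1)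
  have c2 := k w₂ a2 (.inr b2)
  have c3 := k w₃ a3 (by by_contra h; push Not at h; exact b3 (h.1.trans h.2.symm))
  by_cases e : l = m
  · subst e; tauto
  · tauto

theorem Thin.val {hB : B.IsAlt} (hT : Thin hB M) (hM : M ≤ Isom B) (hN : B.Nondegenerate)
    (hY : Submodule.span F {w | tv hB w 1 ∈ M} = ⊤) {a b w : V} (ha : tv hB a 1 ∈ M) (hb : tv hB b 1 ∈ M)
    (hc : tv hB (a + b) 1 ∈ M) (hc0 : a + b ≠ 0) (h0 : B a b = 0) (hw : tv hB w 1 ∈ M) (e : B a w = B b w)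
    (h : B a w ≠ 0) : B a w = 1 := by
  have h1 := tv_conj_mem hB ha (hM ha) hw
  have h2 := tv_conj_mem hB hb (hM hb) hw
  have h0' : B b a = 0 := (alt_eq_zero_comm hB).1 h0
  rw [tv_apply, one_mul, symm_two hB w] at h1 h2
  have h3 : w + B b w • b = (1 : F) • (w + B a w • a) + B a w • (a + b) := by
    rw [← e]; linear_combination (norm := module) -two_eq_zero' (F := F) • (B a w • a)
  refine (hT.noncoll hN hY h1 hc (fun e' => h ?_) hc0 (fun e' => h ?_) ?_ (h3 ▸ h2) (h3 ▸ fun e' => h ?_)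
    (by simpa using h)).2
  · simpa [alt_self hB] using congrArg (B a) e'
  · simpa [alt_self hB, h0] using congrArg (B a) e'
  · simp [alt_self hB, h0, symm_two hB w, e, CharTwo.add_self_eq_zero]
  · simpa [h0] using congrArg (B a) e'

omit [CharP F 2] [Finite V] in
theorem exists_comb (hB : B.IsAlt) (hN : B.Nondegenerate) (h4 : finrank F V = 4) {a b x : V}
    (hab : LinearIndependent F ![a, b]) (h0 : B a b = 0) (h1 : B a x = 0) (h2 : B b x = 0) :
    ∃ l m : F, l • a + m • b = x := by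
  have : FiniteDimensional F V := Module.finite_of_finrank_eq_succ h4
  have h0' : B b a = 0 := (alt_eq_zero_comm hB).1 h0
  have o : ∀ x, B a x = 0 → B b x = 0 → x ∈ B.orthogonal (Submodule.span F {a, b}) := fun x e1 e2 y hy => by
    obtain ⟨s, t, rfl⟩ := Submodule.mem_span_pair.1 hy
    simp [e1, e2]
  have d : finrank F (Submodule.span F {a, b}) = 2 := by
    have := finrank_span_eq_card hab
    rwa [Matrix.range_cons_cons_empty, Fintype.card_fin] at this
  have := Submodule.eq_of_le_of_finrank_eq (S₁ := Submodule.span F {a, b}) (Submodule.span_le.2 (by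
    rintro _ (rfl | rfl)
    exacts [o _ (alt_self hB _) h0', o _ h0 (alt_self hB _)]))
    (by rw [LinearMap.BilinForm.finrank_orthogonal hN, d, h4])
  exact Submodule.mem_span_pair.1 (this ▸ o x h1 h2)

/-- The transfer argument. -/
theorem Thin.not_coll {hB : B.IsAlt} (hT : Thin hB M) (hM : M ≤ Isom B) (hN : B.Nondegenerate) (h4 : finrank F V = 4)
    [IsSimpleGroup M] (hna : Nat.card M ≠ 2) {v : V} (hv0 : v ≠ 0) (hv : tv hB v 1 ∈ M)
    (hc : ∀ (a b : V) (l m : F), tv hB a 1 ∈ M → tv hB b 1 ∈ M → a ≠ 0 → b ≠ 0 → a ≠ b → B a b = 0 →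
      tv hB (l • a + m • b) 1 ∈ M → l • a + m • b ≠ 0 → l + m = 1) : False := by
  have : Finite (V ≃ₗ[F] V) := DFunLike.finite _
  have : FiniteDimensional F V := Module.finite_of_finrank_eq_succ h4
  have ex : ∀ {p : V}, p ≠ 0 → ∃ w, B w p ≠ 0 := fun {p} hp => by_contra fun h => hp (hN.2 p (by simpa using h))
  let t : M := ⟨_, hv⟩
  have ht2 : t * t = 1 := Subtype.ext (tv_sq hB v)
  have ht : orderOf t = 2 := orderOf_eq_prime (by rwa [pow_two]) fun e => by
    obtain ⟨w, hw⟩ := ex hv0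
    exact hv0 (eq_of_tv_eq hB hw ((tv_zero_left hB 1).trans (congrArg Subtype.val e).symm)).symm
  have hcj : ∀ (g : M) (p : V) (hp : tv hB p 1 ∈ M), g * ⟨_, hp⟩ * g⁻¹ = ⟨_, tv_conj_mem hB g.2 (hM g.2) hp⟩ :=
    fun g p hp => Subtype.ext (conj_tv hB (hM g.2) p 1)
  obtain ⟨g, h1, h2⟩ := CL.Inv.exists_commuting_conj_of_simple hna ht
  have pg : ∀ y : M, orderOf y = 2 → IsPGroup 2 (Subgroup.zpowers y) := fun y hy =>
    IsPGroup.of_card (n := 1) (by rw [Nat.card_zpowers, hy, pow_one])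
  obtain ⟨S, hS⟩ := ((pg t ht).to_sup_of_normal_right' (pg (g * t * g⁻¹) (by
    rw [← ht]; exact MulEquiv.orderOf_eq (MulAut.conj g) t)) (Subgroup.zpowers_le.2
      (Subgroup.centralizer_le_normalizer _ fun y hy => by
        obtain ⟨k, rfl⟩ := hy
        exact (h1.zpow_right k).symm.eq))).exists_le_sylow
  have s0 : t ∈ S := hS (Subgroup.mem_sup_left (Subgroup.mem_zpowers _))
  have s1 : g * t * g⁻¹ ∈ S := hS (Subgroup.mem_sup_right (Subgroup.mem_zpowers _))
  rw [hcj] at s1 h2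
  obtain ⟨v', hv1, hv10, s1, hne⟩ : ∃ (v' : V) (hv1 : tv hB v' 1 ∈ M), v' ≠ 0 ∧ (⟨_, hv1⟩ : M) ∈ S ∧ v ≠ v' :=
    ⟨_, _, by simpa using hv0, s1, fun e => h2 (Subtype.ext (congrArg (tv hB · 1) e.symm))⟩
  have orth : ∀ {p q : V} (hp : tv hB p 1 ∈ M) (hq : tv hB q 1 ∈ M), (⟨_, hp⟩ : M) ∈ S → (⟨_, hq⟩ : M) ∈ S →
      B p q = 0 := fun {p q} hp hq a b => by
    by_contra h
    obtain ⟨k, hk⟩ := S.isPGroup'.exists_orderOf_dvd_pow ⟨_, mul_mem a b⟩
    have e1 := odd_orderOf_tv hB h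
    have e2 : orderOf (tv hB p 1 * tv hB q 1) ∣ 2 ^ k := by
      rwa [← Subgroup.orderOf_coe, ← Subgroup.orderOf_coe] at hk
    have e3 := orderOf_eq_one_iff.1 (Nat.eq_one_of_dvd_coprimes (e1.coprime_two_right.pow_right k) dvd_rfl e2)
    rw [eq_of_tv_eq hB h ((eq_inv_of_mul_eq_one_left e3).trans (inv_eq_of_mul_eq_one_right (tv_sq hB q))),
      alt_self hB] at h
    exact h rfl
  have hli : LinearIndependent F ![v, v'] := LinearIndependent.pair_iff.2 fun s r => hT.indep hv hv1 hv0 hv10 hne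
  have h0 := orth hv hv1 s0 s1
  obtain ⟨x, x0, x1⟩ : ∃ x, B x v = 1 ∧ B x v' = 1 := by
    obtain ⟨y, hy, e⟩ := exists_orth_ne_zero hB hN (W := Submodule.span F {v - v'}) (x := v) fun h => by
      obtain ⟨s, hs⟩ := Submodule.mem_span_singleton.1 h
      have := hT.indep hv hv1 hv0 hv10 hne (x := s - 1) (y := -s) (by linear_combination (norm := module) hs)
      simp [neg_eq_zero.1 this.2] at this
    have e' : B v y = B v' y := by
      simpa [sub_eq_zero] using mem_orth.1 hy _ (Submodule.mem_span_singleton_self _)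
    exact ⟨(B v y)⁻¹ • y, by simp [symm_two hB y, e], by simp [symm_two hB y, ← e', e]⟩
  have P : ∀ {p : V} (hp : tv hB p 1 ∈ M), p ≠ 0 → (⟨_, hp⟩ : M) ∈ S → B x p = 1 := fun {p} hp hp0 a => by
    obtain ⟨l, m, rfl⟩ := exists_comb hB hN h4 hli h0 (orth hv hp s0 a) (orth hv1 hp s1 a)
    simpa [x0, x1] using hc _ _ l m hv hv1 hv0 hv10 hne h0 hp hp0
  have P' : ∀ (s : S) {p : V} (hp : tv hB p 1 ∈ M), p ≠ 0 → (⟨_, hp⟩ : M) ∈ S → B x (s.1.1 p) = 1 :=
    fun s p hp hp0 a => P (tv_conj_mem hB s.1.2 (hM s.1.2) hp) (by simpa using hp0)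
      (hcj _ _ hp ▸ mul_mem (mul_mem s.2 a) (inv_mem s.2))
  have hd : ∀ r s : S, B x (r.1.1 (s.1.1 x)) = B x (r.1.1 x) + B x (s.1.1 x) := fun r s => by
    have e : ∀ {p : V} (hp : tv hB p 1 ∈ M), p ≠ 0 → (⟨_, hp⟩ : M) ∈ S → B p (s.1.1 x - x) = 0 :=
      fun {p} hp hp0 a => by
        rw [map_sub, isom_right (hM s.1.2), symm_two hB p, P hp hp0 a, symm_two hB, sub_eq_zero]
        exact P' s⁻¹ hp hp0 a
    obtain ⟨l, m, h⟩ := exists_comb hB hN h4 hli h0 (e hv hv0 s0) (e hv1 hv10 s1)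
    rw [eq_add_of_sub_eq h.symm]
    simp [P' r hv hv0 s0, P' r hv1 hv10 s1, x0, x1, alt_self hB, add_comm]
  let _ := ZMod.algebra F 2
  obtain ⟨χ, hχ⟩ := CL.SLn.exists_dual_eq_one (F := ZMod 2) (one_ne_zero (α := F))
  let φ : S →* Multiplicative (ZMod 2) := MonoidHom.mk' (fun s => .ofAdd (χ (B x (s.1.1 x)))) fun r s => by
    rw [← ofAdd_add, ← map_add, ← hd]; rfl
  have hφ : ∀ {p : V} (hp : tv hB p 1 ∈ M) (_ : p ≠ 0) (a : (⟨_, hp⟩ : M) ∈ S), φ ⟨_, a⟩ = .ofAdd 1 :=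
    fun {p} hp hp0 a => by
      change Multiplicative.ofAdd (χ (B x (tv hB p 1 x))) = _
      simp [tv_apply, P hp hp0 a, alt_self hB, hχ]
  obtain ⟨N, hN1, hN2, -⟩ := CL.Transfer.thompson_transfer (S : Subgroup M) (φ.ker.map (S : Subgroup M).subtype)
    (CL.Transfer.odd_index_sylow_two S) (by
      rw [Subgroup.relIndex, Subgroup.subgroupOf, Subgroup.comap_map_eq_self_of_injective Subtype.val_injective,
        Subgroup.index_ker, MonoidHom.range_eq_top.2, Subgroup.card_top]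
      · simp
      · intro y
        rcases (show ∀ y : Multiplicative (ZMod 2), y = 1 ∨ y = .ofAdd 1 by decide) y with rfl | rfl
        exacts [⟨1, map_one φ⟩, ⟨_, hφ hv hv0 s0⟩]) t (by rwa [pow_two]) fun k ⟨⟨y, hy⟩, e1, e2⟩ => by
      obtain rfl : y = _ := e2.trans (hcj k v hv)
      exact absurd ((hφ _ (by simpa using hv0) hy).symm.trans e1) (by decide)
  rcases hN1.eq_bot_or_eq_top with rfl | rfl
  · exact hna (by simpa using hN2)
  · simp at hN2

theorem tv_struct [Finite F] {hB : B.IsAlt} (hM : M ≤ Isom B) (hN : B.Nondegenerate) (h4 : finrank F V = 4)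
    [IsSimpleGroup M] (hna : Nat.card M ≠ 2)
    (hirr : ∀ W : Submodule F V, (∀ g ∈ M, ∀ w ∈ W, g w ∈ W) → W = ⊥ ∨ W = ⊤) (hq : ∃ c : F, c ≠ 0 ∧ c ≠ 1) {v : V}
    (hv0 : v ≠ 0) (hv : tv hB v 1 ∈ M) :
    ∃ (K : Subfield F) (a : V), a ≠ 0 ∧ (∀ g ∈ M, B a (g a) ∈ K) ∧ (K = ⊤ → Isom B ≤ M) := by
  have : FiniteDimensional F V := Module.finite_of_finrank_eq_succ h4
  have hY : Submodule.span F {w | tv hB w 1 ∈ M} = ⊤ := eq_top_iff.2 (span_orbit hirr hv0 ▸ Submodule.span_mono (by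
    rintro _ ⟨g, hg, rfl⟩
    exact tv_conj_mem hB hg (hM hg) hv))
  by_cases hT : Thin hB M
  · have := mt (hT.not_coll hM hN h4 hna hv0 hv) id
    push Not at this
    obtain ⟨a, b, l, m, ha, hb, ha0, hb0, hab, h0, hc, hc0, hlm⟩ := this
    obtain ⟨rfl, rfl⟩ := hT.noncoll hN hY ha hb ha0 hb0 hab h0 hc hc0 hlm
    have hK : ∀ x : F, x ∈ (frobenius F 2).eqLocusField (RingHom.id F) ↔ x = 0 ∨ x = 1 := fun x => by
      change x ^ 2 = x ↔ _
      rw [pow_two, mul_left_eq_self₀, or_comm]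
    refine ⟨_, a, ha0, fun g hg => (hK _).2 (or_iff_not_imp_left.2 fun h => ?_), fun e => ?_⟩
    · have hw := tv_conj_mem hB hg (hM hg) ha
      rcases hT.cases ha hb ha0 hb0 hab h0 hc one_ne_zero one_ne_zero hlm hw (.inl h) with e | e | e
      · exact absurd e.1 h
      · rw [one_smul, one_smul] at hc
        have e' : a + (a + b) = b := by linear_combination (norm := module) two_eq_zero' (F := F) • a
        exact hT.val hM hN hY ha hc (e'.symm ▸ hb) (e'.symm ▸ hb0) (by simp [alt_self hB, h0]) hw (by simp [e.1]) h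
      · rw [one_smul, one_smul] at hc hc0
        exact hT.val hM hN hY ha hb hc hc0 h0 hw e.1 h
    · obtain ⟨c, h1, h2⟩ := hq
      exact absurd ((hK c).1 (e ▸ Subfield.mem_top c)) (by tauto)
  simp only [Thin, not_forall, not_or] at hT
  obtain ⟨u, a, hu0, hu, hau, a0, a1⟩ := hT
  rw [tv_smul, mul_one] at hau
  have a2 : a ^ 2 ≠ 1 := fun e => (sq_eq_one_iff.1 e).elim a1 fun e => a1 (by rw [e, CharTwo.neg_eq])
  have key : ∀ w, tv hB w 1 ∈ M → B u w ≠ 0 → ∃ L : Subfield F, (∀ c, tv hB u c ∈ M ↔ c ∈ L) ∧ B u w ∈ L :=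
    fun w hw h => by
      obtain ⟨L, k, -⟩ := tv_big hB hM h one_ne_zero hw hu hau one_ne_zero (pow_ne_zero 2 a0) a2
        (by rwa [CharTwo.neg_eq])
      have k1 : B u w ^ 2 ∈ L := by simpa using (k 1).1 hu
      refine ⟨L, fun c => (k c).trans ⟨fun e => ?_, fun e => by simpa using L.mul_mem k1 e⟩, ?_⟩
      · simpa [h] using L.mul_mem (L.inv_mem k1) e
      · obtain ⟨y, hy⟩ := mem_range_of_sq_char_two (F₀ := L) (β := B u w) two_eq_zero' ⟨⟨_, k1⟩, rfl⟩
        exact hy ▸ y.2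
  obtain ⟨w, hw, h⟩ := exists_ne_zero_of_span hN hY hu0
  obtain ⟨K, hK, -⟩ := key w hw h
  refine ⟨K, u, hu0, fun g hg => ?_, fun e => ?_⟩
  · by_cases h0 : B u (g u) = 0
    · exact h0 ▸ K.zero_mem
    · obtain ⟨L, hL, h1⟩ := key _ (tv_conj_mem hB hg (hM hg) hu) h0
      exact (hK _).1 ((hL _).2 h1)
  have hc : ∀ g ∈ M, g u ∈ Cen hB M := fun g hg c => tv_conj_mem hB hg (hM hg) ((hK c).2 (e ▸ Subfield.mem_top c))
  refine isom_le_of_cen_conn hB hN hq (hc 1 (one_mem _)) fun S hS h => ?_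
  let N : Subgroup M :=
    { carrier := {g | ∀ k ∈ M, ∀ x ∈ S, (k * g * k⁻¹) x ∈ S}
      one_mem' := fun k _ x hx => by simpa using hx
      mul_mem' := fun {a b} ha hb k hk x hx => by
        rw [show k * (a * b : M) * k⁻¹ = k * a * k⁻¹ * (k * b * k⁻¹) by simp [mul_assoc]]
        exact ha k hk _ (hb k hk x hx)
      inv_mem' := fun {a} ha k hk x hx => by
        obtain ⟨y, hy, e⟩ := CL.SLn.exists_preimage_of_invariant (g := (k * a * k⁻¹ : V ≃ₗ[F] V))
          (LinearEquiv.injective _) (ha k hk) hx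
        rwa [← e, show k * (a⁻¹ : M) * k⁻¹ = (k * a * k⁻¹)⁻¹ by simp [mul_assoc], LinearEquiv.coe_coe,
          inv_apply_apply] }
  have hN' : N.Normal := ⟨fun a ha g k hk x hx => by
    simpa [mul_assoc] using ha (k * g) (mul_mem hk g.2) x hx⟩
  have ht : (⟨_, hu⟩ : M) ∈ N := fun k hk x hx => by
    rw [conj_tv hB (hM hk), tv_apply]
    by_cases h0 : B x (k u) = 0
    · simpa [h0] using hx
    · exact S.add_mem hx (S.smul_mem _ (h _ (hc k hk) x hx h0))
  rcases hN'.eq_bot_or_eq_top with e' | e'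
  · rw [e', Subgroup.mem_bot] at ht
    obtain ⟨y, hy⟩ : ∃ y, B y u ≠ 0 := by_contra fun h => hu0 (hN.2 u (by simpa using h))
    exact absurd (eq_of_tv_eq hB hy ((tv_zero_left hB 1).trans (congrArg Subtype.val ht).symm)).symm hu0
  · refine (hirr S fun g hg x hx => ?_).resolve_left fun e => hu0 (by simpa [e] using hS)
    simpa using (show (⟨g, hg⟩ : M) ∈ N from e' ▸ Subgroup.mem_top _) 1 (one_mem _) x hx

end Two

open Matrix Cfsg CL.Asch in
theorem t4Even : T4Even.{u} := by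
  intro F _ _ G h2 h4 hG hs hna hI ⟨t, htG, ht⟩
  have : CharP F 2 := (CharP.charP_iff_prime_eq_zero Nat.prime_two).2 (by exact_mod_cast h2)
  have hB := stdForm_isAlt (Fin 2) F
  have hN := stdForm_nondegenerate (Fin 2) F
  let M := G.map (glEquiv I4 F).toMonoidHom
  let e : G ≃* M := G.equivMapOfInjective _ (glEquiv I4 F).injective
  have := e.symm.isSimpleGroup
  have hM : M ≤ CL.Sp.Isom (stdForm (Fin 2) F) := by
    rintro _ ⟨g, hg, rfl⟩
    exact (mem_spGL_iff g).1 (hG hg)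
  have hirr : ∀ W : Submodule F (I4 → F), (∀ g ∈ M, ∀ w ∈ W, g w ∈ W) → W = ⊥ ∨ W = ⊤ := fun W hW =>
    irr_iff.1 hI W fun g hg => hW _ ⟨g, hg, rfl⟩
  obtain ⟨v, c, hv, hc, hx⟩ := ht.exists_sp (hG htG)
  obtain ⟨s, rfl⟩ := FiniteField.isSquare_of_char_two (CharP.ringChar_of_prime_eq_zero Nat.prime_two h2) c
  obtain ⟨K, a, ha, hK, htop⟩ := tv_struct (hB := hB) hM hN (by simp) (fun h => hna (by
      rw [← Nat.card_congr e.toEquiv] at h
      exact (isCyclic_of_prime_card h).isMulCommutative)) hirr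
    (by
      classical
      obtain ⟨x, -, hx⟩ := Finset.exists_mem_notMem_of_card_lt_card (s := {(0 : F), 1}) (t := Finset.univ)
        (lt_of_le_of_lt Finset.card_le_two (by rw [Finset.card_univ]; omega))
      exact ⟨x, by simpa [not_or] using hx⟩)
    (v := s • v) (smul_ne_zero (fun e => hc (by simp [e])) hv) ⟨t, htG, LinearEquiv.ext fun x => by
      rw [tv_smul, tv_apply, symm_two hB x, mul_one, pow_two]; exact hx x⟩
  obtain ⟨c, h5, -, h6⟩ := exists_desc hB hN (K := K) (W := Submodule.span K {w | ∃ g ∈ M, g a = w})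
    (by rw [Submodule.span_span_of_tower, span_orbit hirr ha]) (form_mem_span (by
      rintro _ ⟨g, hg, rfl⟩ _ ⟨k, hk, rfl⟩
      rw [isom_left (hM hg)]
      exact hK (g⁻¹ * k) (mul_mem (inv_mem hg) hk)))
  refine ⟨K, c, (mem_spGL_iff c).2 h5, h6 G fun g hg x hx => ?_, fun e g hg => ?_⟩
  · refine apply_mem_span (g.1.mulVecLin.restrictScalars K) ?_ hx
    rintro _ ⟨k, hk, rfl⟩
    exact Submodule.subset_span ⟨glEquiv I4 F g * k, mul_mem ⟨g, hg, rfl⟩ hk, rfl⟩
  · obtain ⟨k, hk, e'⟩ := htop e ((mem_spGL_iff g).1 hg)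
    exact (glEquiv I4 F).injective e' ▸ hk

end CL.Low
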